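import Mathlib
import Cfsg.Agent.Lib.Helper94.Symp

set_option autoImplicit false
set_option linter.unusedSimpArgs false
set_option linter.unusedVariables false

/-! Formal computations with symplectic transvections and "short root elements". -/

namespace Cfsg.Agent.Lib.Helper45.SpSub

open LinearMap (BilinForm)
open Module Cfsg.Agent.Lib.Helper94

variable {F V : Type*} [Field F] [AddCommGroup V] [Module F V]
variable {B : BilinForm F V} (hA : B.IsAlt)

lemma st_mul (v : V) (a b : F) : st B hA v a * st B hA v b = st B hA v (a + b) := by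
  ext x
  simp only [LinearEquiv.mul_apply, st_apply, map_add, map_smul, LinearMap.add_apply,
    LinearMap.smul_apply, smul_eq_mul, hA v]
  module

lemma st_zero (v : V) : st B hA v 0 = 1 := by
  ext x
  simp [st_apply]

lemma st_inv (v : V) (a : F) : (st B hA v a)⁻¹ = st B hA v (-a) := by
  rw [inv_eq_iff_mul_eq_one, st_mul, add_neg_cancel, st_zero]

/-- the short root element `x ↦ x + B x a • w + B x w • a` (for `B a w = 0`) -/
noncomputable def sr (a w : V) : V ≃ₗ[F] V :=
  st B hA (a + w) 1 * st B hA a (-1) * st B hA w (-1)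

lemma sr_apply {a w : V} (h : B a w = 0) (x : V) : sr hA a w x = x + B x a • w + B x w • a := by
  have h' : B w a = 0 := by rw [alt_swap hA, h, neg_zero]
  simp only [sr, LinearEquiv.mul_apply, st_apply, map_add, map_smul, LinearMap.add_apply,
    LinearMap.smul_apply, smul_eq_mul, hA a, hA w, h, h']
  module

lemma sr_isIsom (a w : V) : IsIsom B (sr hA a w) :=
  ((st_isIsom B hA _ _).mul (st_isIsom B hA _ _)).mul (st_isIsom B hA _ _)

lemma conj_sr {g : V ≃ₗ[F] V} (hg : IsIsom B g) (a w : V) :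
    g * sr hA a w * g⁻¹ = sr hA (g a) (g w) := by
  unfold sr
  rw [← map_add, ← conj_st hA hg, ← conj_st hA hg, ← conj_st hA hg]
  group

lemma sr_comm {a w : V} (h : B a w = 0) : sr hA a w = sr hA w a := by
  have h' : B w a = 0 := by rw [alt_swap hA, h, neg_zero]
  ext x
  rw [sr_apply hA h, sr_apply hA h']
  module

lemma sr_smul {a w : V} (h : B a w = 0) (c : F) : sr hA (c • a) w = sr hA a (c • w) := by
  ext x
  rw [sr_apply hA (by simp [h]), sr_apply hA (by simp [h])]
  simp only [map_smul, smul_eq_mul]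
  module

lemma sr_add_left {a a' w : V} (h : B a w = 0) (h' : B a' w = 0) (haa : B a a' = 0) :
    sr hA (a + a') w = sr hA a w * sr hA a' w := by
  have h1 : B w a = 0 := by rw [alt_swap hA, h, neg_zero]
  have h2 : B a' a = 0 := by rw [alt_swap hA, haa, neg_zero]
  ext x
  rw [LinearEquiv.mul_apply, sr_apply hA (by simp [h, h']), sr_apply hA h, sr_apply hA h']
  simp only [map_add, map_smul, LinearMap.add_apply, LinearMap.smul_apply, smul_eq_mul, hA w, h1, h2, h']
  module

lemma sr_zero (w : V) : sr hA (0 : V) w = 1 := by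
  ext x
  rw [sr_apply hA (by simp)]
  simp

lemma sr_inv {a w : V} (h : B a w = 0) : (sr hA a w)⁻¹ = sr hA (-a) w := by
  rw [inv_eq_iff_mul_eq_one, ← sr_add_left hA h (by simp [h]) (by simp [hA a]), add_neg_cancel, sr_zero]

/-- four term identity -/
lemma four_term {p q r : V} (hpq : B p q = 0) (hpr : B p r = 0) (hqr : B q r = 0) :
    st B hA (p + q + r) 1 * st B hA (p + q) (-1) * st B hA (p + r) (-1) * st B hA p 1 = sr hA q r := by
  have h1 : B q p = 0 := by rw [alt_swap hA, hpq, neg_zero]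
  have h2 : B r p = 0 := by rw [alt_swap hA, hpr, neg_zero]
  have h3 : B r q = 0 := by rw [alt_swap hA, hqr, neg_zero]
  ext x
  rw [sr_apply hA hqr]
  simp only [LinearEquiv.mul_apply, st_apply, map_add, map_smul, LinearMap.add_apply,
    LinearMap.smul_apply, smul_eq_mul, hA p, hA q, hA r, hpq, hpr, hqr, h1, h2, h3]
  module

variable (G : Subgroup (V ≃ₗ[F] V))

/-- commutator lemma -/
lemma comm_sr {G : Subgroup (V ≃ₗ[F] V)} {α β γ δ : V} (h1 : B α β = 0) (h2 : B γ δ = 0) (h3 : B δ α = 0)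
    (h4 : B δ β = 0) (h5 : B γ α = 0) (hg : sr hA α β ∈ G) (hh : sr hA γ δ ∈ G) :
    sr hA (B γ β • α) δ ∈ G := by
  have e1 : sr hA α β γ = γ + B γ β • α := by
    rw [sr_apply hA h1, h5]; simp
  have e2 : sr hA α β δ = δ := by
    rw [sr_apply hA h1, h3, h4]; simp
  have h3' : B α δ = 0 := by rw [alt_swap hA, h3, neg_zero]
  have key : sr hA α β * sr hA γ δ * (sr hA α β)⁻¹ = sr hA γ δ * sr hA (B γ β • α) δ := by
    rw [conj_sr hA (sr_isIsom hA _ _), e1, e2, sr_add_left hA h2 (by simp [h3']) (by simp [h5])]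
  have : sr hA (B γ β • α) δ = (sr hA γ δ)⁻¹ * (sr hA α β * sr hA γ δ * (sr hA α β)⁻¹) := by
    rw [key]; group
  rw [this]
  exact G.mul_mem (G.inv_mem hh) (G.mul_mem (G.mul_mem hg hh) (G.inv_mem hg))

/-- the chain of commutators: from a transvection `st v b ∈ G` and an isometry `h ∈ G` with
`B v (h v - v) = 0` to a short root element. -/
lemma chain {G : Subgroup (V ≃ₗ[F] V)} {v z x₁ c y y' c₂ : V} {b : F} {h : V ≃ₗ[F] V}
    (hv : st B hA v b ∈ G) (hh : h ∈ G) (hhI : IsIsom B h) (hz : h v = v + z) (hvz : B v z = 0)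
    (hx₁ : st B hA x₁ 1 ∈ G) (hx₁y : st B hA (x₁ + y) 1 ∈ G) (hyc : sr hA y c ∈ G) (hy'c₂ : sr hA y' c₂ ∈ G)
    (o1 : B x₁ z = 0) (o2 : B y z = 0) (o3 : B c z = 0) (o4 : B y' z = 0)
    (o5 : B x₁ y = 0) (o6 : B x₁ c = 1) (o7 : B y c = 0) (o8 : B y y' = 0) (o9 : B y c₂ = 0)
    (o10 : B y' c₂ = 0) :
    sr hA ((b * B x₁ v * B z c₂) • y) y' ∈ G := by
  have o2' : B z y = 0 := by rw [alt_swap hA, o2, neg_zero]
  have o3' : B z c = 0 := by rw [alt_swap hA, o3, neg_zero]
  have o4' : B z y' = 0 := by rw [alt_swap hA, o4, neg_zero]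
  have o8' : B y' y = 0 := by rw [alt_swap hA, o8, neg_zero]
  -- (i)
  have hA0 : st B hA (v + z) b ∈ G := by
    rw [← hz, ← conj_st hA hhI]
    exact G.mul_mem (G.mul_mem hh hv) (G.inv_mem hh)
  set e : V ≃ₗ[F] V := st B hA (v + z) b * st B hA v (-b) with he
  have heG : e ∈ G := by
    refine G.mul_mem hA0 ?_
    rw [← st_inv]
    exact G.inv_mem hv
  have heI : IsIsom B e := (st_isIsom B hA _ _).mul (st_isIsom B hA _ _)
  set δ : F := b * B x₁ v with hδ
  -- (ii)
  have hex : e x₁ = x₁ + δ • z := by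
    simp only [he, LinearEquiv.mul_apply, st_apply, map_add, map_smul, LinearMap.add_apply,
      LinearMap.smul_apply, smul_eq_mul, hA v, hvz, o1, hδ]
    module
  -- (iii)
  have hA1 : st B hA (x₁ + δ • z) 1 ∈ G := by
    rw [← hex, ← conj_st hA heI]
    exact G.mul_mem (G.mul_mem heG hx₁) (G.inv_mem heG)
  -- (iv)
  have hh' : sr hA y c (x₁ + δ • z) = x₁ + y + δ • z := by
    rw [sr_apply hA o7]
    simp only [map_add, map_smul, LinearMap.add_apply, LinearMap.smul_apply, smul_eq_mul, o5, o6, o2', o3']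
    module
  have hA2 : st B hA (x₁ + y + δ • z) 1 ∈ G := by
    rw [← hh', ← conj_st hA (sr_isIsom hA _ _)]
    exact G.mul_mem (G.mul_mem hyc hA1) (G.inv_mem hyc)
  -- (v)
  have hA3 : sr hA y (δ • z) ∈ G := by
    rw [← four_term hA (p := x₁) o5 (by simp [o1]) (by simp [o2])]
    refine G.mul_mem (G.mul_mem (G.mul_mem hA2 ?_) ?_) hx₁
    · rw [← st_inv]; exact G.inv_mem hx₁y
    · rw [← st_inv]; exact G.inv_mem hA1
  -- (vi)
  have hA4 : sr hA z (δ • y) ∈ G := by
    rw [← sr_smul hA o2', sr_comm hA (by simp [o2'])]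
    exact hA3
  have := comm_sr hA (α := y') (β := c₂) (γ := z) (δ := δ • y) o10 (by simp [o2']) (by simp [o8])
    (by simp [o9]) o4' hy'c₂ hA4
  rw [sr_smul hA (by simp [o8']), smul_smul, sr_comm hA (by simp [o8'])] at this
  have e3 : b * B x₁ v * B z c₂ = B z c₂ * δ := by rw [hδ]; ring
  rw [e3]
  exact this

/-- minus the identity on the hyperbolic plane `⟨u, u'⟩`, as a linear map -/
noncomputable def ngL (B : BilinForm F V) (u u' : V) : V →ₗ[F] V :=
  LinearMap.id - (2 : F) • ((B.flip u').smulRight u - (B.flip u).smulRight u')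

lemma ngL_apply (u u' x : V) : ngL B u u' x = x - (2 : F) • (B x u' • u - B x u • u') := by
  simp [ngL]

include hA in
lemma ngL_invol {u u' : V} (h : B u u' = 1) : Function.Involutive (ngL B u u') := by
  have h' : B u' u = -1 := by rw [alt_swap hA, h]
  intro x
  simp only [ngL_apply, map_add, map_sub, map_smul, LinearMap.add_apply, LinearMap.sub_apply,
    LinearMap.smul_apply, smul_eq_mul, hA u, hA u', h, h']
  module

/-- minus the identity on the hyperbolic plane `⟨u, u'⟩` -/
noncomputable def ng {u u' : V} (h : B u u' = 1) : V ≃ₗ[F] V :=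
  LinearEquiv.ofInvolutive (ngL B u u') (ngL_invol hA h)

lemma ng_apply {u u' : V} (h : B u u' = 1) (x : V) :
    ng hA h x = x - (2 : F) • (B x u' • u - B x u • u') := by
  rw [← ngL_apply]; rfl

lemma ng_isIsom {u u' : V} (h : B u u' = 1) : IsIsom B (ng hA h) := by
  have h' : B u' u = -1 := by rw [alt_swap hA, h]
  intro x y
  simp only [ng_apply, map_add, map_sub, map_smul, LinearMap.add_apply, LinearMap.sub_apply,
    LinearMap.smul_apply, smul_eq_mul, hA u, hA u', h, h']
  rw [alt_swap hA u y, alt_swap hA u' y]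
  ring

end Cfsg.Agent.Lib.Helper45.SpSub
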