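import Mathlib
import Cfsg.Agent.Lib.Helper45.SpSubA

set_option autoImplicit false
set_option linter.unusedSimpArgs false
set_option linter.unusedVariables false

/-! Rational structures on a symplectic space, and the ring of multipliers of short root elements. -/

namespace Cfsg.Agent.Lib.Helper45.SpSub

open LinearMap (BilinForm)
open Module Cfsg.Agent.Lib.Helper94

variable {F V : Type*} [Field F] [AddCommGroup V] [Module F V]
variable {F₀ : Subfield F} {V₀ : Type*} [AddCommGroup V₀] [Module F₀ V₀]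
variable {B : BilinForm F V} {B₀ : BilinForm F₀ V₀} {E : V₀ → V}

/-- a rational structure on a symplectic space -/
structure RatS (B : BilinForm F V) (B₀ : BilinForm F₀ V₀) (E : V₀ → V) : Prop where
  alt : B.IsAlt
  nd : B.Nondegenerate
  alt₀ : B₀.IsAlt
  nd₀ : B₀.Nondegenerate
  add : ∀ x y, E (x + y) = E x + E y
  smul : ∀ (a : F₀) x, E (a • x) = (a : F) • E x
  form : ∀ x y, B (E x) (E y) = (B₀ x y : F)
  span : Submodule.span F (Set.range E) = ⊤
  dim : 14 ≤ finrank F₀ V₀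

/-- `G` contains all rational isometries -/
def HG (B : BilinForm F V) (E : V₀ → V) (G : Subgroup (V ≃ₗ[F] V)) : Prop :=
  ∀ φ : V ≃ₗ[F] V, IsIsom B φ → (∀ x, ∃ y, φ (E x) = E y) → φ ∈ G

namespace RatS

lemma E_zero (R : RatS B B₀ E) : E 0 = 0 := by
  have := R.smul 0 0
  simpa using this

lemma E_neg (R : RatS B B₀ E) (x : V₀) : E (-x) = - E x := by
  have := R.smul (-1) x
  simpa using this

lemma E_sub (R : RatS B B₀ E) (x y : V₀) : E (x - y) = E x - E y := by
  rw [sub_eq_add_neg, R.add, R.E_neg, sub_eq_add_neg]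

lemma perp (R : RatS B B₀ E) {x y : V₀} (h : B₀ x y = 0) : B (E x) (E y) = 0 := by
  rw [R.form, h]; rfl

lemma perp' (R : RatS B B₀ E) {x y : V₀} (h : B₀ x y = 0) : B (E y) (E x) = 0 := by
  rw [alt_swap R.alt, R.perp h, neg_zero]

lemma sw (R : RatS B B₀ E) {x y : V₀} (h : B₀ x y = 0) : B₀ y x = 0 := by
  rw [alt_swap R.alt₀, h, neg_zero]

lemma eq_zero_of_perp (R : RatS B B₀ E) (v : V) (h : ∀ x, B v (E x) = 0) : v = 0 := by
  apply R.nd.1
  intro y
  have hy : y ∈ Submodule.span F (Set.range E) := R.span ▸ Submodule.mem_top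
  induction hy using Submodule.span_induction with
  | mem x hx => obtain ⟨x, rfl⟩ := hx; exact h x
  | zero => simp
  | add x y _ _ hx hy => rw [map_add, hx, hy, add_zero]
  | smul a x _ hx => rw [map_smul, hx, smul_zero]

lemma rat_of_vals [FiniteDimensional F₀ V₀] (R : RatS B B₀ E) (v : V) (h : ∀ x, B v (E x) ∈ F₀) :
    ∃ y, v = E y := by
  let φ : V₀ →ₗ[F₀] F₀ :=
    { toFun := fun x => ⟨B v (E x), h x⟩
      map_add' := by intro x y; apply Subtype.ext; simp [R.add]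
      map_smul' := by intro a x; apply Subtype.ext; simp [R.smul] }
  refine ⟨(B₀.toDual R.nd₀).symm φ, ?_⟩
  rw [← sub_eq_zero]
  apply R.eq_zero_of_perp
  intro x
  rw [map_sub, LinearMap.sub_apply, R.form, LinearMap.BilinForm.apply_toDual_symm_apply]
  simp [φ]

lemma exists_hyp [FiniteDimensional F₀ V₀] (R : RatS B B₀ E) (s : Finset V₀) (hs : s.card ≤ 6) :
    ∃ e f, (∀ x ∈ s, B₀ x e = 0 ∧ B₀ x f = 0) ∧ B₀ e f = 1 := by
  classical
  set S := Submodule.span F₀ (s : Set V₀) with hS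
  have hS6 : finrank F₀ S ≤ 6 := (finrank_span_finset_le_card s).trans hs
  have hW : finrank F₀ (B₀.orthogonal S) = finrank F₀ V₀ - finrank F₀ S :=
    LinearMap.BilinForm.finrank_orthogonal R.nd₀ S
  have hdim := R.dim
  by_contra hcon
  push Not at hcon
  have h0 : ∀ e ∈ B₀.orthogonal S, ∀ f ∈ B₀.orthogonal S, B₀ e f = 0 := by
    intro e he f hf
    by_contra hne
    apply hcon e ((B₀ e f)⁻¹ • f)
    · intro x hx
      have hxS : x ∈ S := Submodule.subset_span hx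
      have h1 : B₀ x e = 0 := (LinearMap.BilinForm.mem_orthogonal_iff.1 he) x hxS
      have h2 : B₀ x f = 0 := (LinearMap.BilinForm.mem_orthogonal_iff.1 hf) x hxS
      exact ⟨h1, by simp [h2]⟩
    · simp [hne]
  have hle : B₀.orthogonal S ≤ B₀.orthogonal (B₀.orthogonal S) := by
    intro f hf
    rw [LinearMap.BilinForm.mem_orthogonal_iff]
    intro e he
    exact h0 e he f hf
  rw [LinearMap.BilinForm.orthogonal_orthogonal R.nd₀ R.alt₀.isRefl] at hle
  have := Submodule.finrank_mono hle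
  omega

lemma exists_frame [FiniteDimensional F₀ V₀] (R : RatS B B₀ E) {x u : V₀} (hxu : B₀ x u = 0)
    (h1 : x ∉ Submodule.span F₀ {u}) (h2 : u ∉ Submodule.span F₀ {x}) :
    ∃ x' u', B₀ x x' = 1 ∧ B₀ u u' = 1 ∧ B₀ x u' = 0 ∧ B₀ u x' = 0 ∧ B₀ x' u' = 0 := by
  obtain ⟨a, ha, hxa⟩ := exists_perp_ne R.alt₀ R.nd₀ _ h1
  obtain ⟨b, hb, hub⟩ := exists_perp_ne R.alt₀ R.nd₀ _ h2
  have hua : B₀ u a = 0 :=
    (LinearMap.BilinForm.mem_orthogonal_iff.1 ha) u (Submodule.mem_span_singleton_self u)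
  have hxb : B₀ x b = 0 :=
    (LinearMap.BilinForm.mem_orthogonal_iff.1 hb) x (Submodule.mem_span_singleton_self x)
  refine ⟨(B₀ x a)⁻¹ • a - B₀ ((B₀ x a)⁻¹ • a) ((B₀ u b)⁻¹ • b) • u, (B₀ u b)⁻¹ • b, ?_, ?_, ?_, ?_, ?_⟩
  · simp [hxu, hxa]
  · simp [hub]
  · simp [hxb]
  · simp [hua, R.alt₀ u]
  · simp only [map_sub, map_smul, LinearMap.sub_apply, LinearMap.smul_apply, smul_eq_mul]
    field_simp
    ring

variable {G : Subgroup (V ≃ₗ[F] V)}

lemma st_rat (R : RatS B B₀ E) (hG : HG B E G) (x : V₀) {a : F} (ha : a ∈ F₀) :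
    st B R.alt (E x) a ∈ G := by
  apply hG _ (st_isIsom _ _ _ _)
  intro y
  refine ⟨y + ((⟨a, ha⟩ : F₀) * B₀ y x) • x, ?_⟩
  rw [st_apply, R.add, R.smul, R.form]
  rfl

lemma sr_rat (R : RatS B B₀ E) (hG : HG B E G) (x y : V₀) : sr R.alt (E x) (E y) ∈ G := by
  unfold sr
  rw [← R.add]
  exact G.mul_mem (G.mul_mem (R.st_rat hG _ F₀.one_mem) (R.st_rat hG _ (F₀.neg_mem F₀.one_mem)))
    (R.st_rat hG _ (F₀.neg_mem F₀.one_mem))

lemma ng_rat (R : RatS B B₀ E) (hG : HG B E G) {u u' : V₀} (h : B₀ u u' = 1)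
    (h' : B (E u) (E u') = 1) : ng R.alt h' ∈ G := by
  apply hG _ (ng_isIsom _ _)
  intro y
  refine ⟨y - (2 : F₀) • (B₀ y u' • u - B₀ y u • u'), ?_⟩
  rw [ng_apply, R.E_sub, R.smul, R.E_sub, R.smul, R.smul, R.form, R.form]
  rfl

/-- the multipliers `l` such that all short root elements with rational directions and multiplier
`l` lie in `G`. -/
def Good (R : RatS B B₀ E) (G : Subgroup (V ≃ₗ[F] V)) (l : F) : Prop :=
  ∀ y y' : V₀, B₀ y y' = 0 → sr R.alt (l • E y) (E y') ∈ G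

lemma good_add (R : RatS B B₀ E) {l m : F} (hl : R.Good G l) (hm : R.Good G m) : R.Good G (l + m) := by
  intro y y' h
  rw [add_smul, sr_add_left R.alt (by simp [R.perp h]) (by simp [R.perp h]) (by simp [R.alt (E y)])]
  exact G.mul_mem (hl y y' h) (hm y y' h)

lemma good_neg (R : RatS B B₀ E) {l : F} (hl : R.Good G l) : R.Good G (-l) := by
  intro y y' h
  rw [neg_smul, ← sr_inv R.alt (by simp [R.perp h])]
  exact G.inv_mem (hl y y' h)

lemma good_coe (R : RatS B B₀ E) (hG : HG B E G) {l : F} (hl : l ∈ F₀) : R.Good G l := by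
  intro y y' h
  have : l • E y = E ((⟨l, hl⟩ : F₀) • y) := by rw [R.smul]
  rw [this]
  exact R.sr_rat hG _ _

lemma sr_symm (R : RatS B B₀ E) {a b : V₀} (h : B₀ a b = 0) (l : F) :
    sr R.alt (l • E a) (E b) = sr R.alt (l • E b) (E a) := by
  rw [sr_smul R.alt (R.perp h), sr_comm R.alt (by simp [R.perp h])]

lemma move (R : RatS B B₀ E) (hG : HG B E G) {l : F} {a b c d : V₀} (hab : B₀ a b = 0) (hcb : B₀ c b = 1)
    (hcd : B₀ c d = 0) (hda : B₀ d a = 0) (hdb : B₀ d b = 0) (hca : B₀ c a = 0)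
    (hP : sr R.alt (l • E a) (E b) ∈ G) : sr R.alt (l • E a) (E d) ∈ G := by
  have := comm_sr R.alt (α := l • E a) (β := E b) (γ := E c) (δ := E d) (by simp [R.perp hab])
    (R.perp hcd) (by simp [R.perp hda]) (R.perp hdb) (by simp [R.perp hca]) hP (R.sr_rat hG _ _)
  rw [R.form, hcb] at this
  simpa using this

lemma good_mul [FiniteDimensional F₀ V₀] (R : RatS B B₀ E) {l m : F} (hl : R.Good G l)
    (hm : R.Good G m) : R.Good G (l * m) := by
  classical
  intro y y' h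
  obtain ⟨e, f, hef, hef1⟩ := R.exists_hyp {y, y'} (Finset.card_le_two.trans (by norm_num))
  obtain ⟨hye, hyf⟩ := hef y (by simp)
  obtain ⟨hy'e, hy'f⟩ := hef y' (by simp)
  have := comm_sr R.alt (α := l • E y) (β := E f) (γ := m • E e) (δ := E y') (by simp [R.perp hyf])
    (by simp [R.perp' hy'e]) (by simp [R.perp' h]) (R.perp hy'f) (by simp [R.perp' hye])
    (hl y f hyf) (hm e y' (R.sw hy'e))
  rw [map_smul, LinearMap.smul_apply, R.form, hef1, smul_smul] at this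
  simpa [mul_comm] using this

/-- one short root element with multiplier `l` along a pair which is part of a frame suffices -/
lemma good_of_frame [FiniteDimensional F₀ V₀] (R : RatS B B₀ E) (hG : HG B E G) {l : F}
    {a b fa fb : V₀} (hab : B₀ a b = 0) (h1 : B₀ a fa = 1) (h2 : B₀ b fb = 1) (h3 : B₀ a fb = 0)
    (h4 : B₀ b fa = 0) (hP : sr R.alt (l • E a) (E b) ∈ G) : R.Good G l := by
  classical
  intro y y' hyy
  obtain ⟨e, f, hef, hef1⟩ := R.exists_hyp {a, b, fa, fb, y, y'} Finset.card_le_six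
  obtain ⟨e', f', hef', hef1'⟩ := R.exists_hyp {e, f, a, fa, y, y'} Finset.card_le_six
  obtain ⟨hae, haf⟩ := hef a (by simp)
  obtain ⟨hbe, hbf⟩ := hef b (by simp)
  obtain ⟨hfae, hfaf⟩ := hef fa (by simp)
  obtain ⟨hfbe, hfbf⟩ := hef fb (by simp)
  obtain ⟨hye, hyf⟩ := hef y (by simp)
  obtain ⟨hy'e, hy'f⟩ := hef y' (by simp)
  obtain ⟨hee', hef'2⟩ := hef' e (by simp)
  obtain ⟨hfe', hff'⟩ := hef' f (by simp)
  obtain ⟨hae', haf'⟩ := hef' a (by simp)
  obtain ⟨hfae', hfaf'⟩ := hef' fa (by simp)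
  obtain ⟨hye', hyf'⟩ := hef' y (by simp)
  obtain ⟨hy'e', hy'f'⟩ := hef' y' (by simp)
  -- move 1
  have m1 : sr R.alt (l • E a) (E e) ∈ G :=
    R.move hG (c := -fb) hab (by simp [alt_swap R.alt₀ fb b, h2]) (by simp [hfbe]) (R.sw hae) (R.sw hbe)
      (by simp [R.sw h3]) hP
  rw [R.sr_symm hae] at m1
  -- move 2
  have m2 : sr R.alt (l • E e) (E e') ∈ G :=
    R.move hG (c := -fa) (R.sw hae) (by simp [alt_swap R.alt₀ fa a, h1]) (by simp [hfae']) (R.sw hee')
      (R.sw hae') (by simp [hfae]) m1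
  -- move 3
  have m3 : sr R.alt (l • E e) (E y) ∈ G :=
    R.move hG (c := -f') hee' (by simp [alt_swap R.alt₀ f' e', hef1']) (by simp [R.sw hyf']) hye hye'
      (by simp [R.sw hef'2]) m2
  rw [R.sr_symm (R.sw hye)] at m3
  -- move 4
  exact R.move hG (c := -f) hye (by simp [alt_swap R.alt₀ f e, hef1]) (by simp [R.sw hy'f]) (R.sw hyy) hy'e
      (by simp [R.sw hyf]) m3

end RatS

end Cfsg.Agent.Lib.Helper45.SpSub
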