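import Mathlib
import Cfsg.Agent.Lib.Helper45.SpSubB

set_option autoImplicit false
set_option linter.unusedSimpArgs false
set_option linter.unusedVariables false

/-! The key lemma: a transvection of `G` produces multipliers of short root elements. -/

namespace Cfsg.Agent.Lib.Helper45.SpSub

open LinearMap (BilinForm)
open Module Cfsg.Agent.Lib.Helper94

variable {F V : Type*} [Field F] [AddCommGroup V] [Module F V]
variable {F₀ : Subfield F} {V₀ : Type*} [AddCommGroup V₀] [Module F₀ V₀]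
variable {B : BilinForm F V} {B₀ : BilinForm F₀ V₀} {E : V₀ → V}
variable {G : Subgroup (V ≃ₗ[F] V)}

namespace RatS

lemma key_two [FiniteDimensional F₀ V₀] (R : RatS B B₀ E) (hG : HG B E G) (h2 : (2 : F) = 0) {v : V} {b : F}
    (hv : st B R.alt v b ∈ G) {x u : V₀} (hxu : B₀ x u = 0) (h1 : x ∉ Submodule.span F₀ {u})
    (h1' : u ∉ Submodule.span F₀ {x}) : R.Good G (b * B (E x) v * B v (E u)) := by
  classical
  obtain ⟨x', u', hxx', huu', hxu', hux', hx'u'⟩ := R.exists_frame hxu h1 h1'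
  obtain ⟨w, w', hw, hww'⟩ := R.exists_hyp {x, x', u, u'} (Finset.card_le_four.trans (by norm_num))
  obtain ⟨e₃, f₃, h3, hef3⟩ := R.exists_hyp {x, x', u, w, w'} (Finset.card_le_five.trans (by norm_num))
  obtain ⟨e₄, f₄, h4, hef4⟩ := R.exists_hyp {u, w, w', e₃, f₃} (Finset.card_le_five.trans (by norm_num))
  obtain ⟨hxw, hxw'⟩ := hw x (by simp)
  obtain ⟨hx'w, hx'w'⟩ := hw x' (by simp)
  obtain ⟨huw, huw'⟩ := hw u (by simp)
  obtain ⟨hxe3, -⟩ := h3 x (by simp)
  obtain ⟨hx'e3, -⟩ := h3 x' (by simp)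
  obtain ⟨hue3, -⟩ := h3 u (by simp)
  obtain ⟨hwe3, -⟩ := h3 w (by simp)
  obtain ⟨hw'e3, -⟩ := h3 w' (by simp)
  obtain ⟨hue4, -⟩ := h4 u (by simp)
  obtain ⟨hwe4, -⟩ := h4 w (by simp)
  obtain ⟨hw'e4, -⟩ := h4 w' (by simp)
  obtain ⟨he3e4, he3f4⟩ := h4 e₃ (by simp)
  obtain ⟨hf3e4, -⟩ := h4 f₃ (by simp)
  refine R.good_of_frame hG (a := e₃) (b := e₄) (fa := f₃) (fb := f₄) he3e4 hef3 hef4 he3f4 (R.sw hf3e4) ?_
  have hc := chain R.alt (G := G) (v := v) (z := B v (E u) • E w + B v (E w) • E u) (x₁ := E x) (c := E x')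
    (y := E e₃) (y' := E e₄) (c₂ := E w') (b := b) (h := sr R.alt (E u) (E w)) hv (R.sr_rat hG _ _)
    (sr_isIsom _ _ _) (by rw [sr_apply R.alt (R.perp huw), add_assoc])
    (by
      simp only [map_add, map_smul, smul_eq_mul]
      linear_combination (B v (E u) * B v (E w)) * h2)
    (R.st_rat hG _ F₀.one_mem) (by rw [← R.add]; exact R.st_rat hG _ F₀.one_mem) (R.sr_rat hG _ _)
    (R.sr_rat hG _ _)
    (by simp [R.perp hxw, R.perp hxu]) (by simp [R.perp' hwe3, R.perp' hue3])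
    (by simp [R.perp hx'w, R.perp' hux']) (by simp [R.perp' hwe4, R.perp' hue4])
    (R.perp hxe3) (by rw [R.form, hxx']; rfl) (R.perp' hx'e3) (R.perp he3e4) (R.perp' hw'e3)
    (R.perp' hw'e4)
  have e1 : B (B v (E u) • E w + B v (E w) • E u) (E w') = B v (E u) := by
    simp [R.form, hww', huw']
  rw [e1] at hc
  exact hc

lemma key_odd [FiniteDimensional F₀ V₀] (R : RatS B B₀ E) (hG : HG B E G) (h2 : (2 : F) ≠ 0) {v : V} {b : F}
    (hv : st B R.alt v b ∈ G) {x u : V₀} (hxu : B₀ x u = 0) (h1 : x ∉ Submodule.span F₀ {u})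
    (h1' : u ∉ Submodule.span F₀ {x}) : R.Good G (b * B (E x) v * B v (E u)) := by
  classical
  obtain ⟨x', u', hxx', huu', hxu', hux', hx'u'⟩ := R.exists_frame hxu h1 h1'
  obtain ⟨e₃, f₃, h3, hef3⟩ := R.exists_hyp {x, x', u, u'} (Finset.card_le_four.trans (by norm_num))
  obtain ⟨e₄, f₄, h4, hef4⟩ := R.exists_hyp {u, u', e₃, f₃} (Finset.card_le_four.trans (by norm_num))
  obtain ⟨hxe3, -⟩ := h3 x (by simp)
  obtain ⟨hx'e3, -⟩ := h3 x' (by simp)
  obtain ⟨hue3, -⟩ := h3 u (by simp)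
  obtain ⟨hu'e3, -⟩ := h3 u' (by simp)
  obtain ⟨hue4, -⟩ := h4 u (by simp)
  obtain ⟨hu'e4, -⟩ := h4 u' (by simp)
  obtain ⟨he3e4, he3f4⟩ := h4 e₃ (by simp)
  obtain ⟨hf3e4, -⟩ := h4 f₃ (by simp)
  have huu1 : B (E u) (E u') = 1 := by rw [R.form, huu']; rfl
  have hgood : R.Good G (b * B (E x) v * (-2 * B v (E u))) := by
    refine R.good_of_frame hG (a := e₃) (b := e₄) (fa := f₃) (fb := f₄) he3e4 hef3 hef4 he3f4 (R.sw hf3e4) ?_
    have hc := chain R.alt (G := G) (v := v) (z := - ((2 : F) • (B v (E u') • E u - B v (E u) • E u')))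
      (x₁ := E x) (c := E x')
      (y := E e₃) (y' := E e₄) (c₂ := E u) (b := b) (h := ng R.alt huu1) hv (R.ng_rat hG huu' huu1)
      (ng_isIsom _ _) (by rw [ng_apply, sub_eq_add_neg])
      (by
        simp only [map_add, map_sub, map_neg, map_smul, smul_eq_mul]
        ring)
      (R.st_rat hG _ F₀.one_mem) (by rw [← R.add]; exact R.st_rat hG _ F₀.one_mem) (R.sr_rat hG _ _)
      (R.sr_rat hG _ _)
      (by simp [R.perp hxu', R.perp hxu]) (by simp [R.perp' hu'e3, R.perp' hue3])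
      (by simp [R.perp hx'u', R.perp' hux']) (by simp [R.perp' hu'e4, R.perp' hue4])
      (R.perp hxe3) (by rw [R.form, hxx']; rfl) (R.perp' hx'e3) (R.perp he3e4) (R.perp' hue3)
      (R.perp' hue4)
    have e1 : B (- ((2 : F) • (B v (E u') • E u - B v (E u) • E u'))) (E u) = -2 * B v (E u) := by
      have : B (E u') (E u) = -1 := by rw [alt_swap R.alt, huu1]
      simp [this, R.alt (E u)]
    rw [e1] at hc
    exact hc
  have h3 : R.Good G ((-2 : F)⁻¹) := by
    apply R.good_coe hG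
    apply F₀.inv_mem
    exact F₀.neg_mem (by exact_mod_cast (2 : F₀).2)
  have := R.good_mul hgood h3
  have e2 : b * B (E x) v * (-2 * B v (E u)) * (-2 : F)⁻¹ = b * B (E x) v * B v (E u) := by
    field_simp
  rwa [e2] at this

lemma key_indep [FiniteDimensional F₀ V₀] (R : RatS B B₀ E) (hG : HG B E G) {v : V} {b : F}
    (hv : st B R.alt v b ∈ G) {x u : V₀} (hxu : B₀ x u = 0) (h1 : x ∉ Submodule.span F₀ {u})
    (h1' : u ∉ Submodule.span F₀ {x}) : R.Good G (b * B (E x) v * B v (E u)) := by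
  by_cases h2 : (2 : F) = 0
  · exact R.key_two hG h2 hv hxu h1 h1'
  · exact R.key_odd hG h2 hv hxu h1 h1'

end RatS

end Cfsg.Agent.Lib.Helper45.SpSub
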