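import Mathlib
import Cfsg.Agent.Lib.Helper45.SpSubC

set_option autoImplicit false
set_option linter.unusedSimpArgs false
set_option linter.unusedVariables false

/-! Maximality of the subfield subgroup of a symplectic group: the abstract core. -/

namespace Cfsg.Agent.Lib.Helper45.SpSub

open LinearMap (BilinForm)
open Module Cfsg.Agent.Lib.Helper94

variable {F V : Type*} [Field F] [AddCommGroup V] [Module F V]
variable {F₀ : Subfield F} {V₀ : Type*} [AddCommGroup V₀] [Module F₀ V₀]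
variable {B : BilinForm F V} {B₀ : BilinForm F₀ V₀} {E : V₀ → V}
variable {G : Subgroup (V ≃ₗ[F] V)}

/-- `φ` maps the rational vectors into a fixed multiple of the rational vectors -/
def Stab (E : V₀ → V) (φ : V ≃ₗ[F] V) : Prop := ∃ c : F, ∀ x, ∃ y, φ (E x) = c • E y

lemma not_mem_span_of_pair {B₀ : BilinForm F₀ V₀} {a c f : V₀} (h1 : B₀ a f ≠ 0) (h2 : B₀ c f = 0) :
    a ∉ Submodule.span F₀ {c} := by
  intro h
  obtain ⟨t, rfl⟩ := Submodule.mem_span_singleton.1 h
  apply h1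
  simp [h2]

namespace RatS

lemma key' [FiniteDimensional F₀ V₀] (R : RatS B B₀ E) (hG : HG B E G) {v : V} {b : F}
    (hv : st B R.alt v b ∈ G) {x u : V₀} (hxu : B₀ x u = 0) (h1 : x ∉ Submodule.span F₀ {u})
    (h1' : u ∉ Submodule.span F₀ {x}) : R.Good G (b * B v (E x) * B v (E u)) := by
  have := R.good_neg (R.key_indep hG hv hxu h1 h1')
  rw [alt_swap R.alt (E x) v] at this
  have e : -(b * -B v (E x) * B v (E u)) = b * B v (E x) * B v (E u) := by ring
  rwa [e] at this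

lemma exists_pair_ne (R : RatS B B₀ E) {x : V₀} (hx : x ≠ 0) : ∃ y, B₀ x y ≠ 0 := by
  by_contra hcon
  push Not at hcon
  exact hx (R.nd₀.1 x hcon)

lemma key_diag [FiniteDimensional F₀ V₀] (R : RatS B B₀ E) (hG : HG B E G) {v : V} {b : F}
    (hv : st B R.alt v b ∈ G) {x : V₀} (hx : x ≠ 0) : R.Good G (b * B v (E x) * B v (E x)) := by
  classical
  obtain ⟨x', hxx'⟩ := R.exists_pair_ne hx
  obtain ⟨e, f, hef, hef1⟩ := R.exists_hyp {x, x'} (Finset.card_le_two.trans (by norm_num))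
  obtain ⟨hxe, hxf⟩ := hef x (by simp)
  obtain ⟨hx'e, hx'f⟩ := hef x' (by simp)
  have g1 := R.key' hG hv (x := x) (u := e) hxe (not_mem_span_of_pair hxx' (R.sw hx'e))
    (not_mem_span_of_pair (f := f) (by rw [hef1]; exact one_ne_zero) hxf)
  have g2 := R.key' hG hv (x := x) (u := x + e) (by simp [hxe, R.alt₀ x])
    (not_mem_span_of_pair (B₀ := B₀) (f := x' - B₀ x x' • f) (by simp [hxf, hxx'])
      (by simp [hxf, hef1, R.sw hx'e]))
    (not_mem_span_of_pair (B₀ := B₀) (f := f) (by simp [hxf, hef1]) hxf)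
  have := R.good_add g2 (R.good_neg g1)
  rw [R.add, map_add] at this
  have e : b * B v (E x) * (B v (E x) + B v (E e)) + -(b * B v (E x) * B v (E e)) =
      b * B v (E x) * B v (E x) := by ring
  rwa [e] at this

lemma key_perp [FiniteDimensional F₀ V₀] (R : RatS B B₀ E) (hG : HG B E G) {v : V} {b : F}
    (hv : st B R.alt v b ∈ G) {x u : V₀} (hxu : B₀ x u = 0) : R.Good G (b * B v (E x) * B v (E u)) := by
  by_cases hx : x = 0
  · subst hx
    rw [R.E_zero]
    simpa using R.good_coe hG F₀.zero_mem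
  by_cases hu : u ∈ Submodule.span F₀ {x}
  · obtain ⟨t, rfl⟩ := Submodule.mem_span_singleton.1 hu
    have := R.good_mul (R.key_diag hG hv hx) (R.good_coe hG t.2)
    rw [R.smul, map_smul, smul_eq_mul]
    have e : b * B v (E x) * ((t : F) * B v (E x)) = b * B v (E x) * B v (E x) * t := by ring
    rwa [e]
  · refine R.key' hG hv hxu ?_ hu
    intro h
    obtain ⟨t, rfl⟩ := Submodule.mem_span_singleton.1 h
    have ht : t ≠ 0 := by
      rintro rfl
      exact hx (zero_smul _ _)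
    apply hu
    rw [Submodule.mem_span_singleton]
    exact ⟨t⁻¹, by rw [smul_smul, inv_mul_cancel₀ ht, one_smul]⟩

/-- the subalgebra of multipliers -/
noncomputable def K [FiniteDimensional F₀ V₀] (R : RatS B B₀ E) (hG : HG B E G) : Subalgebra F₀ F where
  carrier := {l | R.Good G l}
  mul_mem' := fun h h' => R.good_mul h h'
  add_mem' := fun h h' => R.good_add h h'
  algebraMap_mem' := fun a => R.good_coe hG a.2

lemma dichotomy [FiniteDimensional F₀ V₀] (R : RatS B B₀ E) (hG : HG B E G)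
    (hprime : ∀ S : Subalgebra F₀ F, S = ⊥ ∨ S = ⊤) :
    (∀ l, R.Good G l → l ∈ F₀) ∨ (∀ l, R.Good G l) := by
  rcases hprime (R.K hG) with h | h
  · left
    intro l hl
    have : l ∈ R.K hG := hl
    rw [h, Algebra.mem_bot] at this
    obtain ⟨a, rfl⟩ := this
    exact a.2
  · right
    intro l
    have : l ∈ R.K hG := by rw [h]; exact Algebra.mem_top
    exact this

end RatS

lemma sq_mem [Finite F] (F₀ : Subfield F) (h2 : (2 : F) = 0) {a : F} (ha : a ^ 2 ∈ F₀) : a ∈ F₀ := by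
  have := Fintype.ofFinite F₀
  have h2' : (2 : F₀) = 0 := by
    apply Subtype.ext
    change (2 : F) = 0
    exact h2
  have hch : ringChar F₀ = 2 := CharP.ringChar_of_prime_eq_zero Nat.prime_two (by exact_mod_cast h2')
  obtain ⟨d, hd⟩ := FiniteField.isSquare_of_char_two hch (⟨a ^ 2, ha⟩ : F₀)
  have hd' : a ^ 2 = (d : F) * d := congrArg Subtype.val hd
  have : (a - d) ^ 2 = 0 := by
    linear_combination hd' + ((d : F) * d - a * d) * h2
  have h3 : a = d := sub_eq_zero.1 (pow_eq_zero_iff (by norm_num) |>.1 this)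
  rw [h3]
  exact d.2

namespace RatS

lemma all_vals [Finite F] [FiniteDimensional F₀ V₀] (R : RatS B B₀ E) (hG : HG B E G)
    (hK : ∀ l, R.Good G l → l ∈ F₀) {v : V} {b : F} (hv : st B R.alt v b ∈ G) (x u : V₀) :
    b * B v (E x) * B v (E u) ∈ F₀ := by
  classical
  by_cases h2 : (2 : F) = 0
  · apply sq_mem F₀ h2
    have h1 := hK _ (R.key_perp hG hv (R.alt₀ x))
    have h3 := hK _ (R.key_perp hG hv (R.alt₀ u))
    have := F₀.mul_mem h1 h3
    have e : (b * B v (E x) * B v (E u)) ^ 2 =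
        b * B v (E x) * B v (E x) * (b * B v (E u) * B v (E u)) := by ring
    rwa [e]
  · obtain ⟨w, w', hw, hww'⟩ := R.exists_hyp {x, u} (Finset.card_le_two.trans (by norm_num))
    obtain ⟨hxw, hxw'⟩ := hw x (by simp)
    obtain ⟨huw, huw'⟩ := hw u (by simp)
    set c : F₀ := B₀ x u with hc
    have hw'w : B₀ w' w = -1 := by rw [alt_swap R.alt₀, hww']
    have S1 := hK _ (R.key_perp hG hv (x := x + w) (u := u - c • w')
      (by simp [hxw', R.sw huw, hww', ← hc]))
    have S2 := hK _ (R.key_perp hG hv (x := x + w') (u := u + c • w)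
      (by simp [hxw, R.sw huw', hw'w, ← hc]))
    have T1 := hK _ (R.key_perp hG hv hxw')
    have T2 := hK _ (R.key_perp hG hv (R.sw huw))
    have T3 := hK _ (R.key_perp hG hv hxw)
    have T4 := hK _ (R.key_perp hG hv (R.sw huw'))
    rw [R.add, R.E_sub, R.smul, map_add, map_sub, map_smul, smul_eq_mul] at S1
    rw [R.add, R.add, R.smul, map_add, map_add, map_smul, smul_eq_mul] at S2
    have h2F : (2 : F)⁻¹ ∈ F₀ := F₀.inv_mem (by exact_mod_cast (2 : F₀).2)
    have key := F₀.mul_mem h2F (F₀.sub_mem (F₀.sub_mem (F₀.sub_mem (F₀.add_mem (F₀.add_mem S1 S2)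
      (F₀.mul_mem c.2 T1)) T2) (F₀.mul_mem c.2 T3)) T4)
    have e : b * B v (E x) * B v (E u) = (2 : F)⁻¹ * (b * (B v (E x) + B v (E w)) * (B v (E u) - ↑c * B v (E w')) +
        b * (B v (E x) + B v (E w')) * (B v (E u) + ↑c * B v (E w)) + ↑c * (b * B v (E x) * B v (E w')) -
        b * B v (E w) * B v (E u) - ↑c * (b * B v (E x) * B v (E w)) - b * B v (E w') * B v (E u)) := by
      field_simp
      ring
    rw [e]
    exact key

lemma proj_rat [Finite F] [FiniteDimensional F₀ V₀] (R : RatS B B₀ E) (hG : HG B E G)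
    (hK : ∀ l, R.Good G l → l ∈ F₀) {v : V} {b : F} (hv : st B R.alt v b ∈ G) (hb : b ≠ 0) :
    ∃ (c : F) (y : V₀), v = c • E y := by
  by_cases hv0 : v = 0
  · exact ⟨0, 0, by simp [hv0]⟩
  obtain ⟨x₀, hx₀⟩ : ∃ x₀, B v (E x₀) ≠ 0 := by
    by_contra hcon
    push Not at hcon
    exact hv0 (R.eq_zero_of_perp v hcon)
  obtain ⟨y, hy⟩ := R.rat_of_vals ((b * B v (E x₀)) • v) (by
    intro x
    rw [map_smul, LinearMap.smul_apply, smul_eq_mul]
    exact R.all_vals hG hK hv x₀ x)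
  refine ⟨(b * B v (E x₀))⁻¹, y, ?_⟩
  rw [← hy, smul_smul, inv_mul_cancel₀ (mul_ne_zero hb hx₀), one_smul]

lemma stab_of_proj [FiniteDimensional F₀ V₀] (R : RatS B B₀ E) {φ : V ≃ₗ[F] V} (hφ : IsIsom B φ)
    (h : ∀ x, ∃ (c : F) (y : V₀), φ (E x) = c • E y) : Stab E φ := by
  choose c y hcy using h
  have hprod : ∀ x x', B₀ x x' ≠ 0 → c x * c x' ∈ F₀ ∧ c x * c x' ≠ 0 := by
    intro x x' hxx'
    have h1 := hφ (E x) (E x')
    rw [hcy, hcy, R.form] at h1
    simp only [map_smul, LinearMap.smul_apply, smul_eq_mul, R.form] at h1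
    have hne : ((B₀ x x' : F₀) : F) ≠ 0 := by
      intro h0
      exact hxx' (Subtype.ext h0)
    have h2 : c x * c x' * (B₀ (y x) (y x') : F₀) = (B₀ x x' : F₀) := by rw [← h1]; ring
    have h3 : c x * c x' ≠ 0 := by
      intro h0
      rw [h0, zero_mul] at h2
      exact hne h2.symm
    have h4 : ((B₀ (y x) (y x') : F₀) : F) ≠ 0 := by
      intro h0
      rw [h0, mul_zero] at h2
      exact hne h2.symm
    refine ⟨?_, h3⟩
    have : c x * c x' = (B₀ x x' : F₀) / (B₀ (y x) (y x') : F₀) := by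
      field_simp
      exact h2
    rw [this]
    exact F₀.div_mem (B₀ x x').2 (B₀ (y x) (y x')).2
  have hnt : Nontrivial V₀ := by
    apply Module.nontrivial_of_finrank_pos (R := F₀)
    have := R.dim
    omega
  obtain ⟨x₀, hx₀⟩ := exists_ne (0 : V₀)
  refine ⟨c x₀, fun x => ?_⟩
  by_cases hx : x = 0
  · exact ⟨0, by rw [hx, R.E_zero]; simp⟩
  obtain ⟨x', -, h1, h2⟩ := exists_both_ne_zero (⊤ : Submodule F₀ V₀) (B₀ x₀) (B₀ x)
    (by obtain ⟨z, hz⟩ := R.exists_pair_ne hx₀; exact ⟨z, Submodule.mem_top, hz⟩)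
    (by obtain ⟨z, hz⟩ := R.exists_pair_ne hx; exact ⟨z, Submodule.mem_top, hz⟩)
  obtain ⟨m1, n1⟩ := hprod x₀ x' h1
  obtain ⟨m2, n2⟩ := hprod x x' h2
  have hq : c x / c x₀ ∈ F₀ := by
    have : c x / c x₀ = (c x * c x') / (c x₀ * c x') := by
      have a1 : c x₀ ≠ 0 := left_ne_zero_of_mul n1
      have a2 : c x' ≠ 0 := right_ne_zero_of_mul n1
      field_simp
    rw [this]
    exact F₀.div_mem m2 m1
  refine ⟨(⟨_, hq⟩ : F₀) • y x, ?_⟩
  rw [hcy, R.smul, smul_smul]
  congr 1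
  have a1 : c x₀ ≠ 0 := left_ne_zero_of_mul n1
  field_simp

end RatS

end Cfsg.Agent.Lib.Helper45.SpSub
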