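import Mathlib
import Cfsg.Agent.Lib.Helper13.OrthAE

set_option autoImplicit false
set_option linter.unusedSimpArgs false
set_option linter.unusedVariables false
set_option linter.unusedSectionVars false

/-! Eichler transformations without proof arguments, and the additive groups `AG`. -/

namespace Cfsg.Agent.Lib.Helper45.OSub

open QuadraticMap Module
open Cfsg.Agent.Lib.Helper44 Cfsg.Agent.Lib.Helper13.O

variable {F V : Type*} [Field F] [AddCommGroup V] [Module F V]

open Classical in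
/-- the Eichler transformation `E(u,v)`, equal to `1` when it makes no sense -/
noncomputable def ei (Q : QuadraticForm F V) (u v : V) : V ≃ₗ[F] V :=
  if h : Q u = 0 ∧ polar Q u v = 0 then eichler Q u v h.1 h.2 else 1

variable {Q : QuadraticForm F V}

lemma ei_eq {u v : V} (hu : Q u = 0) (huv : polar Q u v = 0) : ei Q u v = eichler Q u v hu huv :=
  dif_pos ⟨hu, huv⟩

lemma ei_apply {u v : V} (hu : Q u = 0) (huv : polar Q u v = 0) (x : V) :
    ei Q u v x = x + polar Q v x • u - polar Q u x • v - (Q v * polar Q u x) • u := by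
  rw [ei_eq hu huv, eichler_apply]

lemma ei_mem_OQ (u v : V) : ei Q u v ∈ OQ Q := by
  unfold ei
  split_ifs with h
  · exact eichler_mem Q u v h.1 h.2
  · exact one_mem _

lemma ei_mem_Om [Fintype F] [FiniteDimensional F V] (hQ : (polarBilin Q).Nondegenerate)
    (hdim : 4 < finrank F V) (u v : V) : ei Q u v ∈ Om Q := by
  unfold ei
  split_ifs with h
  · exact eichler_mem_Om hQ hdim u v h.1 h.2
  · exact one_mem _

lemma conj_ei {g : V ≃ₗ[F] V} (hg : g ∈ OQ Q) (u v : V) :
    g * ei Q u v * g⁻¹ = ei Q (g u) (g v) := by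
  by_cases h : Q u = 0 ∧ polar Q u v = 0
  · rw [ei_eq h.1 h.2, conj_eichler hg, ei_eq]
  · have h' : ¬ (Q (g u) = 0 ∧ polar Q (g u) (g v) = 0) := by
      rw [mem_OQ.1 hg, OQ_polar hg]; exact h
    unfold ei
    rw [dif_neg h, dif_neg h']
    group

lemma ei_add {u v v' : V} (hu : Q u = 0) (huv : polar Q u v = 0) (huv' : polar Q u v' = 0) :
    ei Q u (v + v') = ei Q u v * ei Q u v' := by
  rw [ei_eq hu huv, ei_eq hu huv', eichler_mul, ei_eq]

lemma ei_zero (u : V) : ei Q u 0 = 1 := by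
  by_cases hu : Q u = 0
  · rw [ei_eq hu (by simp), eichler_zero]
  · unfold ei
    rw [dif_neg (fun h => hu h.1)]

lemma ei_neg {u v : V} (hu : Q u = 0) (huv : polar Q u v = 0) : ei Q u (-v) = (ei Q u v)⁻¹ := by
  rw [ei_eq hu huv, ei_eq hu (by rw [polar_neg_right, huv, neg_zero]), eichler_neg]

lemma ei_swap {u v : V} (hu : Q u = 0) (hv : Q v = 0) (huv : polar Q u v = 0) :
    ei Q u v = ei Q v (-u) := by
  ext x
  rw [ei_apply hu huv, ei_apply hv (by rw [polar_neg_right, polar_comm, huv, neg_zero]), hv,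
    QuadraticMap.map_neg, hu, polar_neg_left]
  module

/-- the vectors `v ⊥ u` with `E(u,v) ∈ G` -/
noncomputable def AG (Q : QuadraticForm F V) (G : Subgroup (V ≃ₗ[F] V)) (u : V) (hu : Q u = 0) :
    AddSubgroup V where
  carrier := {v | polar Q u v = 0 ∧ ei Q u v ∈ G}
  zero_mem' := ⟨by simp, by rw [ei_zero]; exact G.one_mem⟩
  add_mem' := by
    rintro a b ⟨ha, ha'⟩ ⟨hb, hb'⟩
    exact ⟨by rw [polar_add_right, ha, hb, add_zero], by rw [ei_add hu ha hb]; exact G.mul_mem ha' hb'⟩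
  neg_mem' := by
    rintro a ⟨ha, ha'⟩
    exact ⟨by rw [polar_neg_right, ha, neg_zero], by rw [ei_neg hu ha]; exact G.inv_mem ha'⟩

variable {G : Subgroup (V ≃ₗ[F] V)}

lemma mem_AG {u v : V} {hu : Q u = 0} : v ∈ AG Q G u hu ↔ polar Q u v = 0 ∧ ei Q u v ∈ G := Iff.rfl

lemma AG_map {g : V ≃ₗ[F] V} (hg : g ∈ G) (hgO : g ∈ OQ Q) {u v : V} {hu : Q u = 0}
    (hv : v ∈ AG Q G u hu) (hu' : Q (g u) = 0) : g v ∈ AG Q G (g u) hu' := by
  refine ⟨by rw [OQ_polar hgO]; exact hv.1, ?_⟩
  rw [← conj_ei hgO]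
  exact G.mul_mem (G.mul_mem hg hv.2) (G.inv_mem hg)

lemma AG_congr {u u' v : V} {hu : Q u = 0} (h : u = u') (hv : v ∈ AG Q G u hu) (hu' : Q u' = 0) :
    v ∈ AG Q G u' hu' := by
  subst h; exact hv

lemma AG_fix {g : V ≃ₗ[F] V} (hg : g ∈ G) (hgO : g ∈ OQ Q) {u v : V} {hu : Q u = 0}
    (hgu : g u = u) (hv : v ∈ AG Q G u hu) : g v ∈ AG Q G u hu :=
  AG_congr hgu (AG_map hg hgO hv (by rw [hgu]; exact hu)) hu

/-- swapping the two arguments of a long root element -/
lemma AG_swap {u v : V} {hu : Q u = 0} (hv : Q v = 0) (h : v ∈ AG Q G u hu) : u ∈ AG Q G v hv := by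
  have h1 : -u ∈ AG Q G v hv := by
    refine ⟨by rw [polar_neg_right, polar_comm, h.1, neg_zero], ?_⟩
    rw [← ei_swap hu hv h.1]; exact h.2
  simpa using (AG Q G v hv).neg_mem h1

lemma ei_smul_left (c : F) {u v : V} (hu : Q u = 0) (huv : polar Q u v = 0) :
    ei Q (c • u) v = ei Q u (c • v) := by
  rw [ei_eq (by rw [QuadraticMap.map_smul, hu, smul_zero]) (by rw [polar_smul_left, huv, smul_zero]),
    ei_eq hu (by rw [polar_smul_right, huv, smul_zero]), eichler_smul]

/-- swapping with a scalar -/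
lemma AG_swap_smul {u v : V} {hu : Q u = 0} (hv : Q v = 0) {l : F} (h : l • v ∈ AG Q G u hu)
    (huv : polar Q u v = 0) : l • u ∈ AG Q G v hv := by
  have hlv : Q (l • v) = 0 := by rw [QuadraticMap.map_smul, hv, smul_zero]
  have h1 := AG_swap hlv h
  refine ⟨by rw [polar_smul_right, polar_comm, huv, smul_zero], ?_⟩
  rw [← ei_smul_left l hv (by rw [polar_comm, huv])]
  exact h1.2

/-- multiples of `u` lie in `AG u` -/
lemma AG_self {u : V} {hu : Q u = 0} (c : F) : c • u ∈ AG Q G u hu := by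
  have huu : polar Q u u = 0 := by rw [polar_self, hu]; simp
  have h0 : polar Q u (c • u) = 0 := by rw [polar_smul_right, huu, smul_zero]
  refine ⟨h0, ?_⟩
  have : ei Q u (c • u) = 1 := by
    ext x
    rw [ei_apply hu h0, QuadraticMap.map_smul, hu, polar_smul_left]
    simp only [smul_eq_mul, mul_zero, zero_mul, zero_smul, sub_zero, LinearEquiv.coe_one, id_eq]
    module
  rw [this]; exact G.one_mem

/-- the effect of an Eichler transformation `E(p,q) ∈ G` fixing `u` on `AG u` -/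
lemma AG_eich {u p q z : V} {hu : Q u = 0} (hp : Q p = 0) (hpq : polar Q p q = 0)
    (hG : ei Q p q ∈ G) (hpu : polar Q p u = 0) (hqu : polar Q q u = 0) (hz : z ∈ AG Q G u hu) :
    polar Q q z • p - polar Q p z • q - (Q q * polar Q p z) • p ∈ AG Q G u hu := by
  have hfix : ei Q p q u = u := by
    rw [ei_apply hp hpq, hpu, hqu]; simp
  have h1 := AG_fix hG (ei_mem_OQ p q) hfix hz
  have h2 := (AG Q G u hu).sub_mem h1 hz
  rw [ei_apply hp hpq] at h2
  convert h2 using 1
  abel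

/-- the effect of a long root element `E(p,q) ∈ G` fixing `u` on `AG u` -/
lemma AG_root {u p q z : V} {hu : Q u = 0} (hp : Q p = 0) (hq : Q q = 0) (hpq : polar Q p q = 0)
    (hG : ei Q p q ∈ G) (hpu : polar Q p u = 0) (hqu : polar Q q u = 0) (hz : z ∈ AG Q G u hu) :
    polar Q q z • p - polar Q p z • q ∈ AG Q G u hu := by
  have := AG_eich hp hpq hG hpu hqu hz
  rw [hq] at this
  simpa using this

lemma mem_UU_of_AG {u : V} (hu : Q u = 0) (h : ∀ v, polar Q u v = 0 → v ∈ AG Q G u hu) :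
    u ∈ UU Q G :=
  ⟨hu, fun v h1 hv => by rw [← ei_eq h1 hv]; exact (h v hv).2⟩

end Cfsg.Agent.Lib.Helper45.OSub
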