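import Mathlib
import Cfsg.Agent.Lib.Helper45.OSubA

set_option autoImplicit false
set_option linter.unusedSimpArgs false
set_option linter.unusedVariables false
set_option linter.unusedSectionVars false

/-! The Sylow trick: two opposite long root elements of `G` are linked by an element of `G`
supported on the four-space they span. -/

namespace Cfsg.Agent.Lib.Helper45.OSub

open QuadraticMap Module
open Cfsg.Agent.Lib.Helper44 Cfsg.Agent.Lib.Helper13.O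

variable {F V : Type*} [Field F] [AddCommGroup V] [Module F V]

/-- a `p`-group of linear maps stabilising a non-zero subspace fixes a non-zero vector in it -/
lemma exists_fixed_in [Finite F] [FiniteDimensional F V] (p : ℕ) [Fact p.Prime] [CharP F p]
    (P : Subgroup (V ≃ₗ[F] V)) (hP : IsPGroup p P) (Y : Submodule F V)
    (hY : ∀ g ∈ P, ∀ z ∈ Y, g z ∈ Y) (hne : ∃ z ∈ Y, z ≠ 0) :
    ∃ z ∈ Y, z ≠ 0 ∧ ∀ g ∈ P, g z = z := by
  classical
  have : Finite V := Module.finite_of_finite F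
  let _ : MulAction P Y :=
    { smul := fun g z => ⟨(g : V ≃ₗ[F] V) z, hY g g.2 z z.2⟩
      one_smul := fun z => Subtype.ext rfl
      mul_smul := fun g h z => Subtype.ext rfl }
  have hcard : p ∣ Nat.card Y := by
    obtain ⟨z, hz, hz0⟩ := hne
    have h1 : addOrderOf (⟨z, hz⟩ : Y) = p := by
      apply addOrderOf_eq_prime
      · apply Subtype.ext
        change p • z = 0
        rw [← Nat.cast_smul_eq_nsmul F, CharP.cast_eq_zero, zero_smul]
      · intro h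
        exact hz0 (congrArg Subtype.val h)
    rw [← h1]
    exact addOrderOf_dvd_natCard _
  have h0 : (0 : Y) ∈ MulAction.fixedPoints P Y := by
    intro g
    apply Subtype.ext
    change (g : V ≃ₗ[F] V) 0 = 0
    simp
  obtain ⟨b, hb, hne'⟩ := hP.exists_fixed_point_of_prime_dvd_card_of_fixed_point Y hcard h0
  refine ⟨b, b.2, fun h => hne' (Subtype.ext h.symm), fun g hg => ?_⟩
  exact congrArg Subtype.val (hb ⟨g, hg⟩)

/-- two hyperbolic pairs, perpendicular to each other -/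
structure Hyp2 (Q : QuadraticForm F V) (e₀ e₁ f₀ f₁ : V) : Prop where
  Qe0 : Q e₀ = 0
  Qe1 : Q e₁ = 0
  Qf0 : Q f₀ = 0
  Qf1 : Q f₁ = 0
  e0f0 : polar Q e₀ f₀ = 1
  e1f1 : polar Q e₁ f₁ = 1
  e0f1 : polar Q e₀ f₁ = 0
  e1f0 : polar Q e₁ f₀ = 0
  e0e1 : polar Q e₀ e₁ = 0
  f0f1 : polar Q f₀ f₁ = 0

variable {Q : QuadraticForm F V} {e₀ e₁ f₀ f₁ : V}

namespace Hyp2

variable (h : Hyp2 Q e₀ e₁ f₀ f₁)
include h

lemma f0e0 : polar Q f₀ e₀ = 1 := by rw [polar_comm, h.e0f0]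
lemma f1e1 : polar Q f₁ e₁ = 1 := by rw [polar_comm, h.e1f1]
lemma f1e0 : polar Q f₁ e₀ = 0 := by rw [polar_comm, h.e0f1]
lemma f0e1 : polar Q f₀ e₁ = 0 := by rw [polar_comm, h.e1f0]
lemma e1e0 : polar Q e₁ e₀ = 0 := by rw [polar_comm, h.e0e1]
lemma f1f0 : polar Q f₁ f₀ = 0 := by rw [polar_comm, h.f0f1]
lemma e0e0 : polar Q e₀ e₀ = 0 := by rw [polar_self, h.Qe0]; simp
lemma e1e1 : polar Q e₁ e₁ = 0 := by rw [polar_self, h.Qe1]; simp
lemma f0f0 : polar Q f₀ f₀ = 0 := by rw [polar_self, h.Qf0]; simp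
lemma f1f1 : polar Q f₁ f₁ = 0 := by rw [polar_self, h.Qf1]; simp

end Hyp2

/-- perpendicular to the four vectors -/
def Perp4 (Q : QuadraticForm F V) (e₀ e₁ f₀ f₁ t : V) : Prop :=
  polar Q e₀ t = 0 ∧ polar Q e₁ t = 0 ∧ polar Q f₀ t = 0 ∧ polar Q f₁ t = 0

/-- the projection to the span of the four vectors -/
def pr4 (Q : QuadraticForm F V) (e₀ e₁ f₀ f₁ t : V) : V :=
  polar Q f₀ t • e₀ + polar Q f₁ t • e₁ + polar Q e₀ t • f₀ + polar Q e₁ t • f₁

lemma perp_sub_pr4 (h : Hyp2 Q e₀ e₁ f₀ f₁) (t : V) : Perp4 Q e₀ e₁ f₀ f₁ (t - pr4 Q e₀ e₁ f₀ f₁ t) := by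
  refine ⟨?_, ?_, ?_, ?_⟩ <;>
  simp only [pr4, polar_sub_right, polar_add_right, polar_smul_right, h.e0e0, h.e0e1, h.e0f0, h.e0f1,
    h.e1e0, h.e1e1, h.e1f0, h.e1f1, h.f0e0, h.f0e1, h.f0f0, h.f0f1, h.f1e0, h.f1e1, h.f1f0, h.f1f1,
    smul_eq_mul, mul_zero, mul_one, add_zero, zero_add, sub_self]

/-- the double perpendicular space of the four vectors -/
def Y4 (Q : QuadraticForm F V) (e₀ e₁ f₀ f₁ : V) : Submodule F V where
  carrier := {z | ∀ t, Perp4 Q e₀ e₁ f₀ f₁ t → polar Q z t = 0}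
  zero_mem' := fun t _ => by simp
  add_mem' := fun {a b} ha hb t ht => by rw [polar_add_left, ha t ht, hb t ht, add_zero]
  smul_mem' := fun c a ha t ht => by rw [polar_smul_left, ha t ht, smul_zero]

lemma eq_pr4_of_mem (hQ : (polarBilin Q).Nondegenerate) (h : Hyp2 Q e₀ e₁ f₀ f₁) {z : V}
    (hz : z ∈ Y4 Q e₀ e₁ f₀ f₁) : z = pr4 Q e₀ e₁ f₀ f₁ z := by
  rw [← sub_eq_zero]
  apply hQ.1
  intro t
  change polar Q (z - pr4 Q e₀ e₁ f₀ f₁ z) t = 0
  obtain ⟨a1, a2, a3, a4⟩ := perp_sub_pr4 h z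
  obtain ⟨b1, b2, b3, b4⟩ := perp_sub_pr4 h t
  have e : t = (t - pr4 Q e₀ e₁ f₀ f₁ t) + pr4 Q e₀ e₁ f₀ f₁ t := by abel
  rw [e, polar_add_right]
  have h1 : polar Q (z - pr4 Q e₀ e₁ f₀ f₁ z) (pr4 Q e₀ e₁ f₀ f₁ t) = 0 := by
    generalize z - pr4 Q e₀ e₁ f₀ f₁ z = s at a1 a2 a3 a4
    simp only [pr4, polar_add_right, polar_smul_right]
    rw [polar_comm Q _ e₀, polar_comm Q _ e₁, polar_comm Q _ f₀, polar_comm Q _ f₁, a1, a2, a3, a4]
    simp
  have h2 : polar Q (z - pr4 Q e₀ e₁ f₀ f₁ z) (t - pr4 Q e₀ e₁ f₀ f₁ t) = 0 := by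
    rw [polar_sub_left, hz _ (perp_sub_pr4 h t)]
    generalize t - pr4 Q e₀ e₁ f₀ f₁ t = s at b1 b2 b3 b4
    simp only [pr4, polar_add_left, polar_smul_left, b1, b2, b3, b4]
    simp
  rw [h1, h2, add_zero]

/-- the linear maps fixing every vector perpendicular to the four vectors -/
def Fx4 (Q : QuadraticForm F V) (e₀ e₁ f₀ f₁ : V) : Subgroup (V ≃ₗ[F] V) where
  carrier := {g | ∀ t, Perp4 Q e₀ e₁ f₀ f₁ t → g t = t}
  one_mem' := fun t _ => rfl
  mul_mem' := fun {a b} ha hb t ht => by rw [LinearEquiv.mul_apply, hb t ht, ha t ht]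
  inv_mem' := fun {a} ha t ht => by
    have := ha t ht
    calc a⁻¹ t = a⁻¹ (a t) := by rw [this]
      _ = t := by rw [← LinearEquiv.mul_apply, inv_mul_cancel]; rfl

lemma ei_pow {u v : V} (hu : Q u = 0) (huv : polar Q u v = 0) (k : ℕ) :
    (ei Q u v) ^ k = ei Q u (k • v) := by
  induction k with
  | zero => simp [ei_zero]
  | succ k ih =>
    rw [pow_succ, ih, succ_nsmul, ei_add hu (by
      rw [← Nat.cast_smul_eq_nsmul F, polar_smul_right, huv, smul_zero]) huv]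

lemma ei_pow_char (p : ℕ) [CharP F p] {u v : V} (hu : Q u = 0) (huv : polar Q u v = 0) :
    (ei Q u v) ^ p = 1 := by
  rw [ei_pow hu huv, ← Nat.cast_smul_eq_nsmul F, CharP.cast_eq_zero, zero_smul, ei_zero]

theorem syl_norm [Finite F] [FiniteDimensional F V] (hQ : (polarBilin Q).Nondegenerate)
    {G : Subgroup (V ≃ₗ[F] V)} (hGO : G ≤ OQ Q) (h : Hyp2 Q e₀ e₁ f₀ f₁) {κ : F} (hκ : κ ≠ 0)
    (hx : ei Q e₀ e₁ ∈ G) (hy : ei Q f₀ (κ • f₁) ∈ G) :
    ∃ c ∈ G, ∃ τ : F, τ ≠ 0 ∧ c e₀ = -(τ • f₁) ∧ c e₁ = τ • f₀ ∧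
      ∀ t, Perp4 Q e₀ e₁ f₀ f₁ t → c t = t := by
  classical
  have : Finite V := Module.finite_of_finite F
  have : Finite (V ≃ₗ[F] V) := Finite.of_injective (fun g => (g : V → V)) DFunLike.coe_injective
  obtain ⟨p, hp⟩ := CharP.exists F
  have hpp : Fact p.Prime := ⟨CharP.char_is_prime F p⟩
  have hfk : polar Q f₀ (κ • f₁) = 0 := by rw [polar_smul_right, h.f0f1, smul_zero]
  have hQk : Q (κ • f₁) = 0 := by rw [QuadraticMap.map_smul, h.Qf1, smul_zero]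
  set x := ei Q e₀ e₁ with hxdef
  set y := ei Q f₀ (κ • f₁) with hydef
  set θ := ei Q e₀ f₁ with hθ
  set θ' := ei Q e₁ f₀ with hθ'
  have xa : ∀ t, x t = t + polar Q e₁ t • e₀ - polar Q e₀ t • e₁ := by
    intro t; rw [hxdef, ei_apply h.Qe0 h.e0e1, h.Qe1]; simp
  have ya : ∀ t, y t = t + (κ * polar Q f₁ t) • f₀ - (κ * polar Q f₀ t) • f₁ := by
    intro t; rw [hydef, ei_apply h.Qf0 hfk, hQk, polar_smul_left, smul_smul, smul_eq_mul,
      mul_comm (polar Q f₀ t) κ]; simp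
  have ta : ∀ t, θ t = t + polar Q f₁ t • e₀ - polar Q e₀ t • f₁ := by
    intro t; rw [hθ, ei_apply h.Qe0 h.e0f1, h.Qf1]; simp
  have ta' : ∀ t, θ' t = t + polar Q f₀ t • e₁ - polar Q e₁ t • f₀ := by
    intro t; rw [hθ', ei_apply h.Qe1 h.e1f0, h.Qf0]; simp
  set D : Subgroup (V ≃ₗ[F] V) := G ⊓ Fx4 Q e₀ e₁ f₀ f₁ ⊓ Subgroup.centralizer {θ, θ'} with hD
  have hxD : x ∈ D := by
    refine ⟨⟨hx, ?_⟩, Subgroup.mem_centralizer_iff.2 ?_⟩
    · intro t ht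
      rw [xa, ht.1, ht.2.1]; simp
    · intro g hg
      rcases hg with rfl | rfl
      · ext t
        simp only [LinearEquiv.mul_apply, xa, ta, polar_add_right, polar_sub_right, polar_smul_right,
          h.e0e0, h.e0e1, h.e0f0, h.e0f1, h.e1e0, h.e1e1, h.e1f0, h.e1f1, h.f0e0, h.f0e1, h.f0f0,
          h.f0f1, h.f1e0, h.f1e1, h.f1f0, h.f1f1, smul_eq_mul, mul_zero, mul_one, add_zero, sub_zero]
        module
      · ext t
        simp only [LinearEquiv.mul_apply, xa, ta', polar_add_right, polar_sub_right, polar_smul_right,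
          h.e0e0, h.e0e1, h.e0f0, h.e0f1, h.e1e0, h.e1e1, h.e1f0, h.e1f1, h.f0e0, h.f0e1, h.f0f0,
          h.f0f1, h.f1e0, h.f1e1, h.f1f0, h.f1f1, smul_eq_mul, mul_zero, mul_one, add_zero, sub_zero]
        module
  have hyD : y ∈ D := by
    refine ⟨⟨hy, ?_⟩, Subgroup.mem_centralizer_iff.2 ?_⟩
    · intro t ht
      rw [ya, ht.2.2.1, ht.2.2.2]; simp
    · intro g hg
      rcases hg with rfl | rfl
      · ext t
        simp only [LinearEquiv.mul_apply, ya, ta, polar_add_right, polar_sub_right, polar_smul_right,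
          h.e0e0, h.e0e1, h.e0f0, h.e0f1, h.e1e0, h.e1e1, h.e1f0, h.e1f1, h.f0e0, h.f0e1, h.f0f0,
          h.f0f1, h.f1e0, h.f1e1, h.f1f0, h.f1f1, smul_eq_mul, mul_zero, mul_one, add_zero, sub_zero]
        module
      · ext t
        simp only [LinearEquiv.mul_apply, ya, ta', polar_add_right, polar_sub_right, polar_smul_right,
          h.e0e0, h.e0e1, h.e0f0, h.e0f1, h.e1e0, h.e1e1, h.e1f0, h.e1f1, h.f0e0, h.f0e1, h.f0f0,
          h.f0f1, h.f1e0, h.f1e1, h.f1f0, h.f1f1, smul_eq_mul, mul_zero, mul_one, add_zero, sub_zero]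
        module
  -- Sylow subgroups
  have hpg : ∀ g : D, g ^ p = 1 → IsPGroup p (Subgroup.zpowers g) := by
    intro g hg z
    obtain ⟨k, hk⟩ := Subgroup.mem_zpowers_iff.1 z.2
    refine ⟨1, Subtype.ext ?_⟩
    simp only [pow_one, Subgroup.coe_pow, Subgroup.coe_one]
    rw [← hk, ← zpow_natCast, ← zpow_mul, mul_comm, zpow_mul, zpow_natCast, hg, one_zpow]
  obtain ⟨Px, hPx⟩ := (hpg ⟨x, hxD⟩ (Subtype.ext (ei_pow_char p h.Qe0 h.e0e1))).exists_le_sylow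
  obtain ⟨Py, hPy⟩ := (hpg ⟨y, hyD⟩ (Subtype.ext (ei_pow_char p h.Qf0 hfk))).exists_le_sylow
  obtain ⟨c, hc⟩ := MulAction.exists_smul_eq D Px Py
  have hxP : c * ⟨x, hxD⟩ * c⁻¹ ∈ (Py : Subgroup D) := by
    rw [← hc, Sylow.coe_subgroup_smul]
    have := Subgroup.smul_mem_pointwise_smul (⟨x, hxD⟩ : D) (MulAut.conj c) (Px : Subgroup D)
      (hPx (Subgroup.mem_zpowers _))
    simpa [MulAut.smul_def] using this
  have hyP : (⟨y, hyD⟩ : D) ∈ (Py : Subgroup D) := hPy (Subgroup.mem_zpowers _)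
  -- invariance of `Y4`
  have hinv : ∀ g ∈ D, ∀ z ∈ Y4 Q e₀ e₁ f₀ f₁, g z ∈ Y4 Q e₀ e₁ f₀ f₁ := by
    intro g hg z hz t ht
    have h1 : g t = t := hg.1.2 t ht
    rw [← h1, OQ_polar (hGO hg.1.1)]
    exact hz t ht
  have he0Y : e₀ ∈ Y4 Q e₀ e₁ f₀ f₁ := fun t ht => ht.1
  have he00 : e₀ ≠ 0 := by
    rintro rfl
    have := h.e0f0
    simp at this
  obtain ⟨y₀, hy₀Y, hy₀, hfix⟩ := exists_fixed_in p ((Py : Subgroup D).map D.subtype) (Py.2.map _)
    (Y4 Q e₀ e₁ f₀ f₁) (by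
      rintro _ ⟨g, -, rfl⟩ z hz
      exact hinv g g.2 z hz) ⟨e₀, he0Y, he00⟩
  have hc1 : (c : V ≃ₗ[F] V) ∈ D := c.2
  set c' : V ≃ₗ[F] V := (c : V ≃ₗ[F] V) with hc'
  have hyy : y y₀ = y₀ := hfix y ⟨⟨y, hyD⟩, hyP, rfl⟩
  have hxx : (c' * x * c'⁻¹) y₀ = y₀ := hfix _ ⟨_, hxP, rfl⟩
  set m₀ : V := c'⁻¹ y₀ with hm₀
  have hcm : c' m₀ = y₀ := by
    rw [hm₀, ← LinearEquiv.mul_apply, mul_inv_cancel]; rfl
  have hm₀Y : m₀ ∈ Y4 Q e₀ e₁ f₀ f₁ := hinv _ (D.inv_mem hc1) _ hy₀Y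
  have hxm : x m₀ = m₀ := by
    have h1 : c' (x m₀) = c' m₀ := by
      rw [hcm]
      exact hxx
    exact c'.injective h1
  -- coordinates
  have hy1 : polar Q f₁ y₀ = 0 ∧ polar Q f₀ y₀ = 0 := by
    rw [ya] at hyy
    have h1 : (κ * polar Q f₁ y₀) • f₀ - (κ * polar Q f₀ y₀) • f₁ = 0 := by
      have : y₀ + (κ * polar Q f₁ y₀) • f₀ - (κ * polar Q f₀ y₀) • f₁ - y₀ = 0 := by
        rw [hyy, sub_self]
      rw [← this]; abel
    have h2 := congrArg (polar Q e₀) h1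
    have h3 := congrArg (polar Q e₁) h1
    simp only [polar_sub_right, polar_smul_right, h.e0f0, h.e0f1, h.e1f0, h.e1f1, smul_eq_mul, mul_one,
      mul_zero, sub_zero, zero_sub, polar_zero_right, neg_eq_zero, mul_eq_zero, hκ, false_or] at h2 h3
    exact ⟨h2, h3⟩
  have hm1 : polar Q e₁ m₀ = 0 ∧ polar Q e₀ m₀ = 0 := by
    rw [xa] at hxm
    have h1 : polar Q e₁ m₀ • e₀ - polar Q e₀ m₀ • e₁ = 0 := by
      have : m₀ + polar Q e₁ m₀ • e₀ - polar Q e₀ m₀ • e₁ - m₀ = 0 := by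
        rw [hxm, sub_self]
      rw [← this]; abel
    have h2 := congrArg (polar Q f₀) h1
    have h3 := congrArg (polar Q f₁) h1
    simp only [polar_sub_right, polar_smul_right, h.f0e0, h.f0e1, h.f1e0, h.f1e1, smul_eq_mul, mul_one,
      mul_zero, sub_zero, zero_sub, polar_zero_right, neg_eq_zero] at h2 h3
    exact ⟨h2, h3⟩
  have hcθ : ∀ t, θ (c' t) = c' (θ t) := by
    intro t
    have := (Subgroup.mem_centralizer_iff.1 hc1.2) θ (by simp)
    exact congrArg (fun g : V ≃ₗ[F] V => g t) this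
  have hcθ' : ∀ t, θ' (c' t) = c' (θ' t) := by
    intro t
    have := (Subgroup.mem_centralizer_iff.1 hc1.2) θ' (by simp)
    exact congrArg (fun g : V ≃ₗ[F] V => g t) this
  -- the two basic relations
  have r1 : polar Q f₁ m₀ • c' e₀ = -(polar Q e₀ y₀ • f₁) := by
    have := hcθ m₀
    rw [hcm, ta, ta, hy1.1, hm1.2] at this
    simp only [zero_smul, add_zero, sub_zero, map_add, map_smul, hcm] at this
    have e : polar Q f₁ m₀ • c' e₀ = (y₀ + polar Q f₁ m₀ • c' e₀) - y₀ := by abel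
    rw [e, ← this]; abel
  have r2 : polar Q f₀ m₀ • c' e₁ = -(polar Q e₁ y₀ • f₀) := by
    have := hcθ' m₀
    rw [hcm, ta', ta', hy1.2, hm1.1] at this
    simp only [zero_smul, add_zero, sub_zero, map_add, map_smul, hcm] at this
    have e : polar Q f₀ m₀ • c' e₁ = (y₀ + polar Q f₀ m₀ • c' e₁) - y₀ := by abel
    rw [e, ← this]; abel
  -- from one to the other
  have s1 : ∀ τ : F, c' e₀ = -(τ • f₁) → c' e₁ = τ • f₀ := by
    intro τ hτ
    have := hcθ' e₀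
    rw [hτ, ta', ta'] at this
    simp only [polar_neg_right, polar_smul_right, h.f0f1, h.e1f1, h.f0e0, h.e1e0, smul_eq_mul, mul_zero,
      mul_one, neg_zero, zero_smul, add_zero, one_smul, sub_zero, map_add, hτ, neg_smul, sub_neg_eq_add] at this
    have e : c' e₁ = (-(τ • f₁) + c' e₁) + τ • f₁ := by abel
    rw [e, ← this]; abel
  have s2 : ∀ τ : F, c' e₁ = τ • f₀ → c' e₀ = -(τ • f₁) := by
    intro τ hτ
    have := hcθ e₁
    rw [hτ, ta, ta] at this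
    simp only [polar_neg_right, polar_smul_right, h.f1f0, h.e0f0, h.f1e1, h.e0e1, smul_eq_mul, mul_zero,
      mul_one, neg_zero, zero_smul, add_zero, one_smul, sub_zero, map_add, hτ] at this
    have e : c' e₀ = (τ • f₀ + c' e₀) - τ • f₀ := by abel
    rw [e, ← this]; abel
  have hfin : ∃ τ : F, c' e₀ = -(τ • f₁) ∧ c' e₁ = τ • f₀ := by
    by_cases ha : polar Q f₁ m₀ = 0
    · have hb : polar Q f₀ m₀ ≠ 0 := by
        intro hb
        apply hy₀
        have := eq_pr4_of_mem hQ h hm₀Y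
        rw [pr4, ha, hb, hm1.1, hm1.2] at this
        simp only [zero_smul, add_zero] at this
        rw [← hcm, this, map_zero]
      have h1 : c' e₁ = (-((polar Q f₀ m₀)⁻¹ * polar Q e₁ y₀)) • f₀ := by
        have := congrArg (fun z => (polar Q f₀ m₀)⁻¹ • z) r2
        simp only [smul_smul, inv_mul_cancel₀ hb, one_smul, smul_neg] at this
        rw [this, neg_smul]
      exact ⟨_, s2 _ h1, h1⟩
    · have h1 : c' e₀ = -(((polar Q f₁ m₀)⁻¹ * polar Q e₀ y₀) • f₁) := by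
        have := congrArg (fun z => (polar Q f₁ m₀)⁻¹ • z) r1
        simp only [smul_smul, inv_mul_cancel₀ ha, one_smul, smul_neg] at this
        exact this
      exact ⟨_, h1, s1 _ h1⟩
  obtain ⟨τ, h1, h2⟩ := hfin
  refine ⟨c', hc1.1.1, τ, ?_, h1, h2, hc1.1.2⟩
  rintro rfl
  rw [zero_smul, neg_zero] at h1
  exact he00 (c'.injective (by rw [h1, map_zero]))

/-- general form: `⟨u,u'⟩` and `⟨v,v'⟩` opposite totally singular lines -/
theorem syl_gen [Finite F] [FiniteDimensional F V] (hQ : (polarBilin Q).Nondegenerate)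
    {G : Subgroup (V ≃ₗ[F] V)} (hGO : G ≤ OQ Q) {u u' v v' : V} (hu : Q u = 0) (hu' : Q u' = 0)
    (hv : Q v = 0) (hv' : Q v' = 0) (huu : polar Q u u' = 0) (hvv : polar Q v v' = 0)
    (hΔ : polar Q u v * polar Q u' v' - polar Q u v' * polar Q u' v ≠ 0)
    (hx : ei Q u u' ∈ G) (hy : ei Q v v' ∈ G) :
    ∃ g ∈ G, (∀ t, polar Q u t = 0 → polar Q u' t = 0 → polar Q v t = 0 → polar Q v' t = 0 → g t = t) ∧
      (∃ a b : F, g u = a • v + b • v') ∧ (∃ a b : F, g u' = a • v + b • v') ∧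
      (∃ a b : F, g (a • u + b • u') = v) ∧ (∃ a b : F, g (a • u + b • u') = v') := by
  set a := polar Q u v with ha
  set b := polar Q u v' with hb
  set c := polar Q u' v with hc
  set d := polar Q u' v' with hd
  set Δ := a * d - b * c with hΔdef
  set f₀ : V := Δ⁻¹ • (d • v - c • v') with hf₀
  set f₁ : V := Δ⁻¹ • (a • v' - b • v) with hf₁
  have hvv0 : polar Q v v = 0 := by rw [polar_self, hv]; simp
  have hvv1 : polar Q v' v' = 0 := by rw [polar_self, hv']; simp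
  have hvv2 : polar Q v' v = 0 := by rw [polar_comm, hvv]
  have hQl : ∀ s t : F, Q (s • v + t • v') = 0 := by
    intro s t
    rw [Q_add_smul, QuadraticMap.map_smul, hv, hv', polar_smul_left, hvv]; simp
  have h : Hyp2 Q u u' f₀ f₁ := by
    refine ⟨hu, hu', ?_, ?_, ?_, ?_, ?_, ?_, huu, ?_⟩
    · rw [hf₀, QuadraticMap.map_smul, sub_eq_add_neg, ← neg_smul, hQl, smul_zero]
    · rw [hf₁, QuadraticMap.map_smul, sub_eq_add_neg, ← neg_smul, add_comm, hQl, smul_zero]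
    · rw [hf₀, polar_smul_right, polar_sub_right, polar_smul_right, polar_smul_right, ← ha, ← hb]
      simp only [smul_eq_mul]
      rw [inv_mul_eq_div, div_eq_one_iff_eq hΔ, hΔdef]; ring
    · rw [hf₁, polar_smul_right, polar_sub_right, polar_smul_right, polar_smul_right, ← hc, ← hd]
      simp only [smul_eq_mul]
      rw [inv_mul_eq_div, div_eq_one_iff_eq hΔ, hΔdef]
    · rw [hf₁, polar_smul_right, polar_sub_right, polar_smul_right, polar_smul_right, ← ha, ← hb]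
      simp only [smul_eq_mul]
      ring
    · rw [hf₀, polar_smul_right, polar_sub_right, polar_smul_right, polar_smul_right, ← hc, ← hd]
      simp only [smul_eq_mul]
      ring
    · simp only [hf₀, hf₁, polar_smul_right, polar_smul_left, polar_sub_right, polar_sub_left, hvv, hvv0,
        hvv1, hvv2, smul_eq_mul]
      ring
  have hkey : ei Q f₀ (Δ • f₁) = ei Q v v' := by
    ext x
    rw [ei_apply h.Qf0 (by rw [polar_smul_right, h.f0f1, smul_zero]), ei_apply hv hvv, hv',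
      QuadraticMap.map_smul, h.Qf1]
    simp only [hf₀, hf₁, polar_smul_left, polar_sub_left, smul_eq_mul, smul_smul, mul_zero, zero_mul,
      zero_smul, sub_zero, smul_sub]
    have e1 : Δ * Δ⁻¹ = 1 := mul_inv_cancel₀ hΔ
    have e2 : ∀ r : F, Δ⁻¹ * (a * d) * r - Δ⁻¹ * (b * c) * r = r := by
      intro r
      have : Δ⁻¹ * (a * d) * r - Δ⁻¹ * (b * c) * r = (Δ * Δ⁻¹) * r := by rw [hΔdef]; ring
      rw [this, e1, one_mul]
    have e3 : x + (Δ * (Δ⁻¹ * (a * polar Q v' x - b * polar Q v x)) * (Δ⁻¹ * d)) • v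
        - (Δ * (Δ⁻¹ * (a * polar Q v' x - b * polar Q v x)) * (Δ⁻¹ * c)) • v'
        - ((Δ⁻¹ * (d * polar Q v x - c * polar Q v' x) * (Δ * (Δ⁻¹ * a))) • v'
          - (Δ⁻¹ * (d * polar Q v x - c * polar Q v' x) * (Δ * (Δ⁻¹ * b))) • v)
        = x + ((Δ * Δ⁻¹) * (Δ⁻¹ * (a * d) * polar Q v' x - Δ⁻¹ * (b * c) * polar Q v' x)) • v
          - ((Δ * Δ⁻¹) * (Δ⁻¹ * (a * d) * polar Q v x - Δ⁻¹ * (b * c) * polar Q v x)) • v' := by
      module
    first
      | rw [e3, e2, e2, e1, one_mul, one_mul]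
      | (convert e3.trans (by rw [e2, e2, e1, one_mul, one_mul]) using 2 <;> module)
  obtain ⟨g, hg, τ, hτ, g1, g2, g3⟩ := syl_norm hQ hGO h hΔ hx (by rw [hkey]; exact hy)
  have hv_eq : v = a • f₀ + c • f₁ := by
    have e1 : Δ⁻¹ * (a * d) - Δ⁻¹ * (b * c) = 1 := by
      have : Δ⁻¹ * (a * d) - Δ⁻¹ * (b * c) = Δ⁻¹ * Δ := by rw [hΔdef]; ring
      rw [this, inv_mul_cancel₀ hΔ]
    have : a • f₀ + c • f₁ = (Δ⁻¹ * (a * d) - Δ⁻¹ * (b * c)) • v := by
      rw [hf₀, hf₁]; module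
    rw [this, e1, one_smul]
  have hv'_eq : v' = b • f₀ + d • f₁ := by
    have e1 : Δ⁻¹ * (a * d) - Δ⁻¹ * (b * c) = 1 := by
      have : Δ⁻¹ * (a * d) - Δ⁻¹ * (b * c) = Δ⁻¹ * Δ := by rw [hΔdef]; ring
      rw [this, inv_mul_cancel₀ hΔ]
    have : b • f₀ + d • f₁ = (Δ⁻¹ * (a * d) - Δ⁻¹ * (b * c)) • v' := by
      rw [hf₀, hf₁]; module
    rw [this, e1, one_smul]
  refine ⟨g, hg, ?_, ?_, ?_, ?_, ?_⟩
  · intro t t1 t2 t3 t4
    apply g3
    refine ⟨t1, t2, ?_, ?_⟩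
    · rw [hf₀, polar_smul_left, polar_sub_left, polar_smul_left, polar_smul_left, t3, t4]; simp
    · rw [hf₁, polar_smul_left, polar_sub_left, polar_smul_left, polar_smul_left, t3, t4]; simp
  · exact ⟨τ * Δ⁻¹ * b, -(τ * Δ⁻¹ * a), by rw [g1, hf₁]; module⟩
  · exact ⟨τ * Δ⁻¹ * d, -(τ * Δ⁻¹ * c), by rw [g2, hf₀]; module⟩
  · refine ⟨-(τ⁻¹ * c), τ⁻¹ * a, ?_⟩
    rw [map_add, map_smul, map_smul, g1, g2]
    conv_rhs => rw [hv_eq]
    have e1 : τ⁻¹ * τ = 1 := inv_mul_cancel₀ hτ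
    have : -(τ⁻¹ * c) • -(τ • f₁) + (τ⁻¹ * a) • τ • f₀ = ((τ⁻¹ * τ) * a) • f₀ + ((τ⁻¹ * τ) * c) • f₁ := by
      module
    rw [this, e1, one_mul, one_mul]
  · refine ⟨-(τ⁻¹ * d), τ⁻¹ * b, ?_⟩
    rw [map_add, map_smul, map_smul, g1, g2]
    conv_rhs => rw [hv'_eq]
    have e1 : τ⁻¹ * τ = 1 := inv_mul_cancel₀ hτ
    have : -(τ⁻¹ * d) • -(τ • f₁) + (τ⁻¹ * b) • τ • f₀ = ((τ⁻¹ * τ) * b) • f₀ + ((τ⁻¹ * τ) * d) • f₁ := by
      module
    rw [this, e1, one_mul, one_mul]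

/-- two perpendicular lines `M₁`, `M₂` opposite `L` give an element of `G` with small support on
`(M₁ + M₂)^⊥` -/
theorem exists_d [Finite F] [FiniteDimensional F V] (hQ : (polarBilin Q).Nondegenerate)
    {G : Subgroup (V ≃ₗ[F] V)} (hGO : G ≤ OQ Q) {u₁ u₁' u₂ u₂' v v' : V}
    (hu₁ : Q u₁ = 0) (hu₁' : Q u₁' = 0) (hu₂ : Q u₂ = 0) (hu₂' : Q u₂' = 0)
    (hv : Q v = 0) (hv' : Q v' = 0) (h11 : polar Q u₁ u₁' = 0) (h22 : polar Q u₂ u₂' = 0)
    (ha : polar Q u₂ u₁ = 0) (hb : polar Q u₂ u₁' = 0) (hc : polar Q u₂' u₁ = 0)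
    (hd : polar Q u₂' u₁' = 0) (hvv : polar Q v v' = 0)
    (hΔ₁ : polar Q u₁ v * polar Q u₁' v' - polar Q u₁ v' * polar Q u₁' v ≠ 0)
    (hΔ₂ : polar Q u₂ v * polar Q u₂' v' - polar Q u₂ v' * polar Q u₂' v ≠ 0)
    (hx₁ : ei Q u₁ u₁' ∈ G) (hx₂ : ei Q u₂ u₂' ∈ G) (hy : ei Q v v' ∈ G) :
    ∃ d ∈ G, ∀ w, polar Q u₁ w = 0 → polar Q u₁' w = 0 → polar Q u₂ w = 0 → polar Q u₂' w = 0 →
      ∃ a b : F, d w = w
        - ((polar Q v w * polar Q u₁' v' - polar Q v' w * polar Q u₁' v) /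
            (polar Q u₁ v * polar Q u₁' v' - polar Q u₁ v' * polar Q u₁' v)) • u₁
        - ((polar Q u₁ v * polar Q v' w - polar Q u₁ v' * polar Q v w) /
            (polar Q u₁ v * polar Q u₁' v' - polar Q u₁ v' * polar Q u₁' v)) • u₁'
        + a • u₂ + b • u₂' := by
  obtain ⟨g₁, hg₁, p1, ⟨a1, b1, p2⟩, ⟨a2, b2, p3⟩, -, -⟩ :=
    syl_gen hQ hGO hu₁ hu₁' hv hv' h11 hvv hΔ₁ hx₁ hy
  obtain ⟨g₂, hg₂, q1, -, -, ⟨a3, b3, q2⟩, ⟨a4, b4, q3⟩⟩ :=
    syl_gen hQ hGO hu₂ hu₂' hv hv' h22 hvv hΔ₂ hx₂ hy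
  have hinv : ∀ s t, g₂ s = t → g₂⁻¹ t = s := by
    intro s t hst
    rw [← hst, ← LinearEquiv.mul_apply, inv_mul_cancel]; rfl
  refine ⟨g₂⁻¹ * g₁, G.mul_mem (G.inv_mem hg₂) hg₁, ?_⟩
  intro w w1 w2 w3 w4
  set Δ := polar Q u₁ v * polar Q u₁' v' - polar Q u₁ v' * polar Q u₁' v with hΔdef
  set α := (polar Q v w * polar Q u₁' v' - polar Q v' w * polar Q u₁' v) / Δ with hα
  set α' := (polar Q u₁ v * polar Q v' w - polar Q u₁ v' * polar Q v w) / Δ with hα'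
  set w₁ : V := w - α • u₁ - α' • u₁' with hw₁
  have h110 : polar Q u₁ u₁ = 0 := by rw [polar_self, hu₁]; simp
  have h111 : polar Q u₁' u₁' = 0 := by rw [polar_self, hu₁']; simp
  have h112 : polar Q u₁' u₁ = 0 := by rw [polar_comm, h11]
  have c1 : polar Q u₁ w₁ = 0 := by
    simp only [hw₁, polar_sub_right, polar_smul_right, w1, h110, h11]; simp
  have c2 : polar Q u₁' w₁ = 0 := by
    simp only [hw₁, polar_sub_right, polar_smul_right, w2, h111, h112]; simp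
  have c3 : polar Q u₂ w₁ = 0 := by
    simp only [hw₁, polar_sub_right, polar_smul_right, w3, ha, hb]; simp
  have c4 : polar Q u₂' w₁ = 0 := by
    simp only [hw₁, polar_sub_right, polar_smul_right, w4, hc, hd]; simp
  have c5 : polar Q v w₁ = 0 := by
    simp only [hw₁, polar_sub_right, polar_smul_right, smul_eq_mul, polar_comm Q v u₁,
      polar_comm Q v u₁', hα, hα']
    field_simp
    rw [hΔdef]; ring
  have c6 : polar Q v' w₁ = 0 := by
    simp only [hw₁, polar_sub_right, polar_smul_right, smul_eq_mul, polar_comm Q v' u₁,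
      polar_comm Q v' u₁', hα, hα']
    field_simp
    rw [hΔdef]; ring
  have e1 : w = w₁ + α • u₁ + α' • u₁' := by rw [hw₁]; abel
  have e2 : g₁ w = w₁ + (α * a1 + α' * a2) • v + (α * b1 + α' * b2) • v' := by
    conv_lhs => rw [e1]
    rw [map_add, map_add, map_smul, map_smul, p1 w₁ c1 c2 c5 c6, p2, p3]
    module
  refine ⟨(α * a1 + α' * a2) * a3 + (α * b1 + α' * b2) * a4,
    (α * a1 + α' * a2) * b3 + (α * b1 + α' * b2) * b4, ?_⟩
  rw [LinearEquiv.mul_apply, e2, map_add, map_add, map_smul, map_smul,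
    hinv _ _ (q1 w₁ c3 c4 c5 c6), hinv _ _ q2, hinv _ _ q3]
  module

end Cfsg.Agent.Lib.Helper45.OSub
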