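import Mathlib
import Cfsg.Agent.Lib.Helper45.OSubSyl
import Cfsg.Agent.Lib.Helper14.WittDecomp

set_option autoImplicit false
set_option linter.unusedSimpArgs false
set_option linter.unusedVariables false
set_option linter.unusedSectionVars false

/-! Frames of hyperbolic pairs, and rational structures on quadratic spaces. -/

namespace Cfsg.Agent.Lib.Helper45.OSub

open QuadraticMap Module
open Cfsg.Agent.Lib.Helper44 Cfsg.Agent.Lib.Helper13.O Cfsg.Agent.Lib.Helper14

section Frames

variable {K W : Type*} [Field K] [AddCommGroup W] [Module K W] {q : QuadraticForm K W}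

lemma polar_sum_left {ι : Type*} (s : Finset ι) (g : ι → W) (y : W) :
    polar q (∑ i ∈ s, g i) y = ∑ i ∈ s, polar q (g i) y := by
  change polarBilin q _ y = _
  rw [map_sum, LinearMap.sum_apply]
  rfl

lemma hs_reindex {I J : Type*} [DecidableEq I] [DecidableEq J] {e f : I → W} (h : HypSys q e f)
    (σ : J ≃ I) : HypSys q (e ∘ σ) (f ∘ σ) :=
  ⟨fun i => h.Qe _, fun i => h.Qf _, fun i j => by
    simp only [Function.comp, h.ef, σ.injective.eq_iff], fun i j => h.ee _ _, fun i j => h.ff _ _⟩

lemma hs_fe {I : Type*} [DecidableEq I] {e f : I → W} (h : HypSys q e f) (i j : I) :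
    polar q (f i) (e j) = if i = j then 1 else 0 := by
  rw [polar_comm, h.ef]
  simp only [eq_comm]

lemma hyp_extend [Fintype K] [FiniteDimensional K W] (hq : (polarBilin q).Nondegenerate) {k : ℕ}
    {e f : Fin k → W} (h : HypSys q e f) (hk : 2 * k + 3 ≤ finrank K W) :
    ∃ u w, q u = 0 ∧ q w = 0 ∧ polar q u w = 1 ∧ (∀ i, polar q u (e i) = 0 ∧ polar q u (f i) = 0) ∧
      (∀ i, polar q w (e i) = 0 ∧ polar q w (f i) = 0) := by
  classical
  set s : Finset W := Finset.univ.image e ∪ Finset.univ.image f with hs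
  have hcard : s.card ≤ 2 * k := by
    have h1 := Finset.card_union_le (Finset.univ.image e) (Finset.univ.image f)
    have h2 : (Finset.univ.image e).card ≤ k := by
      simpa using Finset.card_image_le (s := (Finset.univ : Finset (Fin k))) (f := e)
    have h3 : (Finset.univ.image f).card ≤ k := by
      simpa using Finset.card_image_le (s := (Finset.univ : Finset (Fin k))) (f := f)
    rw [hs]
    omega
  obtain ⟨c, -, hcs, hc0, hqc⟩ := exists_sing_inf hq ⊤ s (by rw [finrank_top]; omega)
  have hce : ∀ i, polar q (e i) c = 0 := fun i => hcs _ (by simp [hs])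
  have hcf : ∀ i, polar q (f i) c = 0 := fun i => hcs _ (by simp [hs])
  obtain ⟨z, hz⟩ := polar_nondeg_exists hq hc0
  set z' : W := z - ∑ i, (polar q z (f i) • e i + polar q z (e i) • f i) with hz'
  have h1 : ∀ j, polar q z' (e j) = 0 := by
    intro j
    rw [hz', polar_sub_left, polar_sum_left]
    simp only [polar_add_left, polar_smul_left, h.ee, hs_fe h, smul_eq_mul, mul_zero, zero_add, mul_ite,
      mul_one, Finset.sum_ite_eq', Finset.mem_univ, if_true, sub_self]
  have h2 : ∀ j, polar q z' (f j) = 0 := by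
    intro j
    rw [hz', polar_sub_left, polar_sum_left]
    simp only [polar_add_left, polar_smul_left, h.ff, h.ef, smul_eq_mul, mul_zero, add_zero, mul_ite,
      mul_one, Finset.sum_ite_eq', Finset.mem_univ, if_true, sub_self]
  have h3 : polar q z' c = 1 := by
    rw [hz', polar_sub_left, polar_sum_left, hz]
    simp only [polar_add_left, polar_smul_left, hce, hcf, smul_zero, add_zero, Finset.sum_const_zero,
      sub_zero]
  have hcc : polar q c c = 0 := by rw [polar_self, hqc]; simp
  refine ⟨c, z' + (-q z') • c, hqc, ?_, ?_, fun i => ⟨by rw [polar_comm, hce], by rw [polar_comm, hcf]⟩,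
    fun i => ⟨?_, ?_⟩⟩
  · rw [Q_add_smul, hqc, h3]; ring
  · rw [polar_add_right, polar_smul_right, hcc, polar_comm, h3]; simp
  · rw [polar_add_left, polar_smul_left, h1, polar_comm q c, hce]; simp
  · rw [polar_add_left, polar_smul_left, h2, polar_comm q c, hcf]; simp

lemma extend_sys [Fintype K] [FiniteDimensional K W] (hq : (polarBilin q).Nondegenerate) {k : ℕ}
    {e f : Fin k → W} (h : HypSys q e f) (hk : 2 * k + 3 ≤ finrank K W) :
    ∃ e' f' : Fin (k + 1) → W, HypSys q e' f' ∧ ∀ i, e' i.succ = e i := by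
  obtain ⟨u, w, h1, h2, h3, h4, h5⟩ := hyp_extend hq h hk
  exact ⟨Fin.cons u e, Fin.cons w f, h.cons h1 h2 h3 h4 h5, fun i => by simp⟩

lemma exists_frame6 [Fintype K] [FiniteDimensional K W] (hq : (polarBilin q).Nondegenerate)
    (hdim : 13 ≤ finrank K W) {a b : W} (ha : q a = 0) (hb : q b = 0) (hab : polar q a b = 0)
    (hind : a ∉ Submodule.span K {b}) (hb0 : b ≠ 0) :
    ∃ e f : Fin 6 → W, HypSys q e f ∧ e 0 = a ∧ e 1 = b := by
  have haa : polar q a a = 0 := by rw [polar_self, ha]; simp
  have hbb : polar q b b = 0 := by rw [polar_self, hb]; simp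
  have hba : polar q b a = 0 := by rw [polar_comm, hab]
  obtain ⟨w, hw1, hw2⟩ := exists_perp_polar_eq_one hq hind
  set a' : W := w + (-q w) • a with ha'
  have A1 : q a' = 0 := by rw [ha', Q_add_smul, ha, hw2]; ring
  have A2 : polar q a a' = 1 := by
    rw [ha', polar_add_right, polar_smul_right, haa, polar_comm, hw2]; simp
  have A3 : polar q b a' = 0 := by
    rw [ha', polar_add_right, polar_smul_right, hw1, hba]; simp
  have hind' : b ∉ Submodule.span K {a} := by
    intro hmem
    obtain ⟨l, hl⟩ := Submodule.mem_span_singleton.1 hmem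
    have hl0 : l ≠ 0 := by
      rintro rfl
      rw [zero_smul] at hl
      exact hb0 hl.symm
    apply hind
    rw [Submodule.mem_span_singleton]
    exact ⟨l⁻¹, by rw [← hl, smul_smul, inv_mul_cancel₀ hl0, one_smul]⟩
  obtain ⟨w₂, hv1, hv2⟩ := exists_perp_polar_eq_one hq hind'
  set z : W := w₂ - polar q w₂ a' • a with hz
  have Z1 : polar q z a' = 0 := by
    rw [hz, polar_sub_left, polar_smul_left, A2]; simp
  have Z2 : polar q z a = 0 := by
    rw [hz, polar_sub_left, polar_smul_left, haa, polar_comm, hv1]; simp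
  have Z3 : polar q z b = 1 := by
    rw [hz, polar_sub_left, polar_smul_left, hab, hv2]; simp
  set b' : W := z + (-q z) • b with hb'
  have B1 : q b' = 0 := by rw [hb', Q_add_smul, hb, Z3]; ring
  have B2 : polar q b b' = 1 := by
    rw [hb', polar_add_right, polar_smul_right, hbb, polar_comm, Z3]; simp
  have B3 : polar q a b' = 0 := by
    rw [hb', polar_add_right, polar_smul_right, hab, polar_comm, Z2]; simp
  have B4 : polar q a' b' = 0 := by
    rw [hb', polar_add_right, polar_smul_right, polar_comm q a' b, A3, polar_comm, Z1]; simp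
  have s0 : HypSys q (Fin.elim0 : Fin 0 → W) (Fin.elim0 : Fin 0 → W) :=
    ⟨fun i => i.elim0, fun i => i.elim0, fun i => i.elim0, fun i => i.elim0, fun i => i.elim0⟩
  have s1 := s0.cons hb B1 B2 (fun i => i.elim0) (fun i => i.elim0)
  have s2 := s1.cons ha A1 A2 (fun i => by
      refine Fin.cases ?_ (fun i => i.elim0) i
      simpa using ⟨hab, B3⟩) (fun i => by
      refine Fin.cases ?_ (fun i => i.elim0) i
      simp only [Fin.cons_zero]
      exact ⟨by rw [polar_comm]; exact A3, B4⟩)
  obtain ⟨e3, f3, h3, k3⟩ := extend_sys hq s2 (by omega)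
  obtain ⟨e4, f4, h4, k4⟩ := extend_sys hq h3 (by omega)
  obtain ⟨e5, f5, h5, k5⟩ := extend_sys hq h4 (by omega)
  obtain ⟨e6, f6, h6, k6⟩ := extend_sys hq h5 (by omega)
  refine ⟨_, _, hs_reindex h6 (Equiv.addRight (4 : Fin 6)), ?_, ?_⟩
  · have : e6 4 = a := by
      rw [show (4 : Fin 6) = Fin.succ 3 from rfl, k6, show (3 : Fin 5) = Fin.succ 2 from rfl, k5,
        show (2 : Fin 4) = Fin.succ 1 from rfl, k4, show (1 : Fin 3) = Fin.succ 0 from rfl, k3]
      rfl
    simpa using this
  · have : e6 5 = b := by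
      rw [show (5 : Fin 6) = Fin.succ 4 from rfl, k6, show (4 : Fin 5) = Fin.succ 3 from rfl, k5,
        show (3 : Fin 4) = Fin.succ 2 from rfl, k4, show (2 : Fin 3) = Fin.succ 1 from rfl, k3]
      rfl
    simpa using this

lemma exists_frame6_one [Fintype K] [FiniteDimensional K W] (hq : (polarBilin q).Nondegenerate)
    (hdim : 13 ≤ finrank K W) {a : W} (ha : q a = 0) (ha0 : a ≠ 0) :
    ∃ e f : Fin 6 → W, HypSys q e f ∧ e 0 = a := by
  classical
  obtain ⟨a', h1, h2⟩ := exists_partner q hq a ha0 ha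
  have hc : ({a, a'} : Finset W).card ≤ 2 := Finset.card_le_two
  obtain ⟨b, -, hbs, hb0, hqb⟩ := exists_sing_inf hq ⊤ {a, a'} (by rw [finrank_top]; omega)
  have h3 : polar q a b = 0 := hbs a (by simp)
  have h4 : polar q a' b = 0 := hbs a' (by simp)
  obtain ⟨e, f, h, h5, -⟩ := exists_frame6 hq hdim ha hqb h3 (by
    intro hmem
    obtain ⟨l, hl⟩ := Submodule.mem_span_singleton.1 hmem
    rw [← hl, polar_smul_left, polar_comm, h4] at h2
    simp at h2) hb0
  exact ⟨e, f, h, h5⟩

end Frames

end Cfsg.Agent.Lib.Helper45.OSub
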