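import Mathlib

set_option autoImplicit false

namespace Cfsg.Agent.Lib.Helper45

open Matrix

variable {ι : Type*} [Fintype ι] [DecidableEq ι]

omit [DecidableEq ι] in
/-- A matrix with zero diagonal and `M j k + M k j = 0` gives the zero quadratic form. -/
theorem quad_eq_zero_of_alt {R : Type*} [CommRing R] (M : Matrix ι ι R)
    (hd : ∀ j, M j j = 0) (hs : ∀ j k, M j k + M k j = 0) (v : ι → R) :
    v ⬝ᵥ (M *ᵥ v) = 0 := by
  have h : v ⬝ᵥ (M *ᵥ v) = ∑ p ∈ (Finset.univ : Finset (ι × ι)), v p.1 * (M p.1 p.2 * v p.2) := by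
    simp only [dotProduct, mulVec, Finset.mul_sum]
    rw [← Finset.univ_product_univ, Finset.sum_product]
  rw [h]
  refine Finset.sum_involution (fun p _ => (p.2, p.1)) ?_ ?_ ?_ ?_
  · rintro ⟨j, k⟩ _
    have := hs j k
    simp only
    linear_combination (v j * v k) * this
  · rintro ⟨j, k⟩ _ hne heq
    simp only [Prod.mk.injEq] at heq
    obtain ⟨rfl, -⟩ := heq
    apply hne
    simp [hd]
  · intro _ _; exact Finset.mem_univ _
  · intro _ _; rfl

/-- Conversely a matrix giving the zero quadratic form has zero diagonal and is skew. -/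
theorem alt_of_quad_eq_zero {R : Type*} [CommRing R] (M : Matrix ι ι R)
    (h : ∀ v : ι → R, v ⬝ᵥ (M *ᵥ v) = 0) :
    (∀ j, M j j = 0) ∧ (∀ j k, M j k + M k j = 0) := by
  have hd : ∀ j, M j j = 0 := by
    intro j
    have := h (Pi.single j 1)
    simpa using this
  refine ⟨hd, fun j k => ?_⟩
  have := h (Pi.single j 1 + Pi.single k 1)
  simp only [mulVec_add, add_dotProduct, dotProduct_add, single_one_dotProduct, mulVec_single_one,
    Matrix.col_apply, hd] at this
  linear_combination this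

omit [DecidableEq ι] in
theorem quad_conj_sub {R : Type*} [CommRing R] (A g : Matrix ι ι R) (v : ι → R) :
    v ⬝ᵥ ((gᵀ * A * g - A) *ᵥ v) = (g *ᵥ v) ⬝ᵥ (A *ᵥ (g *ᵥ v)) - v ⬝ᵥ (A *ᵥ v) := by
  rw [sub_mulVec, dotProduct_sub, ← mulVec_mulVec, ← mulVec_mulVec, dotProduct_mulVec,
    vecMul_transpose]

/-- Base change of isometries: if `g` preserves the quadratic form `v ↦ vᵀ A v` over `F`, then the
image of `g` under a ring homomorphism `i : F →+* K` preserves the form `w ↦ wᵀ (i A) w` over `K`. -/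
theorem quad_baseChange {F K : Type*} [CommRing F] [CommRing K] (i : F →+* K)
    (A g : Matrix ι ι F) (hg : ∀ v : ι → F, (g *ᵥ v) ⬝ᵥ (A *ᵥ (g *ᵥ v)) = v ⬝ᵥ (A *ᵥ v))
    (w : ι → K) :
    (g.map i *ᵥ w) ⬝ᵥ (A.map i *ᵥ (g.map i *ᵥ w)) = w ⬝ᵥ (A.map i *ᵥ w) := by
  have h0 : ∀ v : ι → F, v ⬝ᵥ ((gᵀ * A * g - A) *ᵥ v) = 0 := by
    intro v; rw [quad_conj_sub, hg, sub_self]
  obtain ⟨hd, hs⟩ := alt_of_quad_eq_zero _ h0
  have hmap : ((g.map i)ᵀ * A.map i * g.map i - A.map i) = (gᵀ * A * g - A).map i := by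
    rw [Matrix.map_sub (f := i) (map_sub i), Matrix.map_mul, Matrix.map_mul, transpose_map]
  have h1 := quad_eq_zero_of_alt ((g.map i)ᵀ * A.map i * g.map i - A.map i)
    (by intro j; rw [hmap, map_apply, hd, map_zero])
    (by intro j k; rw [hmap, map_apply, map_apply, ← map_add, hs, map_zero]) w
  rw [quad_conj_sub] at h1
  exact sub_eq_zero.1 h1

end Cfsg.Agent.Lib.Helper45
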