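import Mathlib
import Cfsg.Agent.Lib.Helper45.OSubB

set_option autoImplicit false
set_option linter.unusedSimpArgs false
set_option linter.unusedVariables false
set_option linter.unusedSectionVars false

/-! Rational structures on quadratic spaces; the ring of multipliers of long root elements. -/

namespace Cfsg.Agent.Lib.Helper45.OSub

open QuadraticMap Module
open Cfsg.Agent.Lib.Helper44 Cfsg.Agent.Lib.Helper13.O Cfsg.Agent.Lib.Helper14

variable {F V : Type*} [Field F] [AddCommGroup V] [Module F V]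
variable {F₀ : Subfield F} {V₀ : Type*} [AddCommGroup V₀] [Module F₀ V₀]
variable {Q : QuadraticForm F V} {Q₀ : QuadraticForm F₀ V₀} {E : V₀ → V}

/-- a rational structure on a quadratic space -/
structure RatQ (Q : QuadraticForm F V) (Q₀ : QuadraticForm F₀ V₀) (E : V₀ → V) : Prop where
  nd : (polarBilin Q).Nondegenerate
  nd₀ : (polarBilin Q₀).Nondegenerate
  add : ∀ x y, E (x + y) = E x + E y
  smul : ∀ (a : F₀) x, E (a • x) = (a : F) • E x
  form : ∀ x, Q (E x) = (Q₀ x : F)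
  span : Submodule.span F (Set.range E) = ⊤
  dim : 13 ≤ finrank F₀ V₀

/-- `G` contains all rational Eichler transformations -/
def HG (Q : QuadraticForm F V) (E : V₀ → V) (G : Subgroup (V ≃ₗ[F] V)) : Prop :=
  ∀ a b : V₀, ei Q (E a) (E b) ∈ G

lemma hs_swap {K W : Type*} [Field K] [AddCommGroup W] [Module K W] {q : QuadraticForm K W}
    {I : Type*} [DecidableEq I] {e f : I → W} (h : HypSys q e f) : HypSys q f e :=
  ⟨h.Qf, h.Qe, hs_fe h, h.ff, h.ee⟩

namespace RatQ

variable {G : Subgroup (V ≃ₗ[F] V)}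

lemma E_zero (R : RatQ Q Q₀ E) : E 0 = 0 := by
  have := R.smul 0 0
  simpa using this

lemma E_neg (R : RatQ Q Q₀ E) (x : V₀) : E (-x) = - E x := by
  have := R.smul (-1) x
  simpa using this

lemma E_sub (R : RatQ Q Q₀ E) (x y : V₀) : E (x - y) = E x - E y := by
  rw [sub_eq_add_neg, R.add, R.E_neg, sub_eq_add_neg]

lemma pol (R : RatQ Q Q₀ E) (x y : V₀) : polar Q (E x) (E y) = ((polar Q₀ x y : F₀) : F) := by
  simp only [polar, ← R.add, R.form]
  push_cast
  ring

lemma sing (R : RatQ Q Q₀ E) {x : V₀} (h : Q₀ x = 0) : Q (E x) = 0 := by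
  rw [R.form, h]; rfl

lemma perp (R : RatQ Q Q₀ E) {x y : V₀} (h : polar Q₀ x y = 0) : polar Q (E x) (E y) = 0 := by
  rw [R.pol, h]; rfl

lemma one (R : RatQ Q Q₀ E) {x y : V₀} (h : polar Q₀ x y = 1) : polar Q (E x) (E y) = 1 := by
  rw [R.pol, h]; rfl

lemma eq_zero_of_perp (R : RatQ Q Q₀ E) (v : V) (h : ∀ x, polar Q v (E x) = 0) : v = 0 := by
  apply R.nd.1
  intro y
  change polar Q v y = 0
  have hy : y ∈ Submodule.span F (Set.range E) := R.span ▸ Submodule.mem_top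
  induction hy using Submodule.span_induction with
  | mem x hx => obtain ⟨x, rfl⟩ := hx; exact h x
  | zero => simp
  | add x y _ _ hx hy => rw [polar_add_right, hx, hy, add_zero]
  | smul a x _ hx => rw [polar_smul_right, hx, smul_zero]

lemma rat_of_vals [FiniteDimensional F₀ V₀] (R : RatQ Q Q₀ E) (v : V)
    (h : ∀ x, polar Q v (E x) ∈ F₀) : ∃ y, v = E y := by
  let φ : V₀ →ₗ[F₀] F₀ :=
    { toFun := fun x => ⟨polar Q v (E x), h x⟩
      map_add' := by intro x y; apply Subtype.ext; simp [R.add]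
      map_smul' := by intro a x; apply Subtype.ext; simp [R.smul] }
  refine ⟨(LinearMap.BilinForm.toDual (polarBilin Q₀) R.nd₀).symm φ, ?_⟩
  rw [← sub_eq_zero]
  apply R.eq_zero_of_perp
  intro x
  rw [polar_sub_left, R.pol]
  have := LinearMap.BilinForm.apply_toDual_symm_apply (B := polarBilin Q₀) (hB := R.nd₀) φ x
  change polar Q₀ _ x = φ x at this
  rw [this]
  simp [φ]

/-- rational vectors in `AG` -/
lemma rat_mem (R : RatQ Q Q₀ E) (hG : HG Q E G) {a b : V₀} {ha : Q (E a) = 0}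
    (hab : polar Q₀ a b = 0) : E b ∈ AG Q G (E a) ha :=
  ⟨R.perp hab, hG a b⟩

/-- moving the second argument of a long root element -/
lemma mv (R : RatQ Q Q₀ E) (hG : HG Q E G) {A X Xs D : V₀} {hA : Q (E A) = 0} {l : F}
    (h : l • E X ∈ AG Q G (E A) hA) (hD : Q₀ D = 0) (hXs : Q₀ Xs = 0) (h1 : polar Q₀ D Xs = 0)
    (h2 : polar Q₀ D A = 0) (h3 : polar Q₀ Xs A = 0) (h4 : polar Q₀ Xs X = 1)
    (h5 : polar Q₀ D X = 0) : l • E D ∈ AG Q G (E A) hA := by
  have := AG_root (R.sing hD) (R.sing hXs) (R.perp h1) (hG D Xs) (R.perp h2) (R.perp h3) h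
  rw [polar_smul_right, polar_smul_right, R.one h4, R.perp h5] at this
  simpa using this

section Frame

variable {e f : Fin 6 → V₀}

/-- `l` is a multiplier for the frame -/
def Gd (R : RatQ Q Q₀ E) (G : Subgroup (V ≃ₗ[F] V)) (h : HypSys Q₀ e f) (l : F) : Prop :=
  l • E (e 1) ∈ AG Q G (E (e 0)) (R.sing (h.Qe 0))

variable (R : RatQ Q Q₀ E) (hG : HG Q E G) (h : HypSys Q₀ e f)
include hG

lemma g02 {l : F} (g : R.Gd G h l) : l • E (e 2) ∈ AG Q G (E (e 0)) (R.sing (h.Qe 0)) :=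
  R.mv hG g (h.Qe 2) (h.Qf 1) (by simp [h.ef]) (by simp [h.ee]) (by simp [hs_fe h])
    (by simp [hs_fe h]) (by simp [h.ee])

lemma g02' {l : F} (g : l • E (e 2) ∈ AG Q G (E (e 0)) (R.sing (h.Qe 0))) : R.Gd G h l :=
  R.mv hG g (h.Qe 1) (h.Qf 2) (by simp [h.ef]) (by simp [h.ee]) (by simp [hs_fe h])
    (by simp [hs_fe h]) (by simp [h.ee])

lemma g0f1 {l : F} (g : R.Gd G h l) : l • E (f 1) ∈ AG Q G (E (e 0)) (R.sing (h.Qe 0)) :=
  R.mv hG (R.g02 hG h g) (h.Qf 1) (h.Qf 2) (by simp [h.ff]) (by simp [hs_fe h]) (by simp [hs_fe h])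
    (by simp [hs_fe h]) (by simp [hs_fe h])

lemma g10 {l : F} (g : R.Gd G h l) : l • E (e 0) ∈ AG Q G (E (e 1)) (R.sing (h.Qe 1)) :=
  AG_swap_smul _ g (R.perp (h.ee 0 1))

lemma g10' {l : F} (g : l • E (e 0) ∈ AG Q G (E (e 1)) (R.sing (h.Qe 1))) : R.Gd G h l :=
  AG_swap_smul _ g (R.perp (h.ee 1 0))

lemma g1f2 {l : F} (g : R.Gd G h l) : l • E (f 2) ∈ AG Q G (E (e 1)) (R.sing (h.Qe 1)) :=
  R.mv hG (R.g10 hG h g) (h.Qf 2) (h.Qf 0) (by simp [h.ff]) (by simp [hs_fe h]) (by simp [hs_fe h])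
    (by simp [hs_fe h]) (by simp [hs_fe h])

lemma g12 {l : F} (g : R.Gd G h l) : l • E (e 2) ∈ AG Q G (E (e 1)) (R.sing (h.Qe 1)) :=
  R.mv hG (R.g10 hG h g) (h.Qe 2) (h.Qf 0) (by simp [h.ef]) (by simp [h.ee]) (by simp [hs_fe h])
    (by simp [hs_fe h]) (by simp [h.ee])

lemma g1f0 {l : F} (g : R.Gd G h l) : l • E (f 0) ∈ AG Q G (E (e 1)) (R.sing (h.Qe 1)) :=
  R.mv hG (R.g12 hG h g) (h.Qf 0) (h.Qf 2) (by simp [h.ff]) (by simp [hs_fe h]) (by simp [hs_fe h])
    (by simp [hs_fe h]) (by simp [hs_fe h])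

lemma gf01 {l : F} (g : R.Gd G h l) : l • E (e 1) ∈ AG Q G (E (f 0)) (R.sing (h.Qf 0)) :=
  AG_swap_smul _ (R.g1f0 hG h g) (R.perp (by simp [h.ef]))

lemma gf02 {l : F} (g : R.Gd G h l) : l • E (e 2) ∈ AG Q G (E (f 0)) (R.sing (h.Qf 0)) :=
  R.mv hG (R.gf01 hG h g) (h.Qe 2) (h.Qf 1) (by simp [h.ef]) (by simp [h.ef]) (by simp [h.ff])
    (by simp [hs_fe h]) (by simp [h.ee])

lemma gf0f1 {l : F} (g : R.Gd G h l) : R.Gd G (hs_swap h) l :=
  R.mv hG (R.gf02 hG h g) (h.Qf 1) (h.Qf 2) (by simp [h.ff]) (by simp [h.ff]) (by simp [h.ff])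
    (by simp [hs_fe h]) (by simp [hs_fe h])

lemma gd_add {l l' : F} (g : R.Gd G h l) (g' : R.Gd G h l') : R.Gd G h (l + l') := by
  unfold Gd
  rw [add_smul]
  exact AddSubgroup.add_mem _ g g'

lemma gd_neg {l : F} (g : R.Gd G h l) : R.Gd G h (-l) := by
  unfold Gd
  rw [neg_smul]
  exact AddSubgroup.neg_mem _ g

lemma gd_coe (a : F₀) : R.Gd G h (a : F) := by
  unfold Gd
  rw [← R.smul]
  exact R.rat_mem hG (by rw [polar_smul_right, h.ee, smul_zero])

lemma gd_mul {l l' : F} (g : R.Gd G h l) (g' : R.Gd G h l') : R.Gd G h (l * l') := by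
  have h1 := R.g02 hG h g
  have h2 := R.g1f2 hG h g'
  have Q2 : Q (l • E (e 2)) = 0 := by rw [QuadraticMap.map_smul, R.sing (h.Qe 2), smul_zero]
  have := AG_root (p := E (e 0)) (q := l • E (e 2)) (R.sing (h.Qe 0)) Q2 h1.1 h1.2
    (R.perp (h.ee 0 1)) (by rw [polar_smul_left, R.perp (h.ee 2 1), smul_zero]) h2
  rw [polar_smul_left, polar_smul_right, polar_smul_right, R.one (x := e 2) (y := f 2) (by simp [h.ef]),
    R.perp (x := e 0) (y := f 2) (by simp [h.ef])] at this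
  apply R.g10' hG h
  simpa [mul_comm] using this

/-- the subalgebra of multipliers -/
noncomputable def KK : Subalgebra F₀ F where
  carrier := {l | R.Gd G h l}
  mul_mem' := fun g g' => R.gd_mul hG h g g'
  add_mem' := fun g g' => R.gd_add hG h g g'
  algebraMap_mem' := fun a => R.gd_coe hG h a

lemma all_of_not_mem (hprime : ∀ S : Subalgebra F₀ F, S = ⊥ ∨ S = ⊤) {l : F} (g : R.Gd G h l)
    (hl : l ∉ F₀) : ∀ l', R.Gd G h l' := by
  rcases hprime (R.KK hG h) with h1 | h1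
  · exfalso
    have : l ∈ R.KK hG h := g
    rw [h1, Algebra.mem_bot] at this
    obtain ⟨a, rfl⟩ := this
    exact hl a.2
  · intro l'
    have : l' ∈ R.KK hG h := by rw [h1]; exact Algebra.mem_top
    exact this

/-- all multiples of rational vectors perpendicular to `e 0` lie in `AG (e 0)` -/
lemma all_rat (hall : ∀ l, R.Gd G h l) (l : F) {x : V₀} (hx : polar Q₀ (e 0) x = 0) :
    l • E x ∈ AG Q G (E (e 0)) (R.sing (h.Qe 0)) := by
  set d : V₀ := x - polar Q₀ (f 0) x • e 0 - polar Q₀ (f 1) x • e 1 - polar Q₀ (e 1) x • f 1 with hd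
  have d0 : polar Q₀ (e 0) d = 0 := by simp [hd, hx, h.ee, h.ef]
  have d1 : polar Q₀ (e 1) d = 0 := by simp [hd, h.ee, h.ef]
  have d2 : polar Q₀ (f 1) d = 0 := by simp [hd, hs_fe h, h.ff]
  have k1 := AG_eich (p := E (f 1)) (q := E d) (R.sing (h.Qf 1)) (R.perp d2) (hG _ _)
    (R.perp (by simp [hs_fe h])) (by rw [polar_comm]; exact R.perp d0) (hall l)
  rw [polar_smul_right, polar_smul_right, polar_comm Q (E d), R.perp d1,
    R.one (x := f 1) (y := e 1) (by simp [hs_fe h])] at k1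
  simp only [smul_eq_mul, mul_zero, zero_smul, mul_one, zero_sub] at k1
  have k2 := R.g0f1 hG h (hall (Q (E d) * l))
  have k3 : l • E d ∈ AG Q G (E (e 0)) (R.sing (h.Qe 0)) := by
    have := AddSubgroup.neg_mem _ (AddSubgroup.add_mem _ k1 k2)
    convert this using 1
    abel
  have e1 : l • E x = l • E d + (l * ((polar Q₀ (f 0) x : F₀) : F)) • E (e 0)
      + (l * ((polar Q₀ (f 1) x : F₀) : F)) • E (e 1) + (l * ((polar Q₀ (e 1) x : F₀) : F)) • E (f 1) := by
    rw [hd]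
    simp only [R.E_sub, R.smul]
    module
  rw [e1]
  exact AddSubgroup.add_mem _ (AddSubgroup.add_mem _ (AddSubgroup.add_mem _ k3 (AG_self _)) (hall _))
    (R.g0f1 hG h (hall _))

lemma uu_of_all (hall : ∀ l, R.Gd G h l) : E (e 0) ∈ UU Q G := by
  apply mem_UU_of_AG (R.sing (h.Qe 0))
  have key : ∀ v : V, ∀ l : F, l • (v - polar Q (E (e 0)) v • E (f 0)) ∈
      AG Q G (E (e 0)) (R.sing (h.Qe 0)) := by
    intro v
    have hv : v ∈ Submodule.span F (Set.range E) := R.span ▸ Submodule.mem_top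
    induction hv using Submodule.span_induction with
    | mem x hx =>
      obtain ⟨x, rfl⟩ := hx
      intro l
      have := R.all_rat hG h hall l (x := x - polar Q₀ (e 0) x • f 0) (by simp [h.ef])
      rwa [R.E_sub, R.smul, ← R.pol] at this
    | zero => intro l; simp
    | add x y _ _ hx hy =>
      intro l
      have := AddSubgroup.add_mem _ (hx l) (hy l)
      convert this using 1
      rw [polar_add_right]
      module
    | smul a x _ hx =>
      intro l
      have := hx (l * a)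
      convert this using 1
      rw [polar_smul_right, smul_eq_mul]
      module
  intro v hv
  have := key v 1
  rwa [hv, zero_smul, sub_zero, one_smul] at this

theorem om_le_of_all [Fintype F] [FiniteDimensional F V] (hdim : 12 < finrank F V)
    (hall : ∀ l, R.Gd G h l) : Om Q ≤ G :=
  Om_le_of_UU R.nd hdim (R.uu_of_all hG h hall)
    (R.uu_of_all hG (hs_swap h) (fun l => R.gf0f1 hG h (hall l)))
    (by rw [R.one (x := e 0) (y := f 0) (by simp [h.ef])]; exact one_ne_zero)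

end Frame

end RatQ

end Cfsg.Agent.Lib.Helper45.OSub
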