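import Mathlib
import Cfsg.Agent.Lib.Helper45.OSubC

set_option autoImplicit false
set_option linter.unusedSimpArgs false
set_option linter.unusedVariables false
set_option linter.unusedSectionVars false

/-! Extraction of multipliers from a long root element of `G` in general position. -/

namespace Cfsg.Agent.Lib.Helper45.OSub

open QuadraticMap Module
open Cfsg.Agent.Lib.Helper44 Cfsg.Agent.Lib.Helper13.O Cfsg.Agent.Lib.Helper14

variable {F V : Type*} [Field F] [AddCommGroup V] [Module F V]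
variable {F₀ : Subfield F} {V₀ : Type*} [AddCommGroup V₀] [Module F₀ V₀]
variable {Q : QuadraticForm F V} {Q₀ : QuadraticForm F₀ V₀} {E : V₀ → V}

namespace RatQ

variable {G : Subgroup (V ≃ₗ[F] V)} {e f : Fin 6 → V₀}

lemma pee (R : RatQ Q Q₀ E) (h : HypSys Q₀ e f) (i j : Fin 6) : polar Q (E (e i)) (E (e j)) = 0 :=
  R.perp (h.ee i j)

lemma pff (R : RatQ Q Q₀ E) (h : HypSys Q₀ e f) (i j : Fin 6) : polar Q (E (f i)) (E (f j)) = 0 :=
  R.perp (h.ff i j)

lemma pef (R : RatQ Q Q₀ E) (h : HypSys Q₀ e f) (i j : Fin 6) :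
    polar Q (E (e i)) (E (f j)) = if i = j then 1 else 0 := by
  rw [R.pol, h.ef]; split_ifs <;> simp

lemma pfe (R : RatQ Q Q₀ E) (h : HypSys Q₀ e f) (i j : Fin 6) :
    polar Q (E (f i)) (E (e j)) = if i = j then 1 else 0 := by
  rw [R.pol, hs_fe h]; split_ifs <;> simp

/-- **extraction**: a long root element of `G` whose line is opposite `⟨e 2, e 3⟩` gives multipliers -/
theorem claimA [Finite F] [FiniteDimensional F V] (R : RatQ Q Q₀ E) (hG : HG Q E G) (hGO : G ≤ OQ Q)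
    (h : HypSys Q₀ e f) {v v' : V} (hv : Q v = 0) (hv' : Q v' = 0) (hvv : polar Q v v' = 0)
    (hy : ei Q v v' ∈ G)
    (hΔ : polar Q (E (e 2)) v * polar Q (E (e 3)) v' - polar Q (E (e 2)) v' * polar Q (E (e 3)) v ≠ 0) :
    R.Gd G h ((polar Q v (E (e 0)) * polar Q (E (e 3)) v' - polar Q v' (E (e 0)) * polar Q (E (e 3)) v) /
      (polar Q (E (e 2)) v * polar Q (E (e 3)) v' - polar Q (E (e 2)) v' * polar Q (E (e 3)) v)) ∧
    R.Gd G h ((polar Q (E (e 2)) v * polar Q v' (E (e 0)) - polar Q (E (e 2)) v' * polar Q v (E (e 0))) /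
      (polar Q (E (e 2)) v * polar Q (E (e 3)) v' - polar Q (E (e 2)) v' * polar Q (E (e 3)) v)) := by
  have ee := R.pee h
  have ef := R.pef h
  have fe := R.pfe h
  have ff := R.pff h
  obtain ⟨ε, ε', hε⟩ : ∃ ε ε' : F₀,
      polar Q (E (ε • e 2 + e 4)) v * polar Q (E (ε' • e 3 + e 5)) v'
        - polar Q (E (ε • e 2 + e 4)) v' * polar Q (E (ε' • e 3 + e 5)) v ≠ 0 := by
    by_contra hcon
    push Not at hcon
    have h00 := hcon 0 0
    have h10 := hcon 1 0
    have h01 := hcon 0 1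
    have h11 := hcon 1 1
    simp only [R.add, R.smul, polar_add_left, polar_smul_left, smul_eq_mul, Subfield.coe_zero,
      Subfield.coe_one, zero_mul, one_mul, zero_add] at h00 h10 h01 h11
    apply hΔ
    linear_combination h11 - h10 - h01 + h00
  have q2 : Q₀ (ε • e 2 + e 4) = 0 := by
    rw [QuadraticMap.map_add (⇑Q₀), QuadraticMap.map_smul, h.Qe, h.Qe, polar_smul_left, h.ee]; simp
  have q2' : Q₀ (ε' • e 3 + e 5) = 0 := by
    rw [QuadraticMap.map_add (⇑Q₀), QuadraticMap.map_smul, h.Qe, h.Qe, polar_smul_left, h.ee]; simp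
  obtain ⟨d, hd, hdw⟩ := exists_d R.nd hGO (R.sing (h.Qe 2)) (R.sing (h.Qe 3)) (R.sing q2) (R.sing q2')
    hv hv' (ee 2 3) (R.perp (by simp [h.ee])) (R.perp (by simp [h.ee])) (R.perp (by simp [h.ee]))
    (R.perp (by simp [h.ee])) (R.perp (by simp [h.ee])) hvv hΔ hε (hG _ _) (hG _ _) hy
  obtain ⟨a, b, hd0⟩ := hdw (E (e 0)) (ee _ _) (ee _ _) (R.perp (by simp [h.ee])) (R.perp (by simp [h.ee]))
  obtain ⟨a₁, b₁, hd1⟩ := hdw (E (e 1)) (ee _ _) (ee _ _) (R.perp (by simp [h.ee]))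
    (R.perp (by simp [h.ee]))
  set α := (polar Q v (E (e 0)) * polar Q (E (e 3)) v' - polar Q v' (E (e 0)) * polar Q (E (e 3)) v) /
      (polar Q (E (e 2)) v * polar Q (E (e 3)) v' - polar Q (E (e 2)) v' * polar Q (E (e 3)) v) with hα
  set α' := (polar Q (E (e 2)) v * polar Q v' (E (e 0)) - polar Q (E (e 2)) v' * polar Q v (E (e 0))) /
      (polar Q (E (e 2)) v * polar Q (E (e 3)) v' - polar Q (E (e 2)) v' * polar Q (E (e 3)) v) with hα'
  generalize (polar Q v (E (e 1)) * polar Q (E (e 3)) v' - polar Q v' (E (e 1)) * polar Q (E (e 3)) v) /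
      (polar Q (E (e 2)) v * polar Q (E (e 3)) v' - polar Q (E (e 2)) v' * polar Q (E (e 3)) v) = β at hd1
  generalize (polar Q (E (e 2)) v * polar Q v' (E (e 1)) - polar Q (E (e 2)) v' * polar Q v (E (e 1))) /
      (polar Q (E (e 2)) v * polar Q (E (e 3)) v' - polar Q (E (e 2)) v' * polar Q (E (e 3)) v) = β' at hd1
  rw [R.add, R.add, R.smul, R.smul] at hd0 hd1
  have hdO : d ∈ OQ Q := hGO hd
  have Qd0 : Q (d (E (e 0))) = 0 := by rw [mem_OQ.1 hdO]; exact R.sing (h.Qe 0)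
  have m1 : d (E (e 1)) ∈ AG Q G (d (E (e 0))) Qd0 :=
    AG_map hd hdO (R.rat_mem hG (ha := R.sing (h.Qe 0)) (h.ee 0 1)) Qd0
  have m2 := AG_root (p := E (e 0)) (q := E (f 1)) (R.sing (h.Qe 0)) (R.sing (h.Qf 1))
    (by simp [ef]) (hG _ _) (by rw [hd0]; simp [ee]) (by rw [hd0]; simp [fe]) m1
  have c1 : polar Q (E (f 1)) (d (E (e 1))) = 1 := by rw [hd1]; simp [fe]
  have c2 : polar Q (E (e 0)) (d (E (e 1))) = 0 := by rw [hd1]; simp [ee]
  rw [c1, c2, one_smul, zero_smul, sub_zero] at m2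
  have m3 : d (E (e 0)) ∈ AG Q G (E (e 0)) (R.sing (h.Qe 0)) := AG_swap _ m2
  constructor
  · have q3 : Q₀ (f 2 - ε • f 4) = 0 := by
      rw [sub_eq_add_neg, ← neg_smul, Q_add_smul, h.Qf, h.Qf, h.ff]; simp
    have m4 := AG_root (p := E (e 1)) (q := E (f 2 - ε • f 4)) (R.sing (h.Qe 1)) (R.sing q3)
      (R.perp (by simp [h.ef])) (hG _ _) (ee _ _) (R.perp (by simp [hs_fe h])) m3
    have c3 : polar Q (E (f 2 - ε • f 4)) (d (E (e 0))) = -α := by
      rw [hd0, R.E_sub, R.smul]; simp [fe]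
    have c4 : polar Q (E (e 1)) (d (E (e 0))) = 0 := by rw [hd0]; simp [ee]
    rw [c3, c4, zero_smul, sub_zero] at m4
    have := R.gd_neg hG h (l := -α) m4
    rwa [neg_neg] at this
  · have q3 : Q₀ (f 3 - ε' • f 5) = 0 := by
      rw [sub_eq_add_neg, ← neg_smul, Q_add_smul, h.Qf, h.Qf, h.ff]; simp
    have m4 := AG_root (p := E (e 1)) (q := E (f 3 - ε' • f 5)) (R.sing (h.Qe 1)) (R.sing q3)
      (R.perp (by simp [h.ef])) (hG _ _) (ee _ _) (R.perp (by simp [hs_fe h])) m3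
    have c3 : polar Q (E (f 3 - ε' • f 5)) (d (E (e 0))) = -α' := by
      rw [hd0, R.E_sub, R.smul]; simp [fe]
    have c4 : polar Q (E (e 1)) (d (E (e 0))) = 0 := by rw [hd0]; simp [ee]
    rw [c3, c4, zero_smul, sub_zero] at m4
    have := R.gd_neg hG h (l := -α') m4
    rwa [neg_neg] at this

/-- no frame has an irrational multiplier -/
def NG (R : RatQ Q Q₀ E) (G : Subgroup (V ≃ₗ[F] V)) : Prop :=
  ∀ (e f : Fin 6 → V₀) (h : HypSys Q₀ e f) (l : F), R.Gd G h l → l ∈ F₀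

lemma ag_val_aux (R : RatQ Q Q₀ E) (hG : HG Q E G) (h : HypSys Q₀ e f) {z : V}
    (hz : z ∈ AG Q G (E (e 0)) (R.sing (h.Qe 0))) (i : Fin 6) (hi0 : i ≠ 0) (hi1 : i ≠ 1) {x : V₀}
    (x0 : polar Q₀ (e 0) x = 0) (x1 : polar Q₀ (e 1) x = 0) (x2 : polar Q₀ (e i) x = 0)
    (x3 : polar Q₀ (f i) x = 0) :
    R.Gd G h (polar Q (E x) z - Q (E x) * polar Q (E (e i)) z) := by
  have ee := R.pee h
  have ef := R.pef h
  have fe := R.pfe h
  have ff := R.pff h
  have t1 := AG_eich (p := E (e i)) (q := E x) (R.sing (h.Qe i)) (R.perp x2) (hG _ _) (ee _ _)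
    (by rw [polar_comm]; exact R.perp x0) hz
  have t2 := AG_root (p := E (e 1)) (q := E (f i)) (R.sing (h.Qe 1)) (R.sing (h.Qf i))
    (by rw [ef, if_neg (Ne.symm hi1)]) (hG _ _) (ee _ _) (by rw [fe, if_neg hi0]) t1
  simp only [polar_sub_right, polar_smul_right, fe, ee, R.perp x3, R.perp x1, if_true, smul_eq_mul,
    mul_one, mul_zero, sub_zero, zero_smul] at t2
  exact t2

lemma ag_vals (R : RatQ Q Q₀ E) (hG : HG Q E G) (h : HypSys Q₀ e f) {z : V}
    (hz : z ∈ AG Q G (E (e 0)) (R.sing (h.Qe 0))) {x : V₀} (hx : polar Q₀ (e 0) x = 0) :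
    R.Gd G h (polar Q (E x) z) := by
  have ee := R.pee h
  have ef := R.pef h
  have fe := R.pfe h
  have ff := R.pff h
  have b2 : R.Gd G h (polar Q (E (e 2)) z) := by
    have := R.ag_val_aux hG h hz 3 (by decide) (by decide) (x := e 2) (h.ee _ _) (h.ee _ _) (h.ee _ _)
      (by simp [hs_fe h])
    rwa [R.sing (h.Qe 2), zero_mul, sub_zero] at this
  have c2 : R.Gd G h (polar Q (E (f 2)) z) := by
    have := R.ag_val_aux hG h hz 3 (by decide) (by decide) (x := f 2) (by simp [h.ef]) (by simp [h.ef])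
      (by simp [h.ef]) (h.ff _ _)
    rwa [R.sing (h.Qf 2), zero_mul, sub_zero] at this
  have b1 : R.Gd G h (polar Q (E (e 1)) z) := by
    have t := AG_root (p := E (e 2)) (q := E (e 1)) (R.sing (h.Qe 2)) (R.sing (h.Qe 1)) (ee _ _)
      (hG _ _) (ee _ _) (ee _ _) hz
    have := AddSubgroup.add_mem _ t b2
    rw [sub_add_cancel] at this
    exact R.g02' hG h this
  have c1 : R.Gd G h (polar Q (E (f 1)) z) := by
    have t := AG_root (p := E (e 2)) (q := E (f 1)) (R.sing (h.Qe 2)) (R.sing (h.Qf 1)) (by simp [ef])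
      (hG _ _) (ee _ _) (by simp [fe]) hz
    have := AddSubgroup.add_mem _ t (R.g0f1 hG h b2)
    rw [sub_add_cancel] at this
    exact R.g02' hG h this
  set d : V₀ := x - polar Q₀ (f 0) x • e 0 - polar Q₀ (f 1) x • e 1 - polar Q₀ (e 1) x • f 1
    - polar Q₀ (f 2) x • e 2 - polar Q₀ (e 2) x • f 2 with hd
  have d0 : polar Q₀ (e 0) d = 0 := by simp [hd, hx, h.ee, h.ef]
  have d1 : polar Q₀ (e 1) d = 0 := by simp [hd, h.ee, h.ef]
  have d2 : polar Q₀ (e 2) d = 0 := by simp [hd, h.ee, h.ef]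
  have d3 : polar Q₀ (f 2) d = 0 := by simp [hd, hs_fe h, h.ff]
  have bd : R.Gd G h (polar Q (E d) z) := by
    have t := R.ag_val_aux hG h hz 2 (by decide) (by decide) d0 d1 d2 d3
    have t2 := R.gd_mul hG h (R.gd_coe hG h (Q₀ d)) b2
    rw [← R.form] at t2
    have := R.gd_add hG h t t2
    rwa [sub_add_cancel] at this
  have e1 : polar Q (E x) z = polar Q (E d) z + ((polar Q₀ (f 0) x : F₀) : F) * polar Q (E (e 0)) z
      + ((polar Q₀ (f 1) x : F₀) : F) * polar Q (E (e 1)) z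
      + ((polar Q₀ (e 1) x : F₀) : F) * polar Q (E (f 1)) z
      + ((polar Q₀ (f 2) x : F₀) : F) * polar Q (E (e 2)) z
      + ((polar Q₀ (e 2) x : F₀) : F) * polar Q (E (f 2)) z := by
    rw [hd]
    simp only [R.E_sub, R.smul, polar_sub_left, polar_smul_left, smul_eq_mul]
    ring
  rw [e1, hz.1, mul_zero, add_zero]
  exact R.gd_add hG h (R.gd_add hG h (R.gd_add hG h (R.gd_add hG h bd
    (R.gd_mul hG h (R.gd_coe hG h _) b1)) (R.gd_mul hG h (R.gd_coe hG h _) c1))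
    (R.gd_mul hG h (R.gd_coe hG h _) b2)) (R.gd_mul hG h (R.gd_coe hG h _) c2)

/-- without irrational multipliers, `AG (e 0)` consists of rational vectors modulo `e 0` -/
lemma ag_rat [FiniteDimensional F₀ V₀] (R : RatQ Q Q₀ E) (hG : HG Q E G) (hN : R.NG G)
    (h : HypSys Q₀ e f) {z : V} (hz : z ∈ AG Q G (E (e 0)) (R.sing (h.Qe 0))) :
    ∃ (x : V₀) (l : F), z = E x + l • E (e 0) := by
  obtain ⟨y, hy⟩ := R.rat_of_vals (z - polar Q (E (f 0)) z • E (e 0)) (by
    intro x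
    have h1 := hN e f h _ (R.ag_vals hG h hz (x := x - polar Q₀ (e 0) x • f 0) (by simp [h.ef]))
    have e1 : polar Q (z - polar Q (E (f 0)) z • E (e 0)) (E x)
        = polar Q (E (x - polar Q₀ (e 0) x • f 0)) z := by
      rw [R.E_sub, R.smul, polar_sub_left, polar_sub_left, polar_smul_left, polar_smul_left, R.pol,
        polar_comm Q z (E x)]
      simp only [smul_eq_mul]
      ring
    rw [e1]
    exact h1)
  exact ⟨y, polar Q (E (f 0)) z, by rw [← hy]; abel⟩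

/-- a long root element of `G` perpendicular to a rational totally singular line has rational
"contractions" -/
theorem star [Fintype F₀] [FiniteDimensional F₀ V₀] (R : RatQ Q Q₀ E) (hG : HG Q E G) (hN : R.NG G)
    {v v' : V} (hv : Q v = 0) (hv' : Q v' = 0) (hvv : polar Q v v' = 0) (hy : ei Q v v' ∈ G)
    {a b : V₀} (ha : Q₀ a = 0) (hb : Q₀ b = 0) (hab : polar Q₀ a b = 0)
    (hind : a ∉ Submodule.span F₀ {b}) (hb0 : b ≠ 0)
    (av : polar Q v (E a) = 0) (av' : polar Q v' (E a) = 0) (bv : polar Q v (E b) = 0)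
    (bv' : polar Q v' (E b) = 0) {q : V₀} (qa : polar Q₀ a q = 0) (qb : polar Q₀ b q = 0) :
    ∃ y, polar Q v' (E q) • v - polar Q v (E q) • v' = E y := by
  obtain ⟨e, f, h, rfl, rfl⟩ := exists_frame6 R.nd₀ R.dim ha hb hab hind hb0
  set z : V := polar Q v' (E q) • v - polar Q v (E q) • v' with hz
  have z0 : z ∈ AG Q G (E (e 0)) (R.sing (h.Qe 0)) :=
    AG_root hv hv' hvv hy av av' (R.rat_mem hG qa)
  have z1 : z ∈ AG Q G (E (e 1)) (R.sing (h.Qe 1)) :=
    AG_root hv hv' hvv hy bv bv' (R.rat_mem hG qb)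
  obtain ⟨x, l, hx⟩ := R.ag_rat hG hN h z0
  obtain ⟨x', l', hx'⟩ := R.ag_rat hG hN (hs_reindex h (Equiv.swap (0 : Fin 6) 1)) (z := z) (by
    simpa using z1)
  simp only [Function.comp, Equiv.swap_apply_left] at hx'
  have hl : l ∈ F₀ := by
    have h1 := congrArg (fun t => polar Q t (E (f 0))) hx
    have h2 := congrArg (fun t => polar Q t (E (f 0))) hx'
    simp only [polar_add_left, polar_smul_left, R.pef h, if_true, smul_eq_mul, mul_one] at h1 h2
    rw [if_neg (by decide), mul_zero, add_zero] at h2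
    have : l = polar Q (E x') (E (f 0)) - polar Q (E x) (E (f 0)) := by
      rw [← h2, h1]; ring
    rw [this, R.pol, R.pol]
    exact F₀.sub_mem (Subtype.prop _) (Subtype.prop _)
  exact ⟨x + (⟨l, hl⟩ : F₀) • e 0, by rw [R.add, R.smul]; exact hx⟩

end RatQ

end Cfsg.Agent.Lib.Helper45.OSub
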