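import Mathlib
import Cfsg.Agent.Lib.Helper45.OSubD
import Cfsg.Agent.Lib.Helper45.SpSubD

set_option autoImplicit false
set_option linter.unusedSimpArgs false
set_option linter.unusedVariables false
set_option linter.unusedSectionVars false

/-! Without irrational multipliers every element of `G` stabilises the rational structure. -/

namespace Cfsg.Agent.Lib.Helper45.OSub

open QuadraticMap Module
open Cfsg.Agent.Lib.Helper44 Cfsg.Agent.Lib.Helper13.O Cfsg.Agent.Lib.Helper14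
open Cfsg.Agent.Lib.Helper45.SpSub (Stab)

variable {F V : Type*} [Field F] [AddCommGroup V] [Module F V]
variable {F₀ : Subfield F} {V₀ : Type*} [AddCommGroup V₀] [Module F₀ V₀]
variable {Q : QuadraticForm F V} {Q₀ : QuadraticForm F₀ V₀} {E : V₀ → V}

lemma cramer1 {a b c d X X' : F} (hΔ : a * d - b * c ≠ 0) :
    X - ((X * d - X' * c) / (a * d - b * c)) * a - ((a * X' - b * X) / (a * d - b * c)) * c = 0 := by
  generalize hD : a * d - b * c = Δ at *
  field_simp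
  rw [← hD]
  ring

lemma cramer2 {a b c d X X' : F} (hΔ : a * d - b * c ≠ 0) :
    X' - ((X * d - X' * c) / (a * d - b * c)) * b - ((a * X' - b * X) / (a * d - b * c)) * d = 0 := by
  generalize hD : a * d - b * c = Δ at *
  field_simp
  rw [← hD]
  ring

namespace RatQ

variable {G : Subgroup (V ≃ₗ[F] V)}

/-- the rational vectors perpendicular to `z` -/
def perpSub (R : RatQ Q Q₀ E) (z : V) : AddSubgroup V₀ where
  carrier := {x | polar Q (E x) z = 0}
  zero_mem' := by simp [R.E_zero]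
  add_mem' := by
    intro a b ha hb
    simp only [Set.mem_ofPred_eq] at ha hb ⊢
    rw [R.add, polar_add_left, ha, hb, add_zero]
  neg_mem' := by
    intro a ha
    simp only [Set.mem_ofPred_eq] at ha ⊢
    rw [R.E_neg, polar_neg_left, ha, neg_zero]

lemma exists_sing_ne [Fintype F₀] [FiniteDimensional F₀ V₀] (R : RatQ Q Q₀ E) {z : V} (hz : z ≠ 0) :
    ∃ a, Q₀ a = 0 ∧ polar Q (E a) z ≠ 0 := by
  classical
  by_contra hcon
  push Not at hcon
  have hdim := R.dim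
  obtain ⟨e, f, -, -, hQe, hQf, hef⟩ := exists_hyp R.nd₀ ∅ (by simp; omega)
  have := span_sing (W := ⊤) (e := e) (f := f) trivial trivial hQe hQf hef (R.perpSub z)
    (fun u _ hu => hcon u hu)
  apply hz
  apply R.eq_zero_of_perp
  intro x
  rw [polar_comm]
  exact this x trivial

lemma exists_opp [Fintype F₀] [FiniteDimensional F₀ V₀] (R : RatQ Q Q₀ E) {v v' : V} (hv : Q v = 0)
    (hv' : Q v' = 0) (hvv : polar Q v v' = 0) (hli : ∀ s t : F, s • v + t • v' = 0 → s = 0 ∧ t = 0) :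
    ∃ a b : V₀, Q₀ a = 0 ∧ Q₀ b = 0 ∧ polar Q₀ a b = 0 ∧
      polar Q (E a) v * polar Q (E b) v' - polar Q (E a) v' * polar Q (E b) v ≠ 0 := by
  have hv0 : v ≠ 0 := by
    rintro rfl
    have := (hli 1 0 (by simp)).1
    exact one_ne_zero this
  obtain ⟨a, ha, hav⟩ := R.exists_sing_ne hv0
  have ha0 : a ≠ 0 := by
    rintro rfl
    rw [R.E_zero] at hav
    simp at hav
  obtain ⟨e, f, h, rfl⟩ := exists_frame6_one R.nd₀ R.dim ha ha0
  by_contra hcon
  push Not at hcon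
  set z : V := polar Q (E (e 0)) v • v' - polar Q (E (e 0)) v' • v with hz
  have hW := span_sing (W := LinearMap.ker (polarBilin Q₀ (e 0))) (e := e 1) (f := f 1)
    (by rw [LinearMap.mem_ker]; exact h.ee 0 1)
    (by rw [LinearMap.mem_ker]; change polar Q₀ (e 0) (f 1) = 0; simp [h.ef])
    (h.Qe 1) (h.Qf 1) (by simp [h.ef]) (R.perpSub z) (by
      intro u hu hQu
      change polar Q (E u) z = 0
      have := hcon (e 0) u ha hQu hu
      rw [hz, polar_sub_right, polar_smul_right, polar_smul_right]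
      simpa using this)
  have hzc : z - polar Q (E (f 0)) z • E (e 0) = 0 := by
    apply R.eq_zero_of_perp
    intro x
    have h1 : polar Q (E (x - polar Q₀ (e 0) x • f 0)) z = 0 :=
      hW _ (by rw [LinearMap.mem_ker]; change polar Q₀ (e 0) _ = 0; simp [h.ef])
    rw [R.E_sub, R.smul, polar_sub_left, polar_smul_left, ← R.pol] at h1
    rw [polar_sub_left, polar_smul_left, polar_comm Q z]
    simp only [smul_eq_mul] at h1 ⊢
    linear_combination h1
  have hzv : polar Q z v = 0 := by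
    rw [hz, polar_sub_left, polar_smul_left, polar_smul_left, polar_comm Q v' v, hvv, polar_self, hv]
    simp
  have hc : polar Q (E (f 0)) z = 0 := by
    rw [sub_eq_zero] at hzc
    rw [hzc, polar_smul_left, smul_eq_mul] at hzv
    exact (mul_eq_zero.1 hzv).resolve_right hav
  rw [hc, zero_smul, sub_zero] at hzc
  have := (hli (-polar Q (E (e 0)) v') (polar Q (E (e 0)) v) (by rw [← hzc, hz]; module)).2
  exact hav this

/-- the values of `claimA` are rational -/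
lemma claimA_rat [Finite F] [FiniteDimensional F V] (R : RatQ Q Q₀ E) (hG : HG Q E G) (hGO : G ≤ OQ Q)
    (hN : R.NG G) {e f : Fin 6 → V₀}
    (h : HypSys Q₀ e f) {v v' : V} (hv : Q v = 0) (hv' : Q v' = 0) (hvv : polar Q v v' = 0)
    (hy : ei Q v v' ∈ G)
    (hΔ : polar Q (E (e 2)) v * polar Q (E (e 3)) v' - polar Q (E (e 2)) v' * polar Q (E (e 3)) v ≠ 0) :
    ∃ α α' : F₀, polar Q v (E (e 0 - α • e 2 - α' • e 3)) = 0 ∧
      polar Q v' (E (e 0 - α • e 2 - α' • e 3)) = 0 := by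
  obtain ⟨h1, h2⟩ := R.claimA hG hGO h hv hv' hvv hy hΔ
  refine ⟨⟨_, hN e f h _ h1⟩, ⟨_, hN e f h _ h2⟩, ?_, ?_⟩
  · simp only [R.E_sub, R.smul, polar_sub_right, polar_smul_right, smul_eq_mul]
    rw [polar_comm Q v (E (e 2)), polar_comm Q v (E (e 3))]
    exact cramer1 hΔ
  · simp only [R.E_sub, R.smul, polar_sub_right, polar_smul_right, smul_eq_mul]
    rw [polar_comm Q v' (E (e 2)), polar_comm Q v' (E (e 3))]
    exact cramer2 hΔ

/-- **every line of a long root element of `G` is rational** -/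
theorem line_rat [Finite F] [FiniteDimensional F V] [Fintype F₀] [FiniteDimensional F₀ V₀]
    (R : RatQ Q Q₀ E) (hG : HG Q E G) (hGO : G ≤ OQ Q) (hN : R.NG G) {v v' : V} (hv : Q v = 0)
    (hv' : Q v' = 0) (hvv : polar Q v v' = 0) (hy : ei Q v v' ∈ G)
    (hli : ∀ s t : F, s • v + t • v' = 0 → s = 0 ∧ t = 0) :
    ∃ q₁ q₂ y₁ y₂ : V₀, polar Q v' (E q₁) • v - polar Q v (E q₁) • v' = E y₁ ∧
      polar Q v' (E q₂) • v - polar Q v (E q₂) • v' = E y₂ ∧
      polar Q (E q₁) v * polar Q (E q₂) v' - polar Q (E q₁) v' * polar Q (E q₂) v ≠ 0 := by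
  obtain ⟨a, b, ha, hb, hab, hP⟩ := R.exists_opp hv hv' hvv hli
  have hind : a ∉ Submodule.span F₀ {b} := by
    intro hmem
    obtain ⟨l, rfl⟩ := Submodule.mem_span_singleton.1 hmem
    apply hP
    rw [R.smul, polar_smul_left, polar_smul_left]
    simp only [smul_eq_mul]
    ring
  have hb0 : b ≠ 0 := by
    rintro rfl
    apply hP
    rw [R.E_zero]
    simp
  obtain ⟨e₀, f₀, h₀, ha0, hb1⟩ := exists_frame6 R.nd₀ R.dim ha hb hab hind hb0
  obtain ⟨e, f, h, rfl, rfl⟩ : ∃ e f : Fin 6 → V₀, HypSys Q₀ e f ∧ e 2 = a ∧ e 3 = b :=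
    ⟨_, _, hs_reindex h₀ ((Equiv.swap (0 : Fin 6) 2).trans (Equiv.swap (1 : Fin 6) 3)), by
      rw [← ha0]; rfl, by rw [← hb1]; rfl⟩
  obtain ⟨α, α', a1, a2⟩ := R.claimA_rat hG hGO hN h hv hv' hvv hy hP
  obtain ⟨β, β', b1, b2⟩ := R.claimA_rat hG hGO hN (hs_reindex h (Equiv.swap (0 : Fin 6) 1)) hv hv' hvv hy
    hP
  have s0 : (e ∘ (Equiv.swap (0 : Fin 6) 1)) 0 = e 1 := by simp
  have s2 : (e ∘ (Equiv.swap (0 : Fin 6) 1)) 2 = e 2 := rfl
  have s3 : (e ∘ (Equiv.swap (0 : Fin 6) 1)) 3 = e 3 := rfl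
  rw [s0, s2, s3] at b1 b2
  set ua : V₀ := e 0 - α • e 2 - α' • e 3 with hua
  set ub : V₀ := e 1 - β • e 2 - β' • e 3 with hub
  have Qt : ∀ (i : Fin 6) (s t : F₀), Q₀ (e i - s • e 2 - t • e 3) = 0 := by
    intro i s t
    have e1 : e i - s • e 2 - t • e 3 = (e i + (-s) • e 2) + (-t) • e 3 := by module
    rw [e1, Q_add_smul, Q_add_smul, h.Qe, h.Qe, h.Qe, polar_add_left, polar_smul_left, h.ee, h.ee, h.ee]
    simp
  have hind2 : ua ∉ Submodule.span F₀ {ub} := by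
    intro hmem
    obtain ⟨l, hl⟩ := Submodule.mem_span_singleton.1 hmem
    have := congrArg (fun t => polar Q₀ t (f 0)) hl
    simp [hua, hub, h.ef] at this
  have hub0 : ub ≠ 0 := by
    intro h0
    have := congrArg (fun t => polar Q₀ t (f 1)) h0
    simp [hub, h.ef] at this
  have hperp : polar Q₀ ua ub = 0 := by simp [hua, hub, h.ee]
  obtain ⟨y₁, hy₁⟩ := R.star hG hN hv hv' hvv hy (Qt 0 α α') (Qt 1 β β') hperp hind2 hub0 a1 a2 b1 b2
    (q := e 2) (by simp [hua, h.ee]) (by simp [hub, h.ee])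
  obtain ⟨y₂, hy₂⟩ := R.star hG hN hv hv' hvv hy (Qt 0 α α') (Qt 1 β β') hperp hind2 hub0 a1 a2 b1 b2
    (q := e 3) (by simp [hua, h.ee]) (by simp [hub, h.ee])
  exact ⟨e 2, e 3, y₁, y₂, hy₁, hy₂, hP⟩

lemma perp_of_line (R : RatQ Q Q₀ E) {v v' : V} {q₁ q₂ y₁ y₂ u : V₀}
    (hy₁ : polar Q v' (E q₁) • v - polar Q v (E q₁) • v' = E y₁)
    (hy₂ : polar Q v' (E q₂) • v - polar Q v (E q₂) • v' = E y₂)
    (hP : polar Q (E q₁) v * polar Q (E q₂) v' - polar Q (E q₁) v' * polar Q (E q₂) v ≠ 0)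
    (h1 : polar Q₀ y₁ u = 0) (h2 : polar Q₀ y₂ u = 0) :
    polar Q v (E u) = 0 ∧ polar Q v' (E u) = 0 := by
  have e1 := R.perp h1
  have e2 := R.perp h2
  rw [← hy₁, polar_sub_left, polar_smul_left, polar_smul_left, polar_comm Q v' (E q₁),
    polar_comm Q v (E q₁)] at e1
  rw [← hy₂, polar_sub_left, polar_smul_left, polar_smul_left, polar_comm Q v' (E q₂),
    polar_comm Q v (E q₂)] at e2
  simp only [smul_eq_mul] at e1 e2
  constructor
  · have : (polar Q (E q₁) v * polar Q (E q₂) v' - polar Q (E q₁) v' * polar Q (E q₂) v)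
        * polar Q v (E u) = 0 := by
      linear_combination polar Q (E q₁) v * e2 - polar Q (E q₂) v * e1
    exact (mul_eq_zero.1 this).resolve_left hP
  · have : (polar Q (E q₁) v * polar Q (E q₂) v' - polar Q (E q₁) v' * polar Q (E q₂) v)
        * polar Q v' (E u) = 0 := by
      linear_combination polar Q (E q₁) v' * e2 - polar Q (E q₂) v' * e1
    exact (mul_eq_zero.1 this).resolve_left hP

/-- **every element of `G` maps rational singular points to rational points** -/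
theorem point_rat [Finite F] [FiniteDimensional F V] [Fintype F₀] [FiniteDimensional F₀ V₀]
    (R : RatQ Q Q₀ E) (hG : HG Q E G) (hGO : G ≤ OQ Q) (hN : R.NG G) {φ : V ≃ₗ[F] V} (hφ : φ ∈ G)
    {a : V₀} (ha : Q₀ a = 0) : ∃ (c : F) (y : V₀), φ (E a) = c • E y := by
  classical
  by_cases ha0 : a = 0
  · exact ⟨0, 0, by rw [ha0, R.E_zero]; simp⟩
  obtain ⟨e, f, h, rfl⟩ := exists_frame6_one R.nd₀ R.dim ha ha0
  have hφO := hGO hφ
  set v₀ := φ (E (e 0)) with hv₀
  set v₁ := φ (E (e 1)) with hv₁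
  set w₁ := φ (E (f 1)) with hw₁
  have Qv0 : Q v₀ = 0 := by rw [hv₀, mem_OQ.1 hφO]; exact R.sing (h.Qe 0)
  have Qv1 : Q v₁ = 0 := by rw [hv₁, mem_OQ.1 hφO]; exact R.sing (h.Qe 1)
  have Qw1 : Q w₁ = 0 := by rw [hw₁, mem_OQ.1 hφO]; exact R.sing (h.Qf 1)
  have p00 : polar Q v₀ v₀ = 0 := by rw [polar_self, Qv0]; simp
  have p01 : polar Q v₀ v₁ = 0 := by rw [hv₀, hv₁, OQ_polar hφO]; exact R.pee h 0 1
  have p0w : polar Q v₀ w₁ = 0 := by rw [hv₀, hw₁, OQ_polar hφO, R.pef h]; simp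
  have pw1 : polar Q w₁ v₁ = 1 := by rw [hv₁, hw₁, OQ_polar hφO, R.pfe h]; simp
  have pw0 : polar Q w₁ v₀ = 0 := by rw [polar_comm, p0w]
  have y01 : ei Q v₀ v₁ ∈ G := by
    rw [hv₀, hv₁, ← conj_ei hφO]; exact G.mul_mem (G.mul_mem hφ (hG _ _)) (G.inv_mem hφ)
  have y0w : ei Q v₀ w₁ ∈ G := by
    rw [hv₀, hw₁, ← conj_ei hφO]; exact G.mul_mem (G.mul_mem hφ (hG _ _)) (G.inv_mem hφ)
  have li01 : ∀ s t : F, s • v₀ + t • v₁ = 0 → s = 0 ∧ t = 0 := by
    intro s t hst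
    have h1 := congrArg (fun z => polar Q z (φ (E (f 0)))) hst
    have h2 := congrArg (fun z => polar Q z (φ (E (f 1)))) hst
    simp only [hv₀, hv₁, polar_add_left, polar_smul_left, OQ_polar hφO, R.pef h, polar_zero_left] at h1 h2
    simp at h1 h2
    exact ⟨h1, h2⟩
  have li0w : ∀ s t : F, s • v₀ + t • w₁ = 0 → s = 0 ∧ t = 0 := by
    intro s t hst
    have h1 := congrArg (fun z => polar Q z (φ (E (f 0)))) hst
    have h2 := congrArg (fun z => polar Q z (φ (E (e 1)))) hst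
    simp only [hv₀, hw₁, polar_add_left, polar_smul_left, OQ_polar hφO, R.pef h, R.pff h, R.pee h,
      R.pfe h, polar_zero_left] at h1 h2
    simp at h1 h2
    exact ⟨h1, h2⟩
  obtain ⟨q₁, q₂, y₁, y₂, hy₁, hy₂, hP⟩ := R.line_rat hG hGO hN Qv0 Qv1 p01 y01 li01
  obtain ⟨q₁', q₂', y₁', y₂', hy₁', hy₂', hP'⟩ := R.line_rat hG hGO hN Qv0 Qw1 p0w y0w li0w
  have hdim := R.dim
  have hc3 : ({y₁', y₂', y₁} : Finset V₀).card ≤ 3 := Finset.card_le_three
  obtain ⟨ua, ua', hua, hua', Qua, Qua', huu⟩ := exists_hyp R.nd₀ {y₁', y₂', y₁} (by omega)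
  rw [mem_orth] at hua hua'
  have hc5 : ({y₁', y₂', y₁, ua, ua'} : Finset V₀).card ≤ 5 := Finset.card_le_five
  obtain ⟨ub, -, hub, hub0, Qub⟩ := exists_sing_inf R.nd₀ ⊤ {y₁', y₂', y₁, ua, ua'}
    (by rw [finrank_top]; omega)
  obtain ⟨a1, a2⟩ := R.perp_of_line hy₁' hy₂' hP' (hua y₁' (by simp)) (hua y₂' (by simp))
  obtain ⟨b1, b2⟩ := R.perp_of_line hy₁' hy₂' hP' (hub y₁' (by simp)) (hub y₂' (by simp))
  have hind : ua ∉ Submodule.span F₀ {ub} := by
    intro hmem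
    obtain ⟨l, hl⟩ := Submodule.mem_span_singleton.1 hmem
    rw [← hl, polar_smul_left, polar_comm, hub ua' (by simp)] at huu
    simp at huu
  obtain ⟨y, hy⟩ := R.star hG hN Qv0 Qw1 p0w y0w Qua Qub (hub ua (by simp)) hind hub0 a1 a2 b1 b2
    (q := y₁) (by rw [polar_comm]; exact hua y₁ (by simp)) (by rw [polar_comm]; exact hub y₁ (by simp))
  have c1 : polar Q w₁ (E y₁) = - polar Q v₀ (E q₁) := by
    rw [← hy₁, polar_sub_right, polar_smul_right, polar_smul_right, pw0, pw1]; simp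
  have c2 : polar Q v₀ (E y₁) = 0 := by
    rw [← hy₁, polar_sub_right, polar_smul_right, polar_smul_right, p00, p01]; simp
  rw [c1, c2, zero_smul, sub_zero] at hy
  by_cases hb : polar Q v₀ (E q₁) = 0
  · rw [hb, zero_smul, sub_zero] at hy₁
    have hne : polar Q v₁ (E q₁) ≠ 0 := by
      intro h0
      apply hP
      rw [polar_comm Q (E q₁) v₀, polar_comm Q (E q₁) v₁, hb, h0]
      simp
    exact ⟨(polar Q v₁ (E q₁))⁻¹, y₁, by rw [← hy₁, smul_smul, inv_mul_cancel₀ hne, one_smul]⟩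
  · exact ⟨(-polar Q v₀ (E q₁))⁻¹, y, by
      rw [← hy, smul_smul, inv_mul_cancel₀ (neg_ne_zero.2 hb), one_smul]⟩

lemma stab_of_proj [Fintype F₀] [FiniteDimensional F₀ V₀] (R : RatQ Q Q₀ E) {φ : V ≃ₗ[F] V}
    (hφ : φ ∈ OQ Q) (h : ∀ x, Q₀ x = 0 → ∃ (c : F) (y : V₀), φ (E x) = c • E y) : Stab E φ := by
  classical
  have hdim := R.dim
  have h' : ∀ x, ∃ (c : F) (y : V₀), Q₀ x = 0 → φ (E x) = c • E y := by
    intro x
    by_cases hx : Q₀ x = 0
    · obtain ⟨c, y, hc⟩ := h x hx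
      exact ⟨c, y, fun _ => hc⟩
    · exact ⟨0, 0, fun h => absurd h hx⟩
  choose c y hcy using h'
  have hprod : ∀ x x', Q₀ x = 0 → Q₀ x' = 0 → polar Q₀ x x' ≠ 0 →
      c x * c x' ∈ F₀ ∧ c x * c x' ≠ 0 := by
    intro x x' hx hx' hxx'
    have h1 := OQ_polar hφ (E x) (E x')
    rw [hcy x hx, hcy x' hx', R.pol, polar_smul_left, polar_smul_right, R.pol] at h1
    simp only [smul_eq_mul] at h1
    have hne : ((polar Q₀ x x' : F₀) : F) ≠ 0 := by
      intro h0
      exact hxx' (Subtype.ext h0)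
    have h2 : c x * c x' * ((polar Q₀ (y x) (y x') : F₀) : F) = ((polar Q₀ x x' : F₀) : F) := by
      rw [← h1]; ring
    have h3 : c x * c x' ≠ 0 := by
      intro h0
      rw [h0, zero_mul] at h2
      exact hne h2.symm
    have h4 : ((polar Q₀ (y x) (y x') : F₀) : F) ≠ 0 := by
      intro h0
      rw [h0, mul_zero] at h2
      exact hne h2.symm
    refine ⟨?_, h3⟩
    have : c x * c x' = ((polar Q₀ x x' : F₀) : F) / ((polar Q₀ (y x) (y x') : F₀) : F) := by
      field_simp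
      exact h2
    rw [this]
    exact F₀.div_mem (Subtype.prop _) (Subtype.prop _)
  have hperp : ∀ x x', Q₀ x = 0 → Q₀ x' = 0 → x ≠ 0 → x' ≠ 0 → polar Q₀ x x' = 0 →
      c x / c x' ∈ F₀ ∧ c x' ≠ 0 := by
    intro x x' hx hx' hx0 hx'0 hxx'
    obtain ⟨z1, hz1⟩ := polar_nondeg_exists R.nd₀ hx0
    obtain ⟨z2, hz2⟩ := polar_nondeg_exists R.nd₀ hx'0
    obtain ⟨z, -, hzx, hzx'⟩ := Cfsg.Agent.Lib.Helper94.exists_both_ne_zero (⊤ : Submodule F₀ V₀)
      ((polarBilin Q₀).flip x) ((polarBilin Q₀).flip x')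
      ⟨z1, trivial, by change polar Q₀ z1 x ≠ 0; rw [hz1]; exact one_ne_zero⟩
      ⟨z2, trivial, by change polar Q₀ z2 x' ≠ 0; rw [hz2]; exact one_ne_zero⟩
    change polar Q₀ z x ≠ 0 at hzx
    change polar Q₀ z x' ≠ 0 at hzx'
    set t : V₀ := z + (-(Q₀ z / polar Q₀ z x)) • x with ht
    have hQt : Q₀ t = 0 := by
      rw [ht, Q_add_smul, hx]; field_simp; ring
    have hxt : polar Q₀ x t ≠ 0 := by
      rw [ht, polar_add_right, polar_smul_right, polar_self, hx, polar_comm Q₀ x z]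
      simpa using hzx
    have hx't : polar Q₀ x' t ≠ 0 := by
      rw [ht, polar_add_right, polar_smul_right, polar_comm Q₀ x' x, hxx', polar_comm Q₀ x' z]
      simpa using hzx'
    obtain ⟨m1, n1⟩ := hprod x t hx hQt hxt
    obtain ⟨m2, n2⟩ := hprod x' t hx' hQt hx't
    have a1 : c x' ≠ 0 := left_ne_zero_of_mul n2
    have a2 : c t ≠ 0 := right_ne_zero_of_mul n2
    refine ⟨?_, a1⟩
    have : c x / c x' = (c x * c t) / (c x' * c t) := by
      field_simp
    rw [this]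
    exact F₀.div_mem m1 m2
  have hall : ∀ x x', Q₀ x = 0 → Q₀ x' = 0 → x ≠ 0 → x' ≠ 0 → c x / c x' ∈ F₀ ∧ c x' ≠ 0 := by
    intro x x' hx hx' hx0 hx'0
    have hc2 : ({x, x'} : Finset V₀).card ≤ 2 := Finset.card_le_two
    obtain ⟨t, -, hts, ht0, hQt⟩ := exists_sing_inf R.nd₀ ⊤ {x, x'} (by rw [finrank_top]; omega)
    obtain ⟨m1, n1⟩ := hperp x t hx hQt hx0 ht0 (hts x (by simp))
    obtain ⟨m2, n2⟩ := hperp t x' hQt hx' ht0 hx'0 (by rw [polar_comm]; exact hts x' (by simp))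
    refine ⟨?_, n2⟩
    have : c x / c x' = (c x / c t) * (c t / c x') := by
      field_simp
    rw [this]
    exact F₀.mul_mem m1 m2
  obtain ⟨e₀, f₀, -, -, hQe, hQf, hef⟩ := exists_hyp R.nd₀ ∅ (by simp; omega)
  have he0 : e₀ ≠ 0 := by
    rintro rfl
    simp at hef
  let X : AddSubgroup V₀ :=
    { carrier := {x | ∃ y, φ (E x) = c e₀ • E y}
      zero_mem' := ⟨0, by rw [R.E_zero]; simp⟩
      add_mem' := by
        rintro a b ⟨ya, ha⟩ ⟨yb, hb⟩
        exact ⟨ya + yb, by rw [R.add, map_add, ha, hb, R.add, smul_add]⟩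
      neg_mem' := by
        rintro a ⟨ya, ha⟩
        exact ⟨-ya, by rw [R.E_neg, map_neg, ha, R.E_neg, smul_neg]⟩ }
  have := span_sing (W := ⊤) (e := e₀) (f := f₀) trivial trivial hQe hQf hef X (by
    intro u _ hu
    by_cases hu0 : u = 0
    · rw [hu0]; exact X.zero_mem
    obtain ⟨m, n⟩ := hall u e₀ hu hQe hu0 he0
    refine ⟨(⟨_, m⟩ : F₀) • y u, ?_⟩
    rw [hcy u hu, R.smul, smul_smul]
    congr 1
    field_simp)
  exact ⟨c e₀, fun x => this x trivial⟩

lemma hG_of (R : RatQ Q Q₀ E) [Fintype F] [FiniteDimensional F V] (hdim : 12 < finrank F V)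
    (hG : ∀ φ ∈ Om Q, Stab E φ → φ ∈ G) : HG Q E G := by
  intro a b
  apply hG _ (ei_mem_Om R.nd (by omega) _ _)
  refine ⟨1, fun x => ?_⟩
  by_cases hc : Q (E a) = 0 ∧ polar Q (E a) (E b) = 0
  · refine ⟨x + polar Q₀ b x • a - polar Q₀ a x • b - (Q₀ b * polar Q₀ a x) • a, ?_⟩
    rw [ei_apply hc.1 hc.2, one_smul]
    simp only [R.E_sub, R.add, R.smul, R.pol, R.form]
    push_cast
    rfl
  · refine ⟨x, ?_⟩
    unfold ei
    rw [dif_neg hc, one_smul]
    rfl

/-- **the core of the maximality proof** -/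
theorem core [Fintype F] [FiniteDimensional F V] [Fintype F₀] [FiniteDimensional F₀ V₀]
    (R : RatQ Q Q₀ E) (hdim : 12 < finrank F V)
    (hprime : ∀ S : Subalgebra F₀ F, S = ⊥ ∨ S = ⊤) (G : Subgroup (V ≃ₗ[F] V))
    (hG : ∀ φ ∈ Om Q, Stab E φ → φ ∈ G) (hGO : G ≤ Om Q) (φ0 : V ≃ₗ[F] V) (hφ0 : φ0 ∈ G)
    (hns : ¬ Stab E φ0) : Om Q ≤ G := by
  have hG' : HG Q E G := R.hG_of hdim hG
  have hGO' : G ≤ OQ Q := hGO.trans (Om_le_OQ Q)
  by_cases hN : R.NG G
  · exfalso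
    apply hns
    exact R.stab_of_proj (hGO' hφ0) (fun x hx => R.point_rat hG' hGO' hN hφ0 hx)
  · unfold NG at hN
    push Not at hN
    obtain ⟨e, f, h, l, hl, hl0⟩ := hN
    exact R.om_le_of_all hG' h hdim (R.all_of_not_mem hG' h hprime hl hl0)

/-- a non-rational long root element does not stabilise the rational structure -/
lemma not_stab [Fintype F] [FiniteDimensional F V] [Fintype F₀] [FiniteDimensional F₀ V₀]
    (R : RatQ Q Q₀ E) (hdim : 12 < finrank F V) {θ : F} (hθ : θ ∉ F₀) :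
    ∃ φ ∈ Om Q, ¬ Stab E φ := by
  classical
  have hdim0 := R.dim
  obtain ⟨e₀, f₀, -, -, hQe, hQf, hef⟩ := exists_hyp R.nd₀ ∅ (by simp; omega)
  have he0 : e₀ ≠ 0 := by
    rintro rfl
    simp at hef
  obtain ⟨e, f, h, -⟩ := exists_frame6_one R.nd₀ R.dim hQe he0
  refine ⟨ei Q (E (e 0)) (θ • E (e 1)), ei_mem_Om R.nd (by omega) _ _, ?_⟩
  rintro ⟨c, hc⟩
  have hp : polar Q (E (e 0)) (θ • E (e 1)) = 0 := by rw [polar_smul_right, R.pee h, smul_zero]
  have hq : Q (θ • E (e 1)) = 0 := by rw [QuadraticMap.map_smul, R.sing (h.Qe 1), smul_zero]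
  obtain ⟨y, hy⟩ := hc (e 2)
  rw [ei_apply (R.sing (h.Qe 0)) hp, hq, polar_smul_left, R.pee h, R.pee h] at hy
  simp only [smul_zero, zero_smul, add_zero, sub_zero, zero_mul] at hy
  have h1 : (1 : F) = c * ((polar Q₀ y (f 2) : F₀) : F) := by
    have := congrArg (fun t => polar Q t (E (f 2))) hy
    simp only [polar_smul_left, R.pef h, if_true, smul_eq_mul, R.pol] at this
    exact this
  have hne : ((polar Q₀ y (f 2) : F₀) : F) ≠ 0 := by
    intro h0
    rw [h0, mul_zero] at h1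
    exact one_ne_zero h1
  have hcF : c ∈ F₀ := by
    have : c = ((polar Q₀ y (f 2) : F₀) : F)⁻¹ := by
      field_simp
      exact h1.symm
    rw [this]
    exact F₀.inv_mem (Subtype.prop _)
  obtain ⟨y', hy'⟩ := hc (f 1)
  rw [ei_apply (R.sing (h.Qe 0)) hp, hq, polar_smul_left, R.pef h, R.pef h] at hy'
  simp only [if_true, smul_eq_mul, mul_one, zero_mul, zero_smul, sub_zero] at hy'
  rw [if_neg (by decide), zero_smul, sub_zero] at hy'
  have h2 := congrArg (fun t => polar Q t (E (f 0))) hy'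
  simp only [polar_add_left, polar_smul_left, R.pff h, R.pef h, if_true, smul_eq_mul, mul_one, zero_add,
    R.pol] at h2
  apply hθ
  rw [h2]
  exact F₀.mul_mem hcF (Subtype.prop _)

end RatQ

end Cfsg.Agent.Lib.Helper45.OSub
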