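import Mathlib
import Cfsg.Agent.Lib.Helper45.SpSubD

set_option autoImplicit false
set_option linter.unusedSimpArgs false
set_option linter.unusedVariables false

/-! Maximality of the subfield subgroup of a symplectic group: the abstract core, conclusion. -/

namespace Cfsg.Agent.Lib.Helper45.SpSub

open LinearMap (BilinForm)
open Module Cfsg.Agent.Lib.Helper94

variable {F V : Type*} [Field F] [AddCommGroup V] [Module F V]
variable {F₀ : Subfield F} {V₀ : Type*} [AddCommGroup V₀] [Module F₀ V₀]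
variable {B : BilinForm F V} {B₀ : BilinForm F₀ V₀} {E : V₀ → V}
variable {G : Subgroup (V ≃ₗ[F] V)}

namespace RatS

lemma st_sq [FiniteDimensional F₀ V₀] (R : RatS B B₀ E) (hG : HG B E G) (hK : ∀ l, R.Good G l) (w : V₀)
    (l : F) : st B R.alt (E w) (l ^ 2) ∈ G := by
  classical
  obtain ⟨z, u, hzu, hzu1⟩ := R.exists_hyp {w} (by simp)
  obtain ⟨hwz, hwu⟩ := hzu w (by simp)
  have hg : sr R.alt (l • E u) (E w) ∈ G := hK l u w (R.sw hwu)
  have hgz : sr R.alt (l • E u) (E w) (E z) = E z + l • E w := by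
    rw [sr_apply R.alt (by simp [R.perp' hwu])]
    simp [R.form, hzu1, R.sw hwz]
  have hX : st B R.alt (E z + l • E w) 1 ∈ G := by
    rw [← hgz, ← conj_st R.alt (sr_isIsom _ _ _)]
    exact G.mul_mem (G.mul_mem hg (R.st_rat hG _ F₀.one_mem)) (G.inv_mem hg)
  have hS : sr R.alt (E z) (l • E w) ∈ G := by
    rw [← sr_smul R.alt (R.perp' hwz)]
    exact hK l z w (R.sw hwz)
  have e : st B R.alt (E w) (l ^ 2) = (sr R.alt (E z) (l • E w))⁻¹ * st B R.alt (E z + l • E w) 1 *
      (st B R.alt (E z) 1)⁻¹ := by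
    have e1 : st B R.alt (E w) (l ^ 2) = st B R.alt (l • E w) 1 := by rw [st_smul, mul_one]
    rw [e1]
    unfold sr
    rw [← st_inv, ← st_inv]
    group
  rw [e]
  exact G.mul_mem (G.mul_mem (G.inv_mem hS) hX) (G.inv_mem (R.st_rat hG _ F₀.one_mem))

lemma st_all [Finite F] [FiniteDimensional F₀ V₀] (R : RatS B B₀ E) (hG : HG B E G)
    (hK : ∀ l, R.Good G l) (w : V₀) (μ : F) : st B R.alt (E w) μ ∈ G := by
  by_cases h2 : (2 : F) = 0
  · have := Fintype.ofFinite F
    have hch : ringChar F = 2 := CharP.ringChar_of_prime_eq_zero Nat.prime_two (by exact_mod_cast h2)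
    obtain ⟨d, hd⟩ := FiniteField.isSquare_of_char_two hch μ
    rw [hd, ← sq]
    exact R.st_sq hG hK w d
  · have e : μ = ((μ + 1) / 2) ^ 2 + -((μ - 1) / 2) ^ 2 := by
      field_simp
      ring
    rw [e, ← st_mul, ← st_inv]
    exact G.mul_mem (R.st_sq hG hK w _) (G.inv_mem (R.st_sq hG hK w _))

lemma tv_step [Finite F] [FiniteDimensional F₀ V₀] (R : RatS B B₀ E) (hG : HG B E G)
    (hK : ∀ l, R.Good G l) {v : V} (hv : v ∈ tvSet B R.alt G) (w : V₀) (μ : F) :
    v + μ • E w ∈ tvSet B R.alt G := by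
  have hw : E w ∈ tvSet B R.alt G := fun c => R.st_all hG hK w c
  by_cases h0 : B v (E w) = 0
  · by_cases hy : ∃ y, B₀ y w = 0 ∧ B v (E y) ≠ 0
    · obtain ⟨y, hyw, hvy⟩ := hy
      have hg : sr R.alt ((μ / B v (E y)) • E y) (E w) ∈ G := hK _ y w hyw
      have := tvSet_map hv hg (sr_isIsom _ _ _)
      rw [sr_apply R.alt (by simp [R.perp hyw]), h0, map_smul, smul_eq_mul, div_mul_cancel₀ _ hvy,
        zero_smul, add_zero] at this
      exact this
    · push Not at hy
      by_cases hw0 : w = 0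
      · rw [hw0, R.E_zero, smul_zero, add_zero]; exact hv
      obtain ⟨w', hww'⟩ := R.exists_pair_ne hw0
      have hv' : v = (B v (E w') / (B₀ w w' : F₀)) • E w := by
        have hne : ((B₀ w w' : F₀) : F) ≠ 0 := fun h => hww' (Subtype.ext h)
        rw [← sub_eq_zero]
        apply R.eq_zero_of_perp
        intro y
        have h1 := hy (y - (B₀ w y / B₀ w w') • w') (by
          rw [alt_swap R.alt₀]
          simp only [map_sub, map_smul, smul_eq_mul]
          field_simp
          ring)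
        rw [R.E_sub, R.smul, map_sub, map_smul, smul_eq_mul, sub_eq_zero] at h1
        rw [map_sub, LinearMap.sub_apply, map_smul, LinearMap.smul_apply, smul_eq_mul, R.form, h1]
        push_cast
        field_simp
        ring
      rw [hv', ← add_smul]
      exact tvSet_smul hw _
  · exact tvSet_add_smul hw hv (by rw [alt_swap R.alt]; simpa using h0) μ

lemma tv_all [Finite F] [FiniteDimensional F₀ V₀] (R : RatS B B₀ E) (hG : HG B E G)
    (hK : ∀ l, R.Good G l) (x : V) : x ∈ tvSet B R.alt G := by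
  have hx : x ∈ Submodule.span F (Set.range E) := R.span ▸ Submodule.mem_top
  have key : ∀ v ∈ tvSet B R.alt G, v + x ∈ tvSet B R.alt G := by
    induction hx using Submodule.closure_induction with
    | zero => intro v hv; rwa [add_zero]
    | add x y _ _ hx hy => intro v hv; rw [← add_assoc]; exact hy _ (hx v hv)
    | smul_mem r x hx =>
      obtain ⟨w, rfl⟩ := hx
      intro v hv
      exact R.tv_step hG hK hv w r
  have := key 0 tvSet_zero
  rwa [zero_add] at this

/-- **the core of the maximality proof** -/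
theorem core [Finite F] [FiniteDimensional F V] [FiniteDimensional F₀ V₀] (R : RatS B B₀ E)
    (hprime : ∀ S : Subalgebra F₀ F, S = ⊥ ∨ S = ⊤) (G : Subgroup (V ≃ₗ[F] V))
    (hG : ∀ φ, IsIsom B φ → Stab E φ → φ ∈ G) (φ0 : V ≃ₗ[F] V) (hφ0 : φ0 ∈ G) (hφ0I : IsIsom B φ0)
    (hns : ¬ Stab E φ0) : ∀ φ, IsIsom B φ → φ ∈ G := by
  have hG' : HG B E G := by
    intro φ hφ h
    apply hG φ hφ
    refine ⟨1, fun x => ?_⟩
    obtain ⟨y, hy⟩ := h x
    exact ⟨y, by rw [hy, one_smul]⟩
  rcases R.dichotomy hG' hprime with hK | hK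
  · exfalso
    apply hns
    apply R.stab_of_proj hφ0I
    intro x
    apply R.proj_rat hG' hK (b := 1) _ one_ne_zero
    rw [← conj_st R.alt hφ0I]
    exact G.mul_mem (G.mul_mem hφ0 (R.st_rat hG' _ F₀.one_mem)) (G.inv_mem hφ0)
  · intro φ hφ
    exact mem_of_isIsom R.alt R.nd G (fun v c => R.tv_all hG' hK v c) φ hφ

/-- a non-rational transvection does not stabilise the rational structure -/
lemma not_stab [FiniteDimensional F₀ V₀] (R : RatS B B₀ E) {θ : F} (hθ : θ ∉ F₀) :
    ∃ φ, IsIsom B φ ∧ ¬ Stab E φ := by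
  classical
  obtain ⟨u, u', -, huu'⟩ := R.exists_hyp ∅ (by simp)
  obtain ⟨w, w', hw, hww'⟩ := R.exists_hyp {u, u'} (Finset.card_le_two.trans (by norm_num))
  obtain ⟨huw, huw'⟩ := hw u (by simp)
  refine ⟨st B R.alt (E u) θ, st_isIsom _ _ _ _, ?_⟩
  rintro ⟨c, hc⟩
  obtain ⟨y, hy⟩ := hc w
  rw [st_apply, R.perp' huw, mul_zero, zero_smul, add_zero] at hy
  have h1 : (1 : F) = c * (B₀ y w' : F₀) := by
    have := congrArg (fun t => B t (E w')) hy
    simp only [map_smul, LinearMap.smul_apply, smul_eq_mul, R.form, hww'] at this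
    exact this
  have hne : ((B₀ y w' : F₀) : F) ≠ 0 := by
    intro h0
    rw [h0, mul_zero] at h1
    exact one_ne_zero h1
  have hcF : c ∈ F₀ := by
    have : c = ((B₀ y w' : F₀) : F)⁻¹ := by
      field_simp
      exact h1.symm
    rw [this]
    exact F₀.inv_mem (B₀ y w').2
  obtain ⟨y', hy'⟩ := hc u'
  have hu'u : B₀ u' u = -1 := by rw [alt_swap R.alt₀, huu']
  rw [st_apply, R.form, hu'u] at hy'
  have h2 := congrArg (fun t => B t (E u')) hy'
  simp only [map_add, map_smul, LinearMap.add_apply, LinearMap.smul_apply, smul_eq_mul, R.form, huu',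
    R.alt₀ u'] at h2
  apply hθ
  have : θ = - (c * (B₀ y' u' : F₀)) := by
    rw [← h2]
    push_cast
    ring
  rw [this]
  exact F₀.neg_mem (F₀.mul_mem hcF (B₀ y' u').2)

end RatS

end Cfsg.Agent.Lib.Helper45.SpSub
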