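import Mathlib
import Cfsg.Prelude.Def_GeometricClasses
import Cfsg.Agent.Lib.Helper94.SympWrap
import Cfsg.Agent.Lib.Helper99.SubfieldGrp
import Cfsg.Agent.Lib.Helper45.SpSubE

set_option autoImplicit false
set_option linter.unusedSimpArgs false
set_option linter.unusedVariables false

/-! Rational vectors for a general index type; the subfield subgroup as a stabiliser; wrapper for `Sp`. -/

namespace Cfsg.Agent.Lib.Helper45.SpSub

open LinearMap (BilinForm)
open Matrix Module Cfsg.Agent.Lib.Helper94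

section general

variable {ι : Type} [Fintype ι] [DecidableEq ι] {F : Type*} [Field F]

/-- the rational vector with coordinates `u` with respect to the columns of `P` -/
def EE (F₀ : Subfield F) (P : Matrix.GeneralLinearGroup ι F) (u : ι → F₀) : ι → F :=
  (P : Matrix ι ι F) *ᵥ (fun i => (u i : F))

variable (F₀ : Subfield F) (P : Matrix.GeneralLinearGroup ι F)

lemma EE_add (u v : ι → F₀) : EE F₀ P (u + v) = EE F₀ P u + EE F₀ P v := by
  unfold EE
  rw [← Matrix.mulVec_add]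
  rfl

lemma EE_smul (a : F₀) (u : ι → F₀) : EE F₀ P (a • u) = (a : F) • EE F₀ P u := by
  unfold EE
  rw [← Matrix.mulVec_smul]
  rfl

lemma inv_mulVec_EE (u : ι → F₀) :
    ((P⁻¹ : Matrix.GeneralLinearGroup ι F) : Matrix ι ι F) *ᵥ EE F₀ P u = fun i => (u i : F) := by
  unfold EE
  rw [Matrix.mulVec_mulVec, ← Units.val_mul, inv_mul_cancel, Units.val_one, Matrix.one_mulVec]

lemma EE_injective : Function.Injective (EE F₀ P) := by
  intro u v h
  have := congrArg (fun x => ((P⁻¹ : Matrix.GeneralLinearGroup ι F) : Matrix ι ι F) *ᵥ x) h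
  simp only [inv_mulVec_EE] at this
  funext i
  exact Subtype.ext (congrFun this i)

lemma EE_single (i : ι) : EE F₀ P (Pi.single i 1) = (P : Matrix ι ι F) *ᵥ Pi.single i 1 := by
  unfold EE
  congr 1
  funext j
  by_cases h : j = i
  · subst h; simp
  · simp [h]

lemma span_EE : Submodule.span F (Set.range (EE F₀ P)) = ⊤ := by
  rw [eq_top_iff]
  have h1 : Submodule.span F (Set.range (Pi.basisFun F ι)) = ⊤ := (Pi.basisFun F ι).span_eq
  have h2 : (Submodule.span F (Set.range (Pi.basisFun F ι))).map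
      ((glEquiv ι F P : (ι → F) ≃ₗ[F] (ι → F)) : (ι → F) →ₗ[F] (ι → F)) = ⊤ := by
    rw [h1, Submodule.map_top, LinearEquiv.range]
  rw [← h2, Submodule.map_span]
  apply Submodule.span_mono
  rintro _ ⟨_, ⟨i, rfl⟩, rfl⟩
  refine ⟨Pi.single i 1, ?_⟩
  rw [EE_single]
  simp

lemma mem_subfield_iff_stab [Nonempty ι] (g : Matrix.GeneralLinearGroup ι F) :
    g ∈ Cfsg.Geo.subfieldSubgroup F₀ P ↔ Stab (EE F₀ P) (glEquiv ι F g) := by
  rw [Cfsg.Agent.Lib.Helper99.mem_subfieldSubgroup_iff]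
  constructor
  · rintro ⟨c, hc0, hc⟩
    refine ⟨c⁻¹, fun u => ?_⟩
    let A₀ : Matrix ι ι F₀ := fun i j => ⟨_, hc i j⟩
    have hA : A₀.map (F₀.subtype : F₀ →+* F) =
        c • ((P⁻¹ * g * P : Matrix.GeneralLinearGroup ι F) : Matrix ι ι F) := by
      ext i j; rfl
    refine ⟨A₀ *ᵥ u, ?_⟩
    rw [glEquiv_apply]
    have h1 : (fun i => (((A₀ *ᵥ u) i : F₀) : F)) =
        (A₀.map (F₀.subtype : F₀ →+* F)) *ᵥ (fun i => (u i : F)) := by
      funext i
      exact (F₀.subtype : F₀ →+* F).map_mulVec A₀ u i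
    unfold EE
    rw [h1, hA, Matrix.smul_mulVec, Matrix.mulVec_smul, smul_smul, inv_mul_cancel₀ hc0, one_smul,
      Matrix.mulVec_mulVec, Matrix.mulVec_mulVec, ← Units.val_mul, ← Units.val_mul]
    congr 2
    group
  · rintro ⟨c, hc⟩
    have hc0 : c ≠ 0 := by
      rintro rfl
      obtain ⟨i⟩ := (inferInstance : Nonempty ι)
      obtain ⟨y, hy⟩ := hc (Pi.single i 1)
      rw [zero_smul] at hy
      have h1 : EE F₀ P (Pi.single i 1) = 0 := by
        apply (glEquiv ι F g).injective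
        rw [hy, map_zero]
      have h2 : EE F₀ P (Pi.single i 1) = EE F₀ P 0 := by
        rw [h1]
        unfold EE
        have : (fun i => (((0 : ι → F₀) i : F₀) : F)) = 0 := rfl
        rw [this, Matrix.mulVec_zero]
      have h3 := congrFun (EE_injective F₀ P h2) i
      simp at h3
    refine ⟨c⁻¹, inv_ne_zero hc0, fun i j => ?_⟩
    obtain ⟨y, hy⟩ := hc (Pi.single j 1)
    rw [glEquiv_apply, EE_single] at hy
    have h1 : ((P⁻¹ * g * P : Matrix.GeneralLinearGroup ι F) : Matrix ι ι F) *ᵥ Pi.single j 1 =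
        c • fun i => (y i : F) := by
      rw [Units.val_mul, Units.val_mul, ← Matrix.mulVec_mulVec, ← Matrix.mulVec_mulVec, hy,
        Matrix.mulVec_smul, inv_mulVec_EE]
    have h2 := congrFun h1 i
    simp only [Matrix.mulVec_single_one, Matrix.col_apply, Pi.smul_apply, smul_eq_mul] at h2
    rw [Matrix.smul_apply, h2, smul_eq_mul, ← mul_assoc, inv_mul_cancel₀ hc0, one_mul]
    exact (y i).2

end general

section field

variable {F : Type*} [Field F] [Fintype F]

lemma finrank_of_card (F₀ : Subfield F) (r : ℕ) (hcard : Fintype.card F = Nat.card F₀ ^ r) :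
    finrank F₀ F = r := by
  have := Fintype.ofFinite F₀
  have h1 := Module.card_eq_pow_finrank (K := F₀) (V := F)
  rw [hcard, Nat.card_eq_fintype_card] at h1
  exact (Nat.pow_right_injective (Fintype.one_lt_card (α := F₀)) h1).symm

lemma subalgebra_dichotomy (F₀ : Subfield F) (r : ℕ) (hr : r.Prime)
    (hcard : Fintype.card F = Nat.card F₀ ^ r) (S : Subalgebra F₀ F) : S = ⊥ ∨ S = ⊤ := by
  have := Subalgebra.isSimpleOrder_of_finrank_prime F₀ F (by rw [finrank_of_card F₀ r hcard]; exact hr)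
  exact eq_bot_or_eq_top S

lemma exists_not_mem_subfield (F₀ : Subfield F) (r : ℕ) (hr : r.Prime)
    (hcard : Fintype.card F = Nat.card F₀ ^ r) : ∃ θ : F, θ ∉ F₀ := by
  by_contra hcon
  push Not at hcon
  have h1 : F₀ = ⊤ := eq_top_iff.2 fun x _ => hcon x
  have h2 : Nat.card F₀ = Fintype.card F := by
    rw [h1, ← Nat.card_eq_fintype_card]
    exact Nat.card_congr (Subfield.topEquiv (K := F)).toEquiv
  rw [h2] at hcard
  have h3 : 1 < Fintype.card F := Fintype.one_lt_card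
  have h4 : (Fintype.card F) ^ 1 = (Fintype.card F) ^ r := by rw [pow_one]; exact hcard
  have := Nat.pow_right_injective h3 h4
  exact hr.one_lt.ne this

end field

section sp

variable {F : Type*} [Field F] {m : ℕ}

/-- the scaled standard alternating form -/
noncomputable def Bz (m : ℕ) (ζ : F) : BilinForm F (Fin m ⊕ Fin m → F) := ζ • sympB m F

lemma Bz_apply (ζ : F) (u v : Fin m ⊕ Fin m → F) : Bz m ζ u v = ζ * Cfsg.sympForm m F u v := by
  rw [← sympB_apply]; rfl

lemma Bz_isAlt (ζ : F) : (Bz m ζ).IsAlt := by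
  intro v
  change ζ * sympB m F v v = 0
  rw [sympB_isAlt m v, mul_zero]

lemma Bz_nondegenerate {ζ : F} (hζ : ζ ≠ 0) : (Bz m ζ).Nondegenerate := by
  have h := sympB_nondegenerate (F := F) m
  constructor
  · intro x hx
    apply h.1
    intro y
    have : ζ * sympB m F x y = 0 := hx y
    exact (mul_eq_zero.1 this).resolve_left hζ
  · intro y hy
    apply h.2
    intro x
    have : ζ * sympB m F x y = 0 := hy x
    exact (mul_eq_zero.1 this).resolve_left hζ

lemma isIsom_Bz_iff {ζ : F} (hζ : ζ ≠ 0) (φ : (Fin m ⊕ Fin m → F) ≃ₗ[F] (Fin m ⊕ Fin m → F)) :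
    IsIsom (Bz m ζ) φ ↔ IsIsom (sympB m F) φ := by
  constructor
  · intro h u v
    have : ζ * sympB m F (φ u) (φ v) = ζ * sympB m F u v := h u v
    exact mul_left_cancel₀ hζ this
  · intro h u v
    change ζ * sympB m F (φ u) (φ v) = ζ * sympB m F u v
    rw [h]

variable {F₀ : Subfield F} {ζ : F} {P : Matrix.GeneralLinearGroup (Fin m ⊕ Fin m) F}

lemma Bz_mem (hP : Cfsg.Geo.IsFormRationalStructure (Cfsg.sympForm m F) F₀ ζ P)
    (u v : Fin m ⊕ Fin m → F₀) : Bz m ζ (EE F₀ P u) (EE F₀ P v) ∈ F₀ := by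
  rw [Bz_apply]
  exact hP _ _ (fun i => (u i).2) (fun i => (v i).2)

/-- the alternating form on the rational vectors -/
noncomputable def Bq (hP : Cfsg.Geo.IsFormRationalStructure (Cfsg.sympForm m F) F₀ ζ P) :
    BilinForm F₀ (Fin m ⊕ Fin m → F₀) :=
  LinearMap.mk₂ F₀ (fun u v => (⟨Bz m ζ (EE F₀ P u) (EE F₀ P v), Bz_mem hP u v⟩ : F₀))
    (by
      intro u u' v
      apply Subtype.ext
      change Bz m ζ _ _ = Bz m ζ _ _ + Bz m ζ _ _
      rw [EE_add, map_add, LinearMap.add_apply])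
    (by
      intro c u v
      apply Subtype.ext
      change Bz m ζ _ _ = (c : F) * Bz m ζ _ _
      rw [EE_smul, map_smul, LinearMap.smul_apply, smul_eq_mul])
    (by
      intro u v v'
      apply Subtype.ext
      change Bz m ζ _ _ = Bz m ζ _ _ + Bz m ζ _ _
      rw [EE_add, map_add])
    (by
      intro c u v
      apply Subtype.ext
      change Bz m ζ _ _ = (c : F) * Bz m ζ _ _
      rw [EE_smul, map_smul, smul_eq_mul])

lemma Bq_coe (hP : Cfsg.Geo.IsFormRationalStructure (Cfsg.sympForm m F) F₀ ζ P)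
    (u v : Fin m ⊕ Fin m → F₀) : ((Bq hP u v : F₀) : F) = Bz m ζ (EE F₀ P u) (EE F₀ P v) := rfl

lemma ratS (hm : 7 ≤ m) (hζ : ζ ≠ 0)
    (hP : Cfsg.Geo.IsFormRationalStructure (Cfsg.sympForm m F) F₀ ζ P) :
    RatS (Bz m ζ) (Bq hP) (EE F₀ P) := by
  have halt₀ : (Bq hP).IsAlt := by
    intro u
    apply Subtype.ext
    rw [Bq_coe, Bz_isAlt ζ]
    rfl
  have key : ∀ x, (∀ y, Bq hP x y = 0) → x = 0 := by
    intro x hx
    have h0 : EE F₀ P x = 0 := by
      apply (Bz_nondegenerate hζ).1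
      intro y
      have hy : y ∈ Submodule.span F (Set.range (EE F₀ P)) := span_EE F₀ P ▸ Submodule.mem_top
      induction hy using Submodule.span_induction with
      | mem z hz =>
        obtain ⟨z, rfl⟩ := hz
        rw [← Bq_coe hP, hx z]; rfl
      | zero => simp
      | add a b _ _ ha hb => rw [map_add, ha, hb, add_zero]
      | smul a b _ hb => rw [map_smul, hb, smul_zero]
    apply EE_injective F₀ P
    rw [h0]
    unfold EE
    have : (fun i => (((0 : Fin m ⊕ Fin m → F₀) i : F₀) : F)) = 0 := rfl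
    rw [this, Matrix.mulVec_zero]
  refine ⟨Bz_isAlt ζ, Bz_nondegenerate hζ, halt₀, ⟨key, ?_⟩, EE_add F₀ P, EE_smul F₀ P,
    fun x y => (Bq_coe hP x y).symm, span_EE F₀ P, ?_⟩
  · intro y hy
    apply key
    intro x
    rw [alt_swap halt₀, hy x, neg_zero]
  · rw [Module.finrank_fintype_fun_eq_card, Fintype.card_sum, Fintype.card_fin]
    omega

theorem sp_subfield_maximal [Fintype F] (hm : 7 ≤ m) (r : ℕ) (hr : r.Prime)
    (hcard : Fintype.card F = Nat.card F₀ ^ r) (hζ : ζ ≠ 0)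
    (hP : Cfsg.Geo.IsFormRationalStructure (Cfsg.sympForm m F) F₀ ζ P) :
    Cfsg.Geo.IsMaximalIn (Cfsg.spGL m F) (Cfsg.Geo.subfieldSubgroup F₀ P ⊓ Cfsg.spGL m F) := by
  have R := ratS hm hζ hP
  have : Nonempty (Fin m ⊕ Fin m) := ⟨Sum.inl ⟨0, by omega⟩⟩
  refine sp_maximal_of_core m _ (Stab (EE F₀ P)) (mem_subfield_iff_stab F₀ P) ?_ ?_
  · obtain ⟨θ, hθ⟩ := exists_not_mem_subfield F₀ r hr hcard
    obtain ⟨φ, h1, h2⟩ := R.not_stab hθ
    exact ⟨φ, (isIsom_Bz_iff hζ φ).1 h1, h2⟩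
  · intro G hG φ0 hφ0 hφ0I hns φ hφ
    exact R.core (subalgebra_dichotomy F₀ r hr hcard) G
      (fun ψ hψ hs => hG ψ ((isIsom_Bz_iff hζ ψ).1 hψ) hs) φ0 hφ0 ((isIsom_Bz_iff hζ φ0).2 hφ0I) hns φ
      ((isIsom_Bz_iff hζ φ).2 hφ)

end sp

end Cfsg.Agent.Lib.Helper45.SpSub
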