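import Mathlib
import Cfsg.Prelude.Def_GeometricClasses
import Cfsg.Agent.Lib.Helper45.OSubE
import Cfsg.Agent.Lib.Helper45.SpSubWrap
import Cfsg.Agent.Lib.Helper13.OrthWrap

set_option autoImplicit false
set_option linter.unusedSimpArgs false
set_option linter.unusedVariables false
set_option linter.unusedSectionVars false

/-! Wrapper: subfield subgroups of `Ω` are maximal. -/

namespace Cfsg.Agent.Lib.Helper45.OSub

open QuadraticMap Module Matrix
open Cfsg.Agent.Lib.Helper44 Cfsg.Agent.Lib.Helper13.O Cfsg.Agent.Lib.Helper14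
open Cfsg.Agent.Lib.Helper45.SpSub

variable {ι : Type} [Fintype ι] [DecidableEq ι] {F : Type*} [Field F]
variable {F₀ : Subfield F} {P : Matrix.GeneralLinearGroup ι F}

lemma polar_EE_mem (Q : QuadraticForm F (ι → F)) (hP : ∀ u : ι → F₀, Q (EE F₀ P u) ∈ F₀)
    (u v : ι → F₀) : polar Q (EE F₀ P u) (EE F₀ P v) ∈ F₀ := by
  unfold polar
  rw [← EE_add]
  exact F₀.sub_mem (F₀.sub_mem (hP _) (hP _)) (hP _)

/-- the rational quadratic form -/
noncomputable def Qq (Q : QuadraticForm F (ι → F)) (hP : ∀ u : ι → F₀, Q (EE F₀ P u) ∈ F₀) :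
    QuadraticForm F₀ (ι → F₀) where
  toFun u := ⟨Q (EE F₀ P u), hP u⟩
  toFun_smul a u := by
    apply Subtype.ext
    change Q (EE F₀ P (a • u)) = (a : F) * a * Q (EE F₀ P u)
    rw [EE_smul, QuadraticMap.map_smul, smul_eq_mul]
  exists_companion' :=
    ⟨LinearMap.mk₂ F₀ (fun u v => (⟨polar Q (EE F₀ P u) (EE F₀ P v), polar_EE_mem Q hP u v⟩ : F₀))
      (by
        intro u u' v
        apply Subtype.ext
        change polar Q (EE F₀ P (u + u')) _ = polar Q _ _ + polar Q _ _
        rw [EE_add, polar_add_left])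
      (by
        intro a u v
        apply Subtype.ext
        change polar Q (EE F₀ P (a • u)) _ = (a : F) * polar Q _ _
        rw [EE_smul, polar_smul_left, smul_eq_mul])
      (by
        intro u v v'
        apply Subtype.ext
        change polar Q _ (EE F₀ P (v + v')) = polar Q _ _ + polar Q _ _
        rw [EE_add, polar_add_right])
      (by
        intro a u v
        apply Subtype.ext
        change polar Q _ (EE F₀ P (a • v)) = (a : F) * polar Q _ _
        rw [EE_smul, polar_smul_right, smul_eq_mul]),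
      fun u v => by
        apply Subtype.ext
        change Q (EE F₀ P (u + v)) = Q (EE F₀ P u) + Q (EE F₀ P v) + polar Q (EE F₀ P u) (EE F₀ P v)
        rw [EE_add, polar]
        ring⟩

lemma Qq_coe (Q : QuadraticForm F (ι → F)) (hP : ∀ u : ι → F₀, Q (EE F₀ P u) ∈ F₀) (u : ι → F₀) :
    ((Qq Q hP u : F₀) : F) = Q (EE F₀ P u) := rfl

lemma Qq_polar (Q : QuadraticForm F (ι → F)) (hP : ∀ u : ι → F₀, Q (EE F₀ P u) ∈ F₀) (u v : ι → F₀) :
    ((polar (Qq Q hP) u v : F₀) : F) = polar Q (EE F₀ P u) (EE F₀ P v) := by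
  unfold polar
  push_cast
  rw [Qq_coe, Qq_coe, Qq_coe, EE_add]

lemma ratQ (Q : QuadraticForm F (ι → F)) (hQ : (polarBilin Q).Nondegenerate)
    (hι : 13 ≤ Fintype.card ι) (hP : ∀ u : ι → F₀, Q (EE F₀ P u) ∈ F₀) :
    RatQ Q (Qq Q hP) (EE F₀ P) := by
  have hz : ∀ x : ι → F₀, (∀ y, polar (Qq Q hP) x y = 0) → x = 0 := by
    intro x hx
    have h0 : EE F₀ P x = 0 := by
      apply hQ.1
      intro y
      change polar Q (EE F₀ P x) y = 0
      have hy : y ∈ Submodule.span F (Set.range (EE F₀ P)) := (span_EE F₀ P) ▸ Submodule.mem_top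
      induction hy using Submodule.span_induction with
      | mem z hz =>
        obtain ⟨z, rfl⟩ := hz
        rw [← Qq_polar Q hP, hx z]; rfl
      | zero => simp
      | add a b _ _ ha hb => rw [polar_add_right, ha, hb, add_zero]
      | smul a b _ hb => rw [polar_smul_right, hb, smul_zero]
    apply EE_injective F₀ P
    rw [h0]
    have := EE_smul F₀ P 0 0
    simpa using this.symm
  refine ⟨hQ, ⟨fun x hx => hz x hx, fun x hx => hz x (fun y => ?_)⟩, EE_add F₀ P, EE_smul F₀ P,
    fun x => rfl, span_EE F₀ P, by simpa using hι⟩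
  rw [polar_comm]
  exact hx y

lemma OQ_smul (Q : QuadraticForm F (ι → F)) {ζ : F} (hζ : ζ ≠ 0) : OQ (ζ • Q) = OQ Q := by
  ext g
  rw [mem_OQ, mem_OQ]
  constructor
  · intro h v
    have := h v
    simp only [_root_.smul_apply, smul_eq_mul] at this
    exact mul_left_cancel₀ hζ this
  · intro h v
    simp only [_root_.smul_apply, h v]

lemma Om_congr {V : Type*} [AddCommGroup V] [Module F V] {Q Q' : QuadraticForm F V}
    (h : OQ Q = OQ Q') : Om Q = Om Q' := by
  have : ∀ S T : Subgroup (V ≃ₗ[F] V), S = T →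
      (commutator ↥S).map S.subtype = (commutator ↥T).map T.subtype := by
    rintro S _ rfl; rfl
  exact this _ _ h

lemma nondeg_smul (Q : QuadraticForm F (ι → F)) (hQ : (polarBilin Q).Nondegenerate) {ζ : F}
    (hζ : ζ ≠ 0) : (polarBilin (ζ • Q)).Nondegenerate := by
  have hp : ∀ x y, polar (ζ • Q) x y = ζ * polar Q x y := by
    intro x y
    simp only [polar, _root_.smul_apply, smul_eq_mul]
    ring
  constructor
  · intro x hx
    apply hQ.1
    intro y
    have : polar (ζ • Q) x y = 0 := hx y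
    rw [hp] at this
    exact (mul_eq_zero.1 this).resolve_left hζ
  · intro x hx
    apply hQ.2
    intro y
    have : polar (ζ • Q) y x = 0 := hx y
    rw [hp] at this
    exact (mul_eq_zero.1 this).resolve_left hζ

theorem orth_subfield_maximal [Fintype F] (Q : QuadraticForm F (ι → F))
    (hQ : (polarBilin Q).Nondegenerate) (hι : 13 ≤ Fintype.card ι) (r : ℕ) (hr : r.Prime)
    (hcard : Fintype.card F = Nat.card F₀ ^ r) (ζ : F) (hζ : ζ ≠ 0)
    (hP : Cfsg.Geo.IsQuadFormRationalStructure (fun v : ι → F => ζ * Q v) F₀ P) :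
    Cfsg.Geo.IsMaximalIn (Cfsg.Geo.omegaGL ⇑Q) (Cfsg.Geo.subfieldSubgroup F₀ P ⊓ Cfsg.Geo.omegaGL ⇑Q) := by
  have : Nonempty ι := Fintype.card_pos_iff.1 (by omega)
  have := Fintype.ofFinite F₀
  have hP' : ∀ u : ι → F₀, (ζ • Q) (EE F₀ P u) ∈ F₀ := fun u => hP _ (fun i => (u i).2)
  have R := ratQ (ζ • Q) (nondeg_smul Q hQ hζ) hι hP'
  have hOm : Om (ζ • Q) = Om Q := Om_congr (OQ_smul Q hζ)
  have hdim : 12 < finrank F (ι → F) := by simp; omega
  refine omega_maximal_of_core Q _ (Stab (EE F₀ P)) (mem_subfield_iff_stab F₀ P) ?_ ?_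
  · obtain ⟨θ, hθ⟩ := exists_not_mem_subfield F₀ r hr hcard
    obtain ⟨φ, h1, h2⟩ := R.not_stab hdim hθ
    exact ⟨φ, hOm ▸ h1, h2⟩
  · intro G hG hGO φ0 hφ0 hns
    rw [← hOm] at hG hGO ⊢
    exact R.core hdim (subalgebra_dichotomy F₀ r hr hcard) G hG hGO φ0 hφ0 hns

end Cfsg.Agent.Lib.Helper45.OSub
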