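import Mathlib
import Cfsg.Prelude.Def_GeometricClasses
import Cfsg.Agent.Lib.Helper13.Herm
import Cfsg.Agent.Lib.Helper94.Transfer

set_option autoImplicit false

/-! The subfield of index two of a finite field, rational vectors and the subfield subgroup. -/

namespace Cfsg.Agent.Lib.Helper45.SubQ

open Matrix Cfsg.Agent.Lib.Helper13 Cfsg.Agent.Lib.Helper94

variable {F : Type*} [Field F] [Fintype F] {q : ℕ}

lemma card_subfield (hF : Fintype.card F = q ^ 2) (F₀ : Subfield F)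
    (hcard : Fintype.card F = Nat.card F₀ ^ 2) : Nat.card F₀ = q := by
  rw [hF] at hcard
  exact (Nat.pow_left_injective (n := 2) (by norm_num) hcard).symm

/-- the subfield with `q` elements is the set of fixed points of `x ↦ x ^ q` -/
lemma mem_iff_pow (F₀ : Subfield F) (hq : Nat.card F₀ = q) (x : F) : x ∈ F₀ ↔ x ^ q = x := by
  classical
  have hq1 : 1 < q := by
    rw [← hq]; exact Finite.one_lt_card
  have hsub : (F₀ : Set F) ⊆ {x | x ^ q = x} := by
    intro y hy
    have := Fintype.ofFinite F₀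
    have h := FiniteField.pow_card (⟨y, hy⟩ : F₀)
    rw [← Nat.card_eq_fintype_card, hq] at h
    exact congrArg Subtype.val h
  have hne : (Polynomial.X ^ q - Polynomial.X : Polynomial F) ≠ 0 :=
    FiniteField.X_pow_card_sub_X_ne_zero F hq1
  have hset : {x : F | x ^ q = x} = ↑(Polynomial.X ^ q - Polynomial.X : Polynomial F).roots.toFinset := by
    ext y
    simp [Polynomial.mem_roots hne, sub_eq_zero]
  have hle : ({x : F | x ^ q = x}).ncard ≤ (F₀ : Set F).ncard := by
    rw [hset, Set.ncard_coe_finset]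
    calc _ ≤ Multiset.card (Polynomial.X ^ q - Polynomial.X : Polynomial F).roots :=
          Multiset.toFinset_card_le _
      _ ≤ (Polynomial.X ^ q - Polynomial.X : Polynomial F).natDegree := Polynomial.card_roots' _
      _ = q := FiniteField.X_pow_card_sub_X_natDegree_eq F hq1
      _ = (F₀ : Set F).ncard := by rw [← hq]; rfl
  have heq := Set.eq_of_subset_of_ncard_le hsub hle (Set.toFinite _)
  constructor
  · intro h; exact hsub h
  · intro h
    have : x ∈ {x : F | x ^ q = x} := h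
    rw [← heq] at this
    exact this

lemma exists_not_mem (hF : Fintype.card F = q ^ 2) (F₀ : Subfield F) (hq : Nat.card F₀ = q) :
    ∃ θ : F, θ ∉ F₀ := by
  by_contra hcon
  push Not at hcon
  apply frobQ_ne_id hF
  ext x
  rw [frobQ_apply]
  exact (mem_iff_pow F₀ hq x).1 (hcon x)

/-- `F = F₀ ⊕ θ F₀` -/
lemma exists_decomp (hF : Fintype.card F = q ^ 2) (F₀ : Subfield F) (hq : Nat.card F₀ = q) {θ : F}
    (hθ : θ ∉ F₀) (x : F) : ∃ a b : F₀, x = a + θ * b := by
  have hθ' : θ - θ ^ q ≠ 0 := by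
    intro h
    exact hθ ((mem_iff_pow F₀ hq θ).2 (sub_eq_zero.1 h).symm)
  have hθ'' : θ ^ q - θ ≠ 0 := by
    intro h
    exact hθ ((mem_iff_pow F₀ hq θ).2 (sub_eq_zero.1 h))
  have hb : (x - x ^ q) / (θ - θ ^ q) ∈ F₀ := by
    rw [mem_iff_pow F₀ hq, div_pow, sub_pow_q hF, sub_pow_q hF, pow_q_pow_q hF, pow_q_pow_q hF]
    field_simp
    ring
  have ha : x - θ * ((x - x ^ q) / (θ - θ ^ q)) ∈ F₀ := by
    rw [mem_iff_pow F₀ hq, sub_pow_q hF, mul_pow, (mem_iff_pow F₀ hq _).1 hb]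
    field_simp
    ring
  exact ⟨⟨_, ha⟩, ⟨_, hb⟩, by simp⟩

omit [Fintype F] in
lemma decomp_unique (F₀ : Subfield F) {θ : F} (hθ : θ ∉ F₀) {a b a' b' : F₀}
    (h : (a : F) + θ * b = a' + θ * b') : a = a' ∧ b = b' := by
  have hb : b = b' := by
    by_contra hne
    have hne' : ((b : F) - b') ≠ 0 := by
      intro h0
      exact hne (Subtype.ext (sub_eq_zero.1 h0))
    apply hθ
    have : θ = ((a' : F) - a) / ((b : F) - b') := by
      field_simp
      linear_combination h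
    rw [this]
    exact F₀.div_mem (F₀.sub_mem a'.2 a.2) (F₀.sub_mem b.2 b'.2)
  refine ⟨?_, hb⟩
  subst hb
  exact Subtype.ext (add_right_cancel h)

section vectors

variable {n : ℕ}

/-- the rational vector with coordinates `u` with respect to the columns of `P` -/
def E (F₀ : Subfield F) (P : Matrix.GeneralLinearGroup (Fin n) F) (u : Fin n → F₀) : Fin n → F :=
  (P : Matrix (Fin n) (Fin n) F) *ᵥ (fun i => (u i : F))

variable (F₀ : Subfield F) (P : Matrix.GeneralLinearGroup (Fin n) F)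

omit [Fintype F] in
lemma E_add (u v : Fin n → F₀) : E F₀ P (u + v) = E F₀ P u + E F₀ P v := by
  unfold E
  rw [← Matrix.mulVec_add]
  rfl

omit [Fintype F] in
lemma E_smul (a : F₀) (u : Fin n → F₀) : E F₀ P (a • u) = (a : F) • E F₀ P u := by
  unfold E
  rw [← Matrix.mulVec_smul]
  rfl

omit [Fintype F] in
lemma E_zero : E F₀ P 0 = 0 := by
  unfold E
  have : (fun i => (((0 : Fin n → F₀) i : F₀) : F)) = 0 := rfl
  rw [this, Matrix.mulVec_zero]

omit [Fintype F] in
lemma inv_mulVec_E (u : Fin n → F₀) :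
    ((P⁻¹ : Matrix.GeneralLinearGroup (Fin n) F) : Matrix (Fin n) (Fin n) F) *ᵥ E F₀ P u =
      fun i => (u i : F) := by
  unfold E
  rw [Matrix.mulVec_mulVec, ← Units.val_mul, inv_mul_cancel, Units.val_one, Matrix.one_mulVec]

omit [Fintype F] in
lemma E_injective : Function.Injective (E F₀ P) := by
  intro u v h
  have := congrArg (fun x => ((P⁻¹ : Matrix.GeneralLinearGroup (Fin n) F) :
    Matrix (Fin n) (Fin n) F) *ᵥ x) h
  simp only [inv_mulVec_E] at this
  funext i
  exact Subtype.ext (congrFun this i)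

omit [Fintype F] in
lemma E_eq_zero_iff (u : Fin n → F₀) : E F₀ P u = 0 ↔ u = 0 := by
  rw [← E_zero F₀ P]
  exact (E_injective F₀ P).eq_iff

omit [Fintype F] in
lemma E_single (i : Fin n) : E F₀ P (Pi.single i 1) = (P : Matrix (Fin n) (Fin n) F) *ᵥ Pi.single i 1 := by
  unfold E
  congr 1
  funext j
  by_cases h : j = i
  · subst h; simp
  · simp [h]

omit [Fintype F] in
/-- two matrices agreeing on the rational vectors are equal -/
lemma ext_of_E {X Y : Matrix (Fin n) (Fin n) F} (h : ∀ u, X *ᵥ E F₀ P u = Y *ᵥ E F₀ P u) : X = Y := by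
  have h1 : X * (P : Matrix (Fin n) (Fin n) F) = Y * (P : Matrix (Fin n) (Fin n) F) := by
    apply Matrix.toLin'.injective
    apply LinearMap.pi_ext'
    intro i
    apply LinearMap.ext_ring
    have := h (Pi.single i 1)
    rw [E_single, Matrix.mulVec_mulVec, Matrix.mulVec_mulVec] at this
    simp only [LinearMap.comp_apply, LinearMap.single_apply, Matrix.toLin'_apply]
    exact this
  have h2 := congrArg (fun Z => Z * ((P⁻¹ : Matrix.GeneralLinearGroup (Fin n) F) :
    Matrix (Fin n) (Fin n) F)) h1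
  simpa [Matrix.mul_assoc, ← Units.val_mul] using h2

/-- `V = V₀ ⊕ θ V₀` -/
lemma exists_E_decomp (hF : Fintype.card F = q ^ 2) (hq : Nat.card F₀ = q) {θ : F} (hθ : θ ∉ F₀)
    (v : Fin n → F) : ∃ a b : Fin n → F₀, v = E F₀ P a + θ • E F₀ P b := by
  choose a b hab using fun i => exists_decomp hF F₀ hq hθ
    ((((P⁻¹ : Matrix.GeneralLinearGroup (Fin n) F) : Matrix (Fin n) (Fin n) F) *ᵥ v) i)
  refine ⟨a, b, ?_⟩
  unfold E
  rw [← Matrix.mulVec_smul, ← Matrix.mulVec_add]
  have : ((fun i => ((a i : F₀) : F)) + θ • fun i => ((b i : F₀) : F)) =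
      ((P⁻¹ : Matrix.GeneralLinearGroup (Fin n) F) : Matrix (Fin n) (Fin n) F) *ᵥ v := by
    funext i
    rw [hab i]
    rfl
  rw [this, Matrix.mulVec_mulVec, ← Units.val_mul, mul_inv_cancel, Units.val_one, Matrix.one_mulVec]

omit [Fintype F] in
lemma E_decomp_unique {θ : F} (hθ : θ ∉ F₀) {a b a' b' : Fin n → F₀}
    (h : E F₀ P a + θ • E F₀ P b = E F₀ P a' + θ • E F₀ P b') : a = a' ∧ b = b' := by
  have := congrArg (fun x => ((P⁻¹ : Matrix.GeneralLinearGroup (Fin n) F) :
    Matrix (Fin n) (Fin n) F) *ᵥ x) h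
  simp only [Matrix.mulVec_add, Matrix.mulVec_smul, inv_mulVec_E] at this
  have h2 : ∀ i, a i = a' i ∧ b i = b' i := fun i => decomp_unique F₀ hθ (congrFun this i)
  exact ⟨funext fun i => (h2 i).1, funext fun i => (h2 i).2⟩

/-- extension of scalars of a rational linear automorphism -/
noncomputable def Φ : ((Fin n → F₀) ≃ₗ[F₀] (Fin n → F₀)) →* Matrix.GeneralLinearGroup (Fin n) F :=
  (MulAut.conj P).toMonoidHom.comp
    ((Matrix.GeneralLinearGroup.map (F₀.subtype : F₀ →+* F)).comp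
      (glEquiv (Fin n) F₀).symm.toMonoidHom)

omit [Fintype F] in
lemma map_mulVec_coe (A : Matrix (Fin n) (Fin n) F₀) (u : Fin n → F₀) :
    (A.map (F₀.subtype : F₀ →+* F)) *ᵥ (fun i => (u i : F)) = fun i => (((A *ᵥ u) i : F₀) : F) := by
  funext i
  exact ((F₀.subtype : F₀ →+* F).map_mulVec A u i).symm

omit [Fintype F] in
lemma Φ_mulVec (g : (Fin n → F₀) ≃ₗ[F₀] (Fin n → F₀)) (u : Fin n → F₀) :
    ((Φ F₀ P g : Matrix.GeneralLinearGroup (Fin n) F) : Matrix (Fin n) (Fin n) F) *ᵥ E F₀ P u =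
      E F₀ P (g u) := by
  have h1 : ((Φ F₀ P g : Matrix.GeneralLinearGroup (Fin n) F) : Matrix (Fin n) (Fin n) F) =
      (P : Matrix (Fin n) (Fin n) F) *
        (((glEquiv (Fin n) F₀).symm g : Matrix.GeneralLinearGroup (Fin n) F₀) :
          Matrix (Fin n) (Fin n) F₀).map (F₀.subtype : F₀ →+* F) *
        ((P⁻¹ : Matrix.GeneralLinearGroup (Fin n) F) : Matrix (Fin n) (Fin n) F) := rfl
  rw [h1, ← Matrix.mulVec_mulVec, inv_mulVec_E, ← Matrix.mulVec_mulVec, map_mulVec_coe,
    ← glEquiv_apply ((glEquiv (Fin n) F₀).symm g), MulEquiv.apply_symm_apply]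
  rfl

omit [Fintype F] in
lemma Φ_mem (g : (Fin n → F₀) ≃ₗ[F₀] (Fin n → F₀)) : Φ F₀ P g ∈ Cfsg.Geo.subfieldSubgroup F₀ P := by
  unfold Cfsg.Geo.subfieldSubgroup
  exact Subgroup.mem_map_of_mem _ (Subgroup.mem_sup_left ⟨_, rfl⟩)

omit [Fintype F] in
/-- elements of the subfield subgroup map rational vectors to multiples of rational vectors -/
lemma exists_of_mem {g : Matrix.GeneralLinearGroup (Fin n) F} (hg : g ∈ Cfsg.Geo.subfieldSubgroup F₀ P) :
    ∃ c : F, ∀ u, ∃ w, (g : Matrix (Fin n) (Fin n) F) *ᵥ E F₀ P u = c • E F₀ P w := by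
  unfold Cfsg.Geo.subfieldSubgroup at hg
  obtain ⟨g', hg', rfl⟩ := hg
  rw [SetLike.mem_coe, Subgroup.mem_sup_of_normal_right] at hg'
  obtain ⟨y, ⟨A, rfl⟩, z, hz, rfl⟩ := hg'
  rw [Cfsg.Geo.mem_scalars_iff] at hz
  obtain ⟨c, hc⟩ := hz
  refine ⟨c, fun u => ⟨(A : Matrix (Fin n) (Fin n) F₀) *ᵥ u, ?_⟩⟩
  have h1 : (((MulAut.conj P).toMonoidHom
      (Matrix.GeneralLinearGroup.map (F₀.subtype : F₀ →+* F) A * z) :
      Matrix.GeneralLinearGroup (Fin n) F) : Matrix (Fin n) (Fin n) F) =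
      (P : Matrix (Fin n) (Fin n) F) *
        ((A : Matrix (Fin n) (Fin n) F₀).map (F₀.subtype : F₀ →+* F) * (z : Matrix (Fin n) (Fin n) F)) *
        ((P⁻¹ : Matrix.GeneralLinearGroup (Fin n) F) : Matrix (Fin n) (Fin n) F) := rfl
  rw [h1, ← Matrix.mulVec_mulVec, inv_mulVec_E, ← Matrix.mulVec_mulVec, ← Matrix.mulVec_mulVec, hc,
    Matrix.smul_mulVec, Matrix.one_mulVec, Matrix.mulVec_smul, map_mulVec_coe, Matrix.mulVec_smul]
  rfl

omit [Fintype F] in
/-- a scalar multiple of a rational matrix lies in the subfield subgroup -/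
lemma mem_of_entries (g : Matrix.GeneralLinearGroup (Fin n) F) (c : F) (hc : c ≠ 0)
    (h : ∀ i j, ((P⁻¹ * g * P : Matrix.GeneralLinearGroup (Fin n) F) :
      Matrix (Fin n) (Fin n) F) i j / c ∈ F₀) : g ∈ Cfsg.Geo.subfieldSubgroup F₀ P := by
  set A : Matrix.GeneralLinearGroup (Fin n) F := P⁻¹ * g * P with hA
  let A₀ : Matrix (Fin n) (Fin n) F₀ := Matrix.of fun i j => ⟨(A : Matrix (Fin n) (Fin n) F) i j / c, h i j⟩
  have hmap : A₀.map (F₀.subtype : F₀ →+* F) = c⁻¹ • (A : Matrix (Fin n) (Fin n) F) := by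
    ext i j
    simp [A₀, div_eq_inv_mul]
  have hdet : A₀.det ≠ 0 := by
    intro h0
    have h1 := (F₀.subtype : F₀ →+* F).map_det A₀
    rw [h0, map_zero] at h1
    have h2 : (A₀.map (F₀.subtype : F₀ →+* F)).det = 0 := h1.symm
    rw [hmap, Matrix.det_smul] at h2
    rcases mul_eq_zero.1 h2 with h3 | h3
    · exact (pow_ne_zero _ (inv_ne_zero hc)) h3
    · exact (Matrix.GeneralLinearGroup.det A).ne_zero h3
  let z : Matrix.GeneralLinearGroup (Fin n) F :=
    Units.map (Matrix.scalar (Fin n) : F →+* Matrix (Fin n) (Fin n) F).toMonoidHom (Units.mk0 c hc)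
  have hz : z ∈ Cfsg.Geo.scalars (Fin n) F := ⟨Units.mk0 c hc, rfl⟩
  have hzc : (z : Matrix (Fin n) (Fin n) F) = c • (1 : Matrix (Fin n) (Fin n) F) := by
    simp [z, Matrix.smul_one_eq_diagonal]
  unfold Cfsg.Geo.subfieldSubgroup
  refine ⟨Matrix.GeneralLinearGroup.map (F₀.subtype : F₀ →+* F)
    (Matrix.GeneralLinearGroup.mkOfDetNeZero A₀ hdet) * z,
    Subgroup.mul_mem _ (Subgroup.mem_sup_left ⟨_, rfl⟩) (Subgroup.mem_sup_right hz), ?_⟩
  have h2 : Matrix.GeneralLinearGroup.map (F₀.subtype : F₀ →+* F)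
    (Matrix.GeneralLinearGroup.mkOfDetNeZero A₀ hdet) * z = A := by
    apply Units.ext
    rw [Units.val_mul, hzc]
    change A₀.map (F₀.subtype : F₀ →+* F) * _ = _
    rw [hmap, Matrix.mul_smul, Matrix.mul_one, smul_smul, mul_inv_cancel₀ hc, one_smul]
  rw [h2, hA]
  change P * (P⁻¹ * g * P) * P⁻¹ = g
  group

/-- an invertible matrix mapping every rational vector to a multiple of a rational vector lies in
the subfield subgroup -/
lemma mem_of_proj (hF : Fintype.card F = q ^ 2) (hq : Nat.card F₀ = q) (hn : 0 < n)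
    (g : Matrix.GeneralLinearGroup (Fin n) F)
    (h : ∀ u, ∃ (c : F) (w : Fin n → F₀), (g : Matrix (Fin n) (Fin n) F) *ᵥ E F₀ P u = c • E F₀ P w) :
    g ∈ Cfsg.Geo.subfieldSubgroup F₀ P := by
  set A : Matrix.GeneralLinearGroup (Fin n) F := P⁻¹ * g * P with hA
  set AM : Matrix (Fin n) (Fin n) F := (A : Matrix (Fin n) (Fin n) F) with hAM
  have hA1 : ∀ u : Fin n → F₀, ∃ (c : F) (w : Fin n → F₀),
      AM *ᵥ (fun i => (u i : F)) = c • fun i => (w i : F) := by
    intro u
    obtain ⟨c, w, hcw⟩ := h u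
    refine ⟨c, w, ?_⟩
    have h1 : AM = ((P⁻¹ : Matrix.GeneralLinearGroup (Fin n) F) : Matrix (Fin n) (Fin n) F) *
      (g : Matrix (Fin n) (Fin n) F) * (P : Matrix (Fin n) (Fin n) F) := rfl
    rw [h1, ← Matrix.mulVec_mulVec, ← Matrix.mulVec_mulVec]
    change _ *ᵥ ((g : Matrix (Fin n) (Fin n) F) *ᵥ E F₀ P u) = _
    rw [hcw, Matrix.mulVec_smul, inv_mulVec_E]
  have hinj : ∀ x : Fin n → F, AM *ᵥ x = 0 → x = 0 := by
    intro x hx
    have := congrArg (fun y => ((A⁻¹ : Matrix.GeneralLinearGroup (Fin n) F) :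
      Matrix (Fin n) (Fin n) F) *ᵥ y) hx
    simpa [hAM, Matrix.mulVec_mulVec, ← Units.val_mul] using this
  set σ := frobQ hF with hσ
  have hfix : ∀ a : F₀, σ (a : F) = a := fun a => (mem_iff_pow F₀ hq _).1 a.2
  have hbar : ∀ u : Fin n → F₀, (AM.map σ) *ᵥ (fun i => (u i : F)) =
      fun i => σ ((AM *ᵥ (fun i => (u i : F))) i) := by
    intro u
    funext i
    rw [σ.map_mulVec]
    congr 2
    funext j
    exact (hfix (u j)).symm
  -- Claim 1
  have h1 : ∀ u : Fin n → F₀, ∃ ν : F, (AM.map σ) *ᵥ (fun i => (u i : F)) =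
      ν • (AM *ᵥ (fun i => (u i : F))) := by
    intro u
    obtain ⟨c, w, hcw⟩ := hA1 u
    rw [hbar, hcw]
    by_cases hc : c = 0
    · refine ⟨0, ?_⟩
      funext i
      simp [hc]
    · refine ⟨σ c / c, ?_⟩
      funext i
      simp only [Pi.smul_apply, smul_eq_mul, map_mul, hfix]
      field_simp
  choose ν hν using h1
  have hsingle : ∀ i : Fin n, (fun j => (((Pi.single i 1 : Fin n → F₀) j : F₀) : F)) = Pi.single i 1 := by
    intro i
    funext j
    by_cases hji : j = i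
    · subst hji; simp
    · simp [hji]
  -- Claim 2
  have h2 : ∀ i j : Fin n, ν (Pi.single i 1) = ν (Pi.single j 1) := by
    intro i j
    by_cases hij : i = j
    · rw [hij]
    have e1 := hν (Pi.single i 1)
    have e2 := hν (Pi.single j 1)
    have e3 := hν (Pi.single i 1 + Pi.single j 1)
    have hadd : (fun k => (((Pi.single i 1 + Pi.single j 1 : Fin n → F₀) k : F₀) : F)) =
        Pi.single i 1 + Pi.single j 1 := by
      rw [← hsingle i, ← hsingle j]
      rfl
    rw [hsingle] at e1 e2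
    rw [hadd, Matrix.mulVec_add, Matrix.mulVec_add, e1, e2] at e3
    set a := ν (Pi.single i 1)
    set b := ν (Pi.single j 1)
    set c := ν (Pi.single i 1 + Pi.single j 1)
    have h0 : AM *ᵥ ((a - c) • Pi.single i 1 + (b - c) • Pi.single j 1) = 0 := by
      rw [Matrix.mulVec_add, Matrix.mulVec_smul, Matrix.mulVec_smul, sub_smul, sub_smul]
      rw [smul_add] at e3
      have := sub_eq_zero.2 e3
      rw [← this]
      abel
    have h3 := hinj _ h0
    have hi := congrFun h3 i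
    have hj := congrFun h3 j
    simp [hij, Ne.symm hij] at hi hj
    rw [sub_eq_zero] at hi hj
    rw [hi, hj]
  set ν₀ := ν (Pi.single ⟨0, hn⟩ 1) with hν₀
  -- Claim 3
  have h3 : ∀ k i, σ (AM k i) = ν₀ * AM k i := by
    intro k i
    have e1 := hν (Pi.single i 1)
    rw [hsingle, h2 i ⟨0, hn⟩] at e1
    have := congrFun e1 k
    simpa using this
  -- Claim 4
  obtain ⟨k, l, hkl⟩ : ∃ k l, AM k l ≠ 0 := by
    by_contra hcon
    push Not at hcon
    have : (Pi.single ⟨0, hn⟩ 1 : Fin n → F) = 0 := by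
      apply hinj
      funext k
      simp [Matrix.mulVec, dotProduct, hcon]
    have := congrFun this ⟨0, hn⟩
    simp at this
  have hν0 : ν₀ ≠ 0 := by
    intro h0
    have := h3 k l
    rw [h0, zero_mul] at this
    exact hkl ((map_eq_zero σ).1 this)
  refine mem_of_entries F₀ P g (AM k l) hkl ?_
  intro i j
  change AM i j / AM k l ∈ F₀
  rw [mem_iff_pow F₀ hq, div_pow]
  have e1 := h3 i j
  have e2 := h3 k l
  rw [hσ, frobQ_apply] at e1 e2
  rw [e1, e2]
  field_simp

end vectors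

end Cfsg.Agent.Lib.Helper45.SubQ
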