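import Mathlib

set_option autoImplicit false

namespace Cfsg.Agent.Lib.Helper45

open Matrix

variable {ι ι' : Type*} [Fintype ι] [DecidableEq ι] [Fintype ι'] [DecidableEq ι']
variable {F K : Type*} [Field F] [Field K] [Algebra F K]

/-- Transport of matrices over `K` along an `F`-linear identification `K^ι ≃ F^ι'`
(restriction of scalars; with `K = F` this is conjugation by a linear equivalence). -/
noncomputable def descMat (T : (ι → K) ≃ₗ[F] (ι' → F)) : Matrix ι ι K →* Matrix ι' ι' F where
  toFun M := LinearMap.toMatrix'
    (T.toLinearMap ∘ₗ (Matrix.toLin' M).restrictScalars F ∘ₗ T.symm.toLinearMap)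
  map_one' := by
    apply Matrix.toLin'.injective; apply LinearMap.ext; intro x; simp
  map_mul' A B := by
    apply Matrix.toLin'.injective; apply LinearMap.ext; intro x; simp

theorem descMat_mulVec (T : (ι → K) ≃ₗ[F] (ι' → F)) (M : Matrix ι ι K) (x : ι' → F) :
    descMat T M *ᵥ x = T (M *ᵥ T.symm x) := by
  simp [descMat]

theorem descMat_injective (T : (ι → K) ≃ₗ[F] (ι' → F)) : Function.Injective (descMat T) := by
  intro M N h
  apply Matrix.toLin'.injective; apply LinearMap.ext; intro y
  have := congrArg (fun A => A *ᵥ T y) h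
  simpa [descMat_mulVec] using this

end Cfsg.Agent.Lib.Helper45
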