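import Mathlib

set_option autoImplicit false

/-! Toolkit for a quadratic extension `K / F` of finite fields (`finrank F K = 2`), `q = #F`. -/

namespace Cfsg.Agent.Lib.Helper45

variable {F K : Type*} [Field F] [Fintype F] [Field K] [Fintype K] [Algebra F K]

/-- the `q`-power map as an `F`-linear map. -/
noncomputable abbrev conjL (F K : Type*) [Field F] [Fintype F] [Field K] [Algebra F K] : K →ₗ[F] K :=
  (FiniteField.frobeniusAlgHom F K).toLinearMap

omit [Fintype K] in
theorem conjL_apply (x : K) : conjL F K x = x ^ Fintype.card F := rfl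

theorem finrank_eq_two_of_card (hK : Fintype.card K = Fintype.card F ^ 2) :
    Module.finrank F K = 2 := by
  have h := Module.card_eq_pow_finrank (K := F) (V := K)
  rw [hK] at h
  exact (Nat.pow_right_injective (Fintype.one_lt_card (α := F)) h).symm

theorem algebraMap_trace_quad (hfr : Module.finrank F K = 2) (x : K) :
    algebraMap F K (Algebra.trace F K x) = x + x ^ Fintype.card F := by
  rw [FiniteField.algebraMap_trace_eq_sum_pow, hfr, Finset.sum_range_succ, Finset.sum_range_one,
    Nat.card_eq_fintype_card]
  simp

theorem algebraMap_norm_quad (hfr : Module.finrank F K = 2) (x : K) :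
    algebraMap F K (Algebra.norm F x) = x * x ^ Fintype.card F := by
  rw [FiniteField.algebraMap_norm_eq_prod_pow, hfr, Finset.prod_range_succ, Finset.prod_range_one,
    Nat.card_eq_fintype_card]
  simp

omit [Fintype K] in
theorem algebraMap_pow_card (t : F) :
    (algebraMap F K t) ^ Fintype.card F = algebraMap F K t := by
  rw [← map_pow, FiniteField.pow_card]

theorem pow_card_pow_card (hfr : Module.finrank F K = 2) (x : K) :
    (x ^ Fintype.card F) ^ Fintype.card F = x := by
  rw [← pow_mul, ← sq, ← hfr, ← Module.card_eq_pow_finrank, FiniteField.pow_card]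

theorem exists_norm_quad (hfr : Module.finrank F K = 2) (t : F) :
    ∃ c : K, c * c ^ Fintype.card F = algebraMap F K t := by
  obtain ⟨c, hc⟩ := FiniteField.norm_surjective F K t
  exact ⟨c, by rw [← algebraMap_norm_quad hfr, hc]⟩

theorem exists_trace_quad (t : F) : ∃ θ : K, Algebra.trace F K θ = t :=
  Algebra.trace_surjective F K t

theorem exists_trace_zero (hfr : Module.finrank F K = 2) :
    ∃ ε : K, ε ≠ 0 ∧ Algebra.trace F K ε = 0 := by
  have h : LinearMap.ker (Algebra.trace F K) ≠ ⊥ :=
    LinearMap.ker_ne_bot_of_finrank_lt (by rw [hfr, Module.finrank_self]; norm_num)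
  obtain ⟨ε, h1, h2⟩ := Submodule.exists_mem_ne_zero_of_ne_bot h
  exact ⟨ε, h2, h1⟩

/-- trace of a product in dual bases. -/
theorem trace_mul_eq_sum {ι : Type*} [Fintype ι] [DecidableEq ι] (b b' : Module.Basis ι F K)
    (hbb : ∀ s t, Algebra.trace F K (b s * b' t) = if s = t then 1 else 0) (x y : K) :
    Algebra.trace F K (x * y) = ∑ s, b.repr x s * b'.repr y s := by
  conv_lhs => rw [← b.sum_repr x, ← b'.sum_repr y]
  simp only [Finset.sum_mul, Finset.mul_sum, map_sum, smul_mul_smul_comm, map_smul, hbb]
  simp

/-- existence of a pair of trace-dual bases. -/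
theorem exists_dual_bases (hfr : Module.finrank F K = 2) :
    ∃ b b' : Module.Basis (Fin 2) F K,
      ∀ s t, Algebra.trace F K (b s * b' t) = if s = t then 1 else 0 := by
  have : FiniteDimensional F K := Module.finite_of_finrank_pos (by omega)
  let b : Module.Basis (Fin 2) F K := Module.finBasisOfFinrankEq F K hfr
  have hB := traceForm_nondegenerate F K
  refine ⟨b, (Algebra.traceForm F K).dualBasis hB b, fun s t => ?_⟩
  exact LinearMap.BilinForm.apply_dualBasis_right hB (Algebra.traceForm_isSymm F) b s t

end Cfsg.Agent.Lib.Helper45
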