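import Mathlib
import Cfsg.Prelude.Def_KGroupFacts

/-!
# Extensions of a centreless group `T` with `Out T ≅ S₄` by `S₃` are unique
-/

set_option autoImplicit false

namespace Cfsg.Agent.Lib.Helper45.ASU

theorem three_cycle_aux : ∀ (σ : Equiv.Perm (Fin 4)), σ ≠ 1 → σ ^ 3 = 1 →
    ∃ a : Fin 4, σ a = a ∧ ∀ b x : Fin 4, b ≠ a → x ≠ a → x = b ∨ x = σ b ∨ x = σ (σ b) := by
  decide

/-- subgroups of order `6` of `S₄` are point stabilisers -/
theorem exists_stab (H : Subgroup (Equiv.Perm (Fin 4))) (h : Nat.card H = 6) :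
    ∃ a : Fin 4, H = MulAction.stabilizer (Equiv.Perm (Fin 4)) a := by
  classical
  have : Fact (Nat.Prime 3) := ⟨by norm_num⟩
  obtain ⟨σ, hσ⟩ := exists_prime_orderOf_dvd_card' (G := H) 3 (by rw [h]; norm_num)
  have h1 : (σ : Equiv.Perm (Fin 4)) ≠ 1 := by
    intro h1
    have : σ = 1 := Subtype.ext h1
    rw [this, orderOf_one] at hσ
    omega
  have h3 : (σ : Equiv.Perm (Fin 4)) ^ 3 = 1 := by
    have := pow_orderOf_eq_one σ
    rw [hσ] at this
    exact_mod_cast congrArg Subtype.val this
  obtain ⟨a, ha, hab⟩ := three_cycle_aux _ h1 h3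
  have hle : H ≤ MulAction.stabilizer (Equiv.Perm (Fin 4)) a := by
    intro g hg
    rw [MulAction.mem_stabilizer_iff]
    by_contra hga
    have hga' : g a ≠ a := hga
    -- the orbit of `a` under `H` is everything
    have horb : MulAction.orbit H a = Set.univ := by
      rw [Set.eq_univ_iff_forall]
      intro x
      by_cases hx : x = a
      · rw [hx]; exact MulAction.mem_orbit_self a
      · rcases hab (g a) x hga' hx with h | h | h
        · exact ⟨⟨g, hg⟩, h.symm⟩
        · exact ⟨σ * ⟨g, hg⟩, h.symm⟩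
        · exact ⟨σ * σ * ⟨g, hg⟩, h.symm⟩
    have hdvd : Nat.card (MulAction.orbit H a) ∣ Nat.card H := by
      have := MulAction.card_orbit_mul_card_stabilizer_eq_card_group H a
      rw [← Nat.card_eq_fintype_card, ← Nat.card_eq_fintype_card, ← Nat.card_eq_fintype_card] at this
      exact Dvd.intro _ this
    rw [horb, h, Nat.card_congr (Equiv.Set.univ _), Nat.card_eq_fintype_card, Fintype.card_fin] at hdvd
    omega
  refine ⟨a, ?_⟩
  apply Subgroup.eq_of_le_of_card_ge hle
  rw [h]
  have := MulAction.card_orbit_mul_card_stabilizer_eq_card_group (Equiv.Perm (Fin 4)) a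
  rw [← Nat.card_eq_fintype_card, ← Nat.card_eq_fintype_card, ← Nat.card_eq_fintype_card] at this
  have horb : MulAction.orbit (Equiv.Perm (Fin 4)) a = Set.univ := MulAction.orbit_eq_univ _ a
  rw [horb, Nat.card_congr (Equiv.Set.univ _), Nat.card_eq_fintype_card, Fintype.card_fin,
    Nat.card_eq_fintype_card (α := Equiv.Perm (Fin 4)), Fintype.card_perm, Fintype.card_fin] at this
  have h24 : Nat.factorial 4 = 24 := rfl
  omega

theorem conj_of_card_six (H H' : Subgroup (Equiv.Perm (Fin 4))) (h : Nat.card H = 6)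
    (h' : Nat.card H' = 6) :
    ∃ g : Equiv.Perm (Fin 4), H' = H.map (MulAut.conj g).toMonoidHom := by
  obtain ⟨a, rfl⟩ := exists_stab H h
  obtain ⟨b, rfl⟩ := exists_stab H' h'
  obtain ⟨g, hg⟩ := MulAction.exists_smul_eq (Equiv.Perm (Fin 4)) a b
  exact ⟨g, by rw [← hg, MulAction.stabilizer_smul_eq_stabilizer_map_conj]⟩

/-- the action of `G` on a self-centralising normal subgroup `N ≅ T` -/
theorem exists_hom {G T : Type*} [Group G] [Group T] (N : Subgroup G) [N.Normal] (e : N ≃* T)
    (hC : Subgroup.centralizer (N : Set G) ≤ N)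
    (hZ : Function.Injective (MulAut.conj : T →* MulAut T)) :
    ∃ ψ : G →* MulAut T, Function.Injective ψ ∧ Cfsg.Inn T ≤ ψ.range ∧
      ((QuotientGroup.mk' (Cfsg.Inn T)).comp ψ).ker = N := by
  let ψ : G →* MulAut T := (MulAut.congr e).toMonoidHom.comp (MulAut.conjNormal : G →* MulAut N)
  have hψ : ∀ (g : G) (t : T), ψ g t = e (MulAut.conjNormal g (e.symm t)) := fun g t => rfl
  have hψN : ∀ n : N, ψ (n : G) = MulAut.conj (e n) := by
    intro n
    ext t
    rw [hψ, MulAut.conj_apply]
    have : MulAut.conjNormal (n : G) (e.symm t) = n * e.symm t * n⁻¹ := by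
      apply Subtype.ext
      simp [MulAut.conjNormal_apply]
    rw [this]
    simp
  have hinj : Function.Injective ψ := by
    rw [injective_iff_map_eq_one]
    intro g hg
    have hgc : g ∈ Subgroup.centralizer (N : Set G) := by
      rw [Subgroup.mem_centralizer_iff]
      intro n hn
      have h1 := hψ g (e ⟨n, hn⟩)
      rw [hg, MulAut.one_apply, e.symm_apply_apply] at h1
      have h2 := congrArg Subtype.val (e.injective h1)
      rw [MulAut.conjNormal_apply] at h2
      simp only at h2
      calc n * g = g * n * g⁻¹ * g := by rw [← h2]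
        _ = g * n := by group
    have hgN := hC hgc
    have h1 := hψN ⟨g, hgN⟩
    simp only at h1
    rw [hg] at h1
    have h2 : e ⟨g, hgN⟩ = 1 := hZ (by rw [← h1, map_one])
    have h3 : (⟨g, hgN⟩ : N) = 1 := e.injective (by rw [h2, map_one])
    exact congrArg Subtype.val h3
  refine ⟨ψ, hinj, ?_, ?_⟩
  · rintro _ ⟨t, rfl⟩
    exact ⟨(e.symm t : G), by rw [hψN, e.apply_symm_apply]⟩
  · ext g
    rw [MonoidHom.mem_ker, MonoidHom.comp_apply, QuotientGroup.mk'_apply, QuotientGroup.eq_one_iff]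
    constructor
    · rintro ⟨t, ht⟩
      have : ψ g = ψ (e.symm t : G) := by rw [hψN, e.apply_symm_apply, ht]
      rw [hinj this]
      exact (e.symm t).2
    · intro hg
      exact ⟨e ⟨g, hg⟩, (hψN ⟨g, hg⟩).symm⟩

theorem range_eq_comap {X T : Type*} [Group X] [Group T] (φ : X →* MulAut T)
    (hφ : Cfsg.Inn T ≤ φ.range) :
    φ.range = ((QuotientGroup.mk' (Cfsg.Inn T)).comp φ).range.comap
      (QuotientGroup.mk' (Cfsg.Inn T)) := by
  rw [MonoidHom.range_comp, Subgroup.comap_map_eq_self]
  rw [QuotientGroup.ker_mk']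
  exact hφ

theorem iso_of_out_s4 {G G' T : Type*} [Group G] [Group G'] [Group T]
    (N : Subgroup G) [N.Normal] (N' : Subgroup G') [N'.Normal] (e : N ≃* T) (e' : N' ≃* T)
    (hC : Subgroup.centralizer (N : Set G) ≤ N) (hC' : Subgroup.centralizer (N' : Set G') ≤ N')
    (hZ : Function.Injective (MulAut.conj : T →* MulAut T))
    (o : Cfsg.Out T ≃* Equiv.Perm (Fin 4)) (h6 : N.index = 6) (h6' : N'.index = 6) :
    Nonempty (G ≃* G') := by
  obtain ⟨ψ, hi, hI, hk⟩ := exists_hom N e hC hZ
  obtain ⟨ψ', hi', hI', hk'⟩ := exists_hom N' e' hC' hZ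
  set π := QuotientGroup.mk' (Cfsg.Inn T) with hπ
  have hc : Nat.card ((π.comp ψ).range.map o.toMonoidHom) = 6 := by
    rw [Subgroup.card_map_of_injective o.injective, ← Subgroup.index_ker, hk, h6]
  have hc' : Nat.card ((π.comp ψ').range.map o.toMonoidHom) = 6 := by
    rw [Subgroup.card_map_of_injective o.injective, ← Subgroup.index_ker, hk', h6']
  obtain ⟨g, hg⟩ := conj_of_card_six _ _ hc hc'
  obtain ⟨a, ha⟩ := QuotientGroup.mk'_surjective (Cfsg.Inn T) (o.symm g)
  have hmain : ψ'.range = ψ.range.map (MulAut.conj a).toMonoidHom := by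
    ext β
    rw [range_eq_comap ψ' hI', Subgroup.mem_comap]
    have h1 : π β ∈ (π.comp ψ').range ↔ o (π β) ∈ (π.comp ψ').range.map o.toMonoidHom := by
      constructor
      · intro h
        exact ⟨_, h, rfl⟩
      · rintro ⟨y, hy, hyy⟩
        have : y = π β := o.injective hyy
        rwa [← this]
    rw [h1, hg]
    constructor
    · rintro ⟨_, ⟨y, hy, rfl⟩, hyy⟩
      refine ⟨a⁻¹ * β * a, ?_, ?_⟩
      · show a⁻¹ * β * a ∈ ψ.range
        rw [range_eq_comap ψ hI, Subgroup.mem_comap]
        have : π (a⁻¹ * β * a) = y := by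
          apply o.injective
          have h2 : o (π a) = g := by rw [ha, o.apply_symm_apply]
          have h3 : g * o y * g⁻¹ = o (π β) := hyy
          simp only [map_mul, map_inv]
          rw [h2, ← h3]
          group
        rw [this]
        exact hy
      · simp [MulAut.conj_apply, mul_assoc]
    · rintro ⟨γ, hγ, rfl⟩
      have hγ : γ ∈ ψ.range := hγ
      rw [range_eq_comap ψ hI, Subgroup.mem_comap] at hγ
      refine ⟨o (π γ), ⟨_, hγ, rfl⟩, ?_⟩
      have h2 : o (π a) = g := by rw [ha, o.apply_symm_apply]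
      show g * o (π γ) * g⁻¹ = o (π (a * γ * a⁻¹))
      simp only [map_mul, map_inv]
      rw [h2]
  have e1 : G ≃* ψ.range := MonoidHom.ofInjective hi
  have e2 : G' ≃* ψ'.range := MonoidHom.ofInjective hi'
  have e3 : ψ.range ≃* ψ.range.map (MulAut.conj a).toMonoidHom :=
    Subgroup.equivMapOfInjective _ _ (MulAut.conj a).injective
  exact ⟨(e1.trans e3).trans ((MulEquiv.subgroupCongr hmain.symm).trans e2.symm)⟩

end Cfsg.Agent.Lib.Helper45.ASU
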