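import Cfsg.Agent.Lib.Helper36.ChevOut6
import Cfsg.Agent.Lib.Helper36.ChevOut5
import Cfsg.Agent.Lib.Helper45.OutAbs
import Cfsg.Agent.S1035

/-!
# The outer automorphism group of `D₄(q)`, part A: standard graph automorphisms, squares
-/

set_option autoImplicit false

namespace Cfsg.Agent.Lib.Helper45.D4Out

open Cfsg.Lie Cfsg.Agent.Lib.Helper36 Cfsg.Agent.Lib.Helper18 Cfsg.Agent.Lib.Helper17
  Cfsg.Agent.Lib.Helper6 Matrix

variable {F : Type*} [Field F]

theorem hT4 : Tab chevD4 := (tabs2_of_mem hD4).tab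

/-- a standard graph automorphism with permutation `π` -/
def Std (hB : Base chevD4 F) (γ : MulAut ↥(chevD4.group F)) (π : Equiv.Perm (Fin chevD4.rank)) :
    Prop :=
  ∀ (i : Fin chevD4.rank) (t : F),
    γ (xG hB (chevD4.simple i) t) = xG hB (chevD4.simple (π i)) t ∧
    γ (xG hB (chevD4.neg (chevD4.simple i)) t) = xG hB (chevD4.neg (chevD4.simple (π i))) t

variable {hB : Base chevD4 F} {γ γ' : MulAut ↥(chevD4.group F)}
  {π π' : Equiv.Perm (Fin chevD4.rank)}

theorem Std.mul (h : Std hB γ π) (h' : Std hB γ' π') : Std hB (γ * γ') (π * π') := by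
  intro i t
  rw [MulAut.mul_apply, MulAut.mul_apply, (h' i t).1, (h' i t).2, (h _ t).1, (h _ t).2]
  exact ⟨rfl, rfl⟩

theorem Std.inv (h : Std hB γ π) : Std hB γ⁻¹ π⁻¹ := by
  intro i t
  have h1 := h (π⁻¹ i) t
  have e : π (π⁻¹ i) = i := Equiv.apply_symm_apply π i
  rw [e] at h1
  constructor
  · rw [← h1.1]; exact MulAut.inv_apply_self _ γ _
  · rw [← h1.2]; exact MulAut.inv_apply_self _ γ _

theorem Std.one : Std hB 1 1 := fun _ _ => ⟨rfl, rfl⟩

theorem Std.eq_one (h : Std hB γ 1) : γ = 1 :=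
  aut_ext hB hT4 γ 1 (fun i t => h i t)

theorem Std.perm [Finite F] (h : Std hB γ π) : permOfAut hD4 γ = π :=
  permOfAut_eq hD4 hB (permRel_of_std hB (fun i t => ⟨⟨t, (h i t).1⟩, ⟨t, (h i t).2⟩⟩))

theorem Std.comm_field (h : Std hB γ π) (σ : F ≃+* F) :
    γ * (fieldEquiv hB σ : MulAut ↥(chevD4.group F)) = fieldEquiv hB σ * γ := by
  apply aut_ext hB hT4
  intro i t
  rw [MulAut.mul_apply, MulAut.mul_apply, MulAut.mul_apply, MulAut.mul_apply, fieldEquiv_xG,
    fieldEquiv_xG, (h i _).1, (h i _).2, (h i t).1, (h i t).2, fieldEquiv_xG, fieldEquiv_xG]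
  exact ⟨rfl, rfl⟩

theorem Std.mul_diag (h : Std hB γ π) (c : Fin chevD4.rank → Fˣ) :
    γ * diagOf hD4 c = diagOf hD4 (fun j => c (π.symm j)) * γ := by
  have := graph_mul_diag hD4 hB γ π (fun _ => 1) (by
    intro i t
    simp only [pow_one]
    exact h i t) c
  simpa only [pow_one] using this

/-- the group of standard graph automorphisms -/
def Gr (hB : Base chevD4 F) : Subgroup (MulAut ↥(chevD4.group F)) where
  carrier := {γ | ∃ π, Std hB γ π}
  mul_mem' := by
    rintro a b ⟨π, h⟩ ⟨π', h'⟩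
    exact ⟨_, h.mul h'⟩
  one_mem' := ⟨1, Std.one⟩
  inv_mem' := by
    rintro a ⟨π, h⟩
    exact ⟨_, h.inv⟩

theorem isLong_D4 : ∀ j : Fin chevD4.rank, chevD4.isLong (chevD4.simple j) = false := by
  decide +kernel

theorem graphExp_D4 (c : ℕ) (i j : Fin chevD4.rank) : chevD4.graphExp c i j = 1 := by
  rw [graphExp_def, isLong_D4 j]; rfl

theorem exists_decomp [Finite F] (hB : Base chevD4 F) (θ : MulAut ↥(chevD4.group F)) :
    ∃ (x : ↥(chevD4.group F)) (c : Fin chevD4.rank → Fˣ) (σ : F ≃+* F)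
      (γ : MulAut ↥(chevD4.group F)) (π : Equiv.Perm (Fin chevD4.rank)),
      chevD4.IsDiagramSymmetry π ∧ Std hB γ π ∧
      θ = MulAut.conj x * diagOf hD4 c * γ * fieldEquiv hB σ := by
  obtain ⟨x, c, σ, γ, h1, h2, h3⟩ := exists_decomp_mul hD4 hB θ
  refine ⟨x, c, σ, γ, _, h1, ?_, h3⟩
  intro i t
  have := h2 i t
  rw [graphExp_D4, pow_one] at this
  exact this

/-! ### the Cartan matrix -/

/-- the Cartan matrix -/
def cA : Matrix (Fin chevD4.rank) (Fin chevD4.rank) ℤ :=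
  Matrix.of fun i j : Fin chevD4.rank => chevD4.cartan i (chevD4.simple j)

/-- twice the inverse of the Cartan matrix -/
def cB : Matrix (Fin chevD4.rank) (Fin chevD4.rank) ℤ :=
  Matrix.of fun i j : Fin chevD4.rank =>
    (([[2, 2, 1, 1], [2, 4, 2, 2], [1, 2, 2, 1], [1, 2, 1, 2]] : List (List ℤ)).getD i []).getD j 0

theorem cB_mul_cA : cB * cA = Matrix.diagonal (fun _ => 2) := by
  ext i j
  rw [Matrix.mul_apply, Matrix.diagonal_apply]
  revert i j
  decide +kernel

theorem cA_even : ∀ a b i : Fin chevD4.rank, (a : ℕ) ≠ 1 → (b : ℕ) ≠ 1 →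
    (cA i a + cA i b) % 2 = 0 := by
  decide +kernel

theorem sym_fix : ∀ π : Equiv.Perm (Fin chevD4.rank), chevD4.IsDiagramSymmetry π →
    ∀ j : Fin chevD4.rank, (j : ℕ) ≠ 1 → ((π j : Fin chevD4.rank) : ℕ) ≠ 1 := by
  unfold ChevalleyDatum.IsDiagramSymmetry
  decide +kernel

theorem exists_third : ∀ a b : Fin chevD4.rank, ∃ k : Fin chevD4.rank, (k : ℕ) ≠ 1 ∧ k ≠ a ∧ k ≠ b := by
  decide +kernel

theorem sq_mem_range {G : Type*} [CommGroup G] (b : Fin chevD4.rank → G) :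
    b * b ∈ (muMap (G := G) cA).range := by
  refine ⟨muMap cB b, ?_⟩
  rw [← muMap_mul, cB_mul_cA]
  funext j
  rw [muMap_diagonal]
  show b j ^ (2 : ℤ) = b j * b j
  rw [zpow_ofNat, pow_two]

theorem isSquare_of_mem_range {G : Type*} [CommGroup G] {c : Fin chevD4.rank → G}
    (hc : c ∈ (muMap (G := G) cA).range) (a b : Fin chevD4.rank) (ha : (a : ℕ) ≠ 1)
    (hb : (b : ℕ) ≠ 1) : IsSquare (c a * c b) := by
  obtain ⟨z, rfl⟩ := hc
  rw [muMap_apply, muMap_apply, ← Finset.prod_mul_distrib]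
  apply Finset.prod_induction _ IsSquare (fun _ _ => IsSquare.mul) IsSquare.one
  intro i _
  obtain ⟨k, hk⟩ := Int.even_iff.2 (cA_even a b i ha hb)
  exact ⟨z i ^ k, by rw [← _root_.zpow_add, ← _root_.zpow_add, hk]⟩

/-! ### squares in finite fields -/

theorem exists_sq_of_ringEquiv [Finite F] (σ : F ≃+* F) (x : Fˣ) :
    ∃ w : Fˣ, Units.map (σ : F →* F) x = x * (w * w) := by
  classical
  have := Fintype.ofFinite F
  have key : IsSquare (σ (x : F) * (x : F)) := by
    by_cases h2 : ringChar F = 2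
    · exact FiniteField.isSquare_of_char_two h2 _
    · by_cases hx : IsSquare (x : F)
      · obtain ⟨w, hw⟩ := hx
        exact ⟨σ w * w, by rw [hw, map_mul]; ring⟩
      · have hσx : ¬ IsSquare (σ (x : F)) := by
          rintro ⟨w, hw⟩
          apply hx
          refine ⟨σ.symm w, ?_⟩
          rw [← map_mul, ← hw, RingEquiv.symm_apply_apply]
        have h1 := quadraticChar_neg_one_iff_not_isSquare.2 hx
        have h3 := quadraticChar_neg_one_iff_not_isSquare.2 hσx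
        have hne : σ (x : F) * (x : F) ≠ 0 :=
          mul_ne_zero (by simp) x.ne_zero
        rw [← quadraticChar_one_iff_isSquare hne, map_mul, h1, h3]
        norm_num
  obtain ⟨w, hw⟩ := key
  have hw0 : w ≠ 0 := by
    rintro rfl
    have : σ (x : F) * (x : F) ≠ 0 := mul_ne_zero (by simp) x.ne_zero
    exact this (by rw [hw]; ring)
  refine ⟨Units.mk0 w hw0 * x⁻¹, ?_⟩
  apply Units.ext
  simp only [Units.coe_map, MonoidHom.coe_coe, Units.val_mul, Units.val_mk0,
    Units.val_inv_eq_inv_val]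
  have hx0 : (x : F) ≠ 0 := x.ne_zero
  field_simp
  linear_combination hw

theorem exists_sq_of_char_two [Finite F] (h2 : ringChar F = 2) (x : Fˣ) : ∃ w : Fˣ, x = w * w := by
  have := Fintype.ofFinite F
  obtain ⟨w, hw⟩ := FiniteField.isSquare_of_char_two h2 (x : F)
  have hw0 : w ≠ 0 := by
    rintro rfl
    exact x.ne_zero (by rw [hw]; ring)
  exact ⟨Units.mk0 w hw0, Units.ext hw⟩

theorem exists_nonsquare_unit [Finite F] (h2 : ringChar F ≠ 2) : ∃ ν : Fˣ, ¬ IsSquare ν := by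
  have := Fintype.ofFinite F
  obtain ⟨a, ha⟩ := FiniteField.exists_nonsquare h2
  have ha0 : a ≠ 0 := by
    rintro rfl
    exact ha ⟨0, by ring⟩
  refine ⟨Units.mk0 a ha0, ?_⟩
  rintro ⟨w, hw⟩
  exact ha ⟨w, by have := congrArg Units.val hw; simpa using this⟩

end Cfsg.Agent.Lib.Helper45.D4Out
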