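import Cfsg.Agent.Lib.Helper45.D4OutA

/-!
# The outer automorphism group of `D₄(q)`, part B: the structure
-/

set_option autoImplicit false

namespace Cfsg.Agent.Lib.Helper45.D4Out

open Cfsg.Lie Cfsg.Agent.Lib.Helper36 Cfsg.Agent.Lib.Helper18 Cfsg.Agent.Lib.Helper17
  Cfsg.Agent.Lib.Helper6 Matrix

variable {F : Type*} [Field F]

/-- the quotient map onto the outer automorphism group -/
noncomputable abbrev mkO (F : Type*) [Field F] :
    MulAut ↥(chevD4.group F) →* Cfsg.Out ↥(chevD4.group F) :=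
  QuotientGroup.mk' (Cfsg.Inn ↥(chevD4.group F))

/-- the image of the standard graph automorphisms -/
noncomputable def GrO (F : Type*) [Field F] : Subgroup (Cfsg.Out ↥(chevD4.group F)) :=
  (Gr (base_of_mem F hD4)).map (mkO F)

variable [Finite F]

theorem out_decomp (o : Cfsg.Out ↥(chevD4.group F)) :
    ∃ (c : Fin chevD4.rank → Fˣ) (σ : F ≃+* F) (γ : MulAut ↥(chevD4.group F))
      (π : Equiv.Perm (Fin chevD4.rank)), chevD4.IsDiagramSymmetry π ∧
      Std (base_of_mem F hD4) γ π ∧ o = diagOut hD4 c * mkO F γ * fieldOut hD4 σ := by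
  obtain ⟨θ, rfl⟩ := QuotientGroup.mk'_surjective _ o
  obtain ⟨x, c, σ, γ, π, h1, h2, h3⟩ := exists_decomp (base_of_mem F hD4) θ
  refine ⟨c, σ, γ, π, h1, h2, ?_⟩
  rw [h3, map_mul, map_mul, map_mul, mk_conj, one_mul]
  rfl

theorem diagOut_sq (b : Fin chevD4.rank → Fˣ) : diagOut (F := F) hD4 (b * b) = 1 := by
  have : b * b ∈ (diagOut (F := F) hD4).ker := by
    rw [ker_diagOut]; exact sq_mem_range b
  exact this

theorem field_comm_diag (σ : F ≃+* F) (c : Fin chevD4.rank → Fˣ) :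
    fieldOut hD4 σ * diagOut hD4 c = diagOut hD4 c * fieldOut hD4 σ := by
  have h1 := field_mul_diag hD4 (base_of_mem F hD4) σ c
  have h2 := congrArg (mkO F) h1
  rw [map_mul, map_mul] at h2
  choose w hw using fun i => exists_sq_of_ringEquiv σ (c i)
  have h3 : (fun i => Units.map (σ : F →* F) (c i)) = c * (w * w) := funext hw
  rw [h3] at h2
  have h4 : mkO F (diagOf hD4 (c * (w * w))) = diagOut hD4 c := by
    show diagOut hD4 (c * (w * w)) = _
    rw [map_mul, diagOut_sq, mul_one]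
  rw [h4] at h2
  exact h2

theorem field_comm_graph (σ : F ≃+* F) {γ : MulAut ↥(chevD4.group F)}
    {π : Equiv.Perm (Fin chevD4.rank)} (h : Std (base_of_mem F hD4) γ π) :
    fieldOut hD4 σ * mkO F γ = mkO F γ * fieldOut hD4 σ := by
  have h2 := congrArg (mkO F) (h.comm_field σ)
  rw [map_mul, map_mul] at h2
  exact h2.symm

theorem field_comm_field (σ τ : F ≃+* F) :
    fieldOut (D := chevD4) hD4 σ * fieldOut hD4 τ = fieldOut hD4 τ * fieldOut hD4 σ := by
  have := Cfsg.Agent.Lib.Helper43.PA.isCyclic_ringAut (F := F)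
  rw [← map_mul, ← map_mul, (IsCyclic.commGroup (α := F ≃+* F)).mul_comm σ τ]

theorem field_central (σ : F ≃+* F) (o : Cfsg.Out ↥(chevD4.group F)) :
    fieldOut hD4 σ * o = o * fieldOut hD4 σ := by
  obtain ⟨c, τ, γ, π, -, h2, rfl⟩ := out_decomp o
  calc fieldOut hD4 σ * (diagOut hD4 c * mkO F γ * fieldOut hD4 τ)
      = (fieldOut hD4 σ * diagOut hD4 c) * mkO F γ * fieldOut hD4 τ := by group
    _ = diagOut hD4 c * (fieldOut hD4 σ * mkO F γ) * fieldOut hD4 τ := by
        rw [field_comm_diag]; group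
    _ = diagOut hD4 c * mkO F γ * (fieldOut hD4 σ * fieldOut hD4 τ) := by
        rw [field_comm_graph σ h2]; group
    _ = diagOut hD4 c * mkO F γ * fieldOut hD4 τ * fieldOut hD4 σ := by
        rw [field_comm_field]; group

theorem permOut_mkO {γ : MulAut ↥(chevD4.group F)} {π : Equiv.Perm (Fin chevD4.rank)}
    (h : Std (base_of_mem F hD4) γ π) : permOut hD4 (mkO F γ) = π := by
  rw [permOut_mk]; exact h.perm

theorem eq_one_of_mem_GrO {g : Cfsg.Out ↥(chevD4.group F)} (hg : g ∈ GrO F)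
    (h : permOut hD4 g = 1) : g = 1 := by
  obtain ⟨γ, ⟨π, hγ⟩, rfl⟩ := hg
  rw [permOut_mkO hγ] at h
  subst h
  rw [hγ.eq_one, map_one]

theorem fieldOut_injective : Function.Injective (fieldOut (F := F) hD4) := by
  intro σ τ h
  apply fieldOut_eq_of_mul_eq hD4 (c := 1) (c' := 1)
  rw [h]

theorem uniq (d g φ : Cfsg.Out ↥(chevD4.group F)) (hd : d ∈ (diagOut (F := F) hD4).range)
    (hg : g ∈ GrO F) (hφ : φ ∈ (fieldOut (F := F) hD4).range) (h : d * g * φ = 1) :
    d = 1 ∧ g = 1 ∧ φ = 1 := by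
  obtain ⟨c, rfl⟩ := hd
  obtain ⟨σ, rfl⟩ := hφ
  have h1 := congrArg (permOut hD4) h
  rw [map_mul, map_mul, permOut_diagOut, permOut_fieldOut, one_mul, mul_one, map_one] at h1
  have hg1 := eq_one_of_mem_GrO hg h1
  subst hg1
  rw [mul_one] at h
  have h2 : σ = 1 := by
    apply fieldOut_eq_of_mul_eq hD4 (c := c) (c' := 1)
    rw [h, map_one, map_one, one_mul]
  subst h2
  rw [map_one, mul_one] at h
  exact ⟨h, rfl, map_one _⟩

theorem gen (o : Cfsg.Out ↥(chevD4.group F)) :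
    ∃ d ∈ (diagOut (F := F) hD4).range, ∃ g ∈ GrO F, ∃ φ ∈ (fieldOut (F := F) hD4).range,
      o = d * g * φ := by
  obtain ⟨c, τ, γ, π, -, h2, rfl⟩ := out_decomp o
  exact ⟨_, ⟨c, rfl⟩, _, ⟨γ, ⟨π, h2⟩, rfl⟩, _, ⟨τ, rfl⟩, rfl⟩

theorem card_GrO : Nat.card (GrO F) = 6 := by
  rw [← card_range_D4 (F := F)]
  refine Nat.card_congr (Equiv.ofBijective
    (fun g : GrO F => (⟨permOut hD4 (g : Cfsg.Out ↥(chevD4.group F)), ⟨_, rfl⟩⟩ :
      (permOut (F := F) hD4).range)) ⟨?_, ?_⟩)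
  · rintro ⟨g, hg⟩ ⟨g', hg'⟩ h
    have h1 : permOut hD4 g = permOut hD4 g' := congrArg Subtype.val h
    have h2 : g * g'⁻¹ = 1 := by
      apply eq_one_of_mem_GrO ((GrO F).mul_mem hg ((GrO F).inv_mem hg'))
      rw [map_mul, map_inv, h1, mul_inv_cancel]
    exact Subtype.ext (mul_inv_eq_one.1 h2)
  · rintro ⟨_, ⟨o, rfl⟩⟩
    obtain ⟨c, τ, γ, π, -, h2, rfl⟩ := out_decomp o
    refine ⟨⟨mkO F γ, ⟨γ, ⟨π, h2⟩, rfl⟩⟩, ?_⟩
    apply Subtype.ext
    show permOut hD4 (mkO F γ) = permOut hD4 (diagOut hD4 c * mkO F γ * fieldOut hD4 τ)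
    rw [map_mul, map_mul, permOut_diagOut, permOut_fieldOut, one_mul, mul_one]

theorem exists_mem_GrO {π : Equiv.Perm (Fin chevD4.rank)} (h : π ∈ (permOut (F := F) hD4).range) :
    ∃ g ∈ GrO F, permOut hD4 g = π := by
  obtain ⟨o, rfl⟩ := h
  obtain ⟨c, τ, γ, π, -, h2, rfl⟩ := out_decomp o
  refine ⟨mkO F γ, ⟨γ, ⟨π, h2⟩, rfl⟩, ?_⟩
  rw [map_mul, map_mul, permOut_diagOut, permOut_fieldOut, one_mul, mul_one]

theorem card_diag [Fintype F] :
    Nat.card (diagOut (F := F) hD4).range = Nat.gcd 2 (Fintype.card F - 1) ^ 2 := by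
  have h1 := card_range_diagOut (F := F) hD4
  have h2 := Cfsg.Agent.S1035.result (F := F) rfl (chevD4, Nat.gcd 2 (Fintype.card F - 1) ^ 2)
    (by simp)
  simp only at h2
  rw [← h2] at h1
  have hpos : 0 < Nat.card (chevD4.diagonalSubgroup F) := Nat.card_pos
  exact Nat.eq_of_mul_eq_mul_right hpos h1

theorem faithful (h2 : ringChar F ≠ 2) (g : Cfsg.Out ↥(chevD4.group F)) (hg : g ∈ GrO F)
    (h : ∀ d ∈ (diagOut (F := F) hD4).range, g * d = d * g) : g = 1 := by
  classical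
  apply eq_one_of_mem_GrO hg
  obtain ⟨γ, ⟨π, hγ⟩, rfl⟩ := hg
  rw [permOut_mkO hγ]
  by_contra hπ
  have hsym : chevD4.IsDiagramSymmetry π := by
    obtain ⟨x, c, σ, γ', h1, -, -⟩ := exists_decomp_mul hD4 (base_of_mem F hD4) γ
    rw [hγ.perm] at h1
    exact h1
  obtain ⟨j, hj⟩ : ∃ j, π j ≠ j := by
    by_contra hh
    apply hπ
    apply Equiv.ext
    intro j
    by_contra hj
    exact hh ⟨j, hj⟩
  have hj1 : (j : ℕ) ≠ 1 := by
    intro hj1
    -- if `j` is the central node then `π j` is not, so `π⁻¹` moves a non-central node to the centre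
    by_cases hπj : ((π j : Fin chevD4.rank) : ℕ) = 1
    · exact hj (Fin.ext (hπj.trans hj1.symm))
    · have hsym' : chevD4.IsDiagramSymmetry π⁻¹ := by
        intro a b hab
        have := hsym (π⁻¹ a) (π⁻¹ b) (fun hh => hab (π⁻¹.injective hh))
        have ea : π (π⁻¹ a) = a := Equiv.apply_symm_apply π a
        have eb : π (π⁻¹ b) = b := Equiv.apply_symm_apply π b
        rw [ea, eb] at this
        exact this.symm
      have := sym_fix π⁻¹ hsym' (π j) hπj
      have ej : π⁻¹ (π j) = j := Equiv.symm_apply_apply π j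
      rw [ej] at this
      exact this hj1
  have hπj1 : ((π j : Fin chevD4.rank) : ℕ) ≠ 1 := sym_fix π hsym j hj1
  obtain ⟨k, hk1, hkj, hkπ⟩ := exists_third j (π j)
  obtain ⟨ν, hν⟩ := exists_nonsquare_unit (F := F) h2
  set c : Fin chevD4.rank → Fˣ := Pi.mulSingle j ν with hc
  have h3 := h (diagOut hD4 c) ⟨c, rfl⟩
  have h4 := congrArg (mkO F) (hγ.mul_diag c)
  rw [map_mul, map_mul] at h4
  have h5 : diagOut hD4 (fun i => c (π.symm i)) * mkO F γ = diagOut hD4 c * mkO F γ :=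
    h4.symm.trans h3
  have h6 : diagOut hD4 (fun i => c (π.symm i)) = diagOut hD4 c := mul_right_cancel h5
  have h7 : (fun i => c (π.symm i)) * c⁻¹ ∈ (diagOut (F := F) hD4).ker := by
    rw [MonoidHom.mem_ker, map_mul, map_inv, h6, mul_inv_cancel]
  rw [ker_diagOut] at h7
  have h8 := isSquare_of_mem_range h7 j k hj1 hk1
  have e1 : c (π.symm j) = 1 := by
    rw [hc, Pi.mulSingle_eq_of_ne]
    intro hh
    apply hj
    rw [← hh, Equiv.apply_symm_apply, hh]
  have e2 : c (π.symm k) = 1 := by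
    rw [hc, Pi.mulSingle_eq_of_ne]
    intro hh
    apply hkπ
    rw [← hh, Equiv.apply_symm_apply]
  have e3 : c k = 1 := by rw [hc, Pi.mulSingle_eq_of_ne hkj]
  have e4 : c j = ν := by rw [hc, Pi.mulSingle_eq_same]
  simp only [Pi.mul_apply, Pi.inv_apply, e1, e2, e3, e4, one_mul, inv_one, mul_one] at h8
  apply hν
  obtain ⟨w, hw⟩ := h8
  exact ⟨w⁻¹, by rw [← mul_inv, ← hw, inv_inv]⟩

/-- `Out(D₄(q)) = S₄ × Gal` for odd `q` -/
theorem out_odd (h2 : ringChar F ≠ 2) :
    Nonempty (Cfsg.Out ↥(chevD4.group F) ≃* Equiv.Perm (Fin 4) × (F ≃+* F)) := by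
  classical
  have := Fintype.ofFinite F
  have hfin : Finite (Cfsg.Out ↥(chevD4.group F)) := by
    apply Nat.finite_of_card_ne_zero
    rw [card_out hD4, card_range_D4]
    have h1 : 0 < Nat.card (diagOut (F := F) hD4).range := Nat.card_pos
    have hfinE : Finite (F ≃+* F) := Finite.of_injective (fun e : F ≃+* F => (e : F → F))
      DFunLike.coe_injective
    have h3 : 0 < Nat.card (F ≃+* F) := Nat.card_pos
    positivity
  have hn := diagOut_range_normal (F := F) hD4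
  have hodd : Nat.gcd 2 (Fintype.card F - 1) = 2 := by
    have h3 : Fintype.card F % 2 = 1 := FiniteField.odd_card_of_char_ne_two h2
    have h4 : 2 ∣ Fintype.card F - 1 := by omega
    exact Nat.gcd_eq_left h4
  obtain ⟨e⟩ := OutAbs.s4_prod (diagOut (F := F) hD4).range (GrO F) (fieldOut (F := F) hD4).range
    gen (by rintro _ ⟨σ, rfl⟩ o; exact field_central σ o)
    (fun d hd g hg φ hφ h => uniq d g φ hd hg hφ h)
    (by rw [card_diag, hodd]; norm_num)
    (by rintro _ ⟨c, rfl⟩; rw [← map_mul]; exact diagOut_sq c)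
    card_GrO (faithful h2)
  exact ⟨e.trans (MulEquiv.prodCongr (MulEquiv.refl _)
    (MonoidHom.ofInjective fieldOut_injective).symm)⟩

/-- `Out(D₄(q)) = S₃ × Gal` for even `q` -/
theorem out_even (h2 : ringChar F = 2) :
    Nonempty (Cfsg.Out ↥(chevD4.group F) ≃* Equiv.Perm (Fin 3) × (F ≃+* F)) := by
  have hd1 : ∀ c : Fin chevD4.rank → Fˣ, diagOut (F := F) hD4 c = 1 := by
    intro c
    choose w hw using fun i => exists_sq_of_char_two h2 (c i)
    have : c = w * w := funext hw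
    rw [this]; exact diagOut_sq w
  obtain ⟨a, ha, hpa⟩ := exists_mem_GrO (F := F) tauD4_mem
  obtain ⟨b, hb, hpb⟩ := exists_mem_GrO (F := F) rhoD4_mem
  obtain ⟨e⟩ := OutAbs.s3_prod (GrO F) (fieldOut (F := F) hD4).range
    (by
      intro o
      obtain ⟨_, ⟨c, rfl⟩, g, hg, φ, hφ, rfl⟩ := gen o
      exact ⟨g, hg, φ, hφ, by rw [hd1, one_mul]⟩)
    (by rintro _ ⟨σ, rfl⟩ o; exact field_central σ o)
    (by
      intro x hx hxφ
      have := uniq 1 x x⁻¹ (one_mem _) hx (inv_mem hxφ) (by group)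
      exact this.2.1)
    card_GrO a b ha hb
    (by
      apply eq_one_of_mem_GrO ((GrO F).pow_mem ha 2)
      rw [map_pow, hpa, tauD4_sq])
    (by
      intro h
      have h1 := congrArg (permOut hD4) h
      rw [map_mul, map_mul, hpa, hpb] at h1
      apply comm_D4_ne
      rw [commutatorElement_def, h1]; group)
  exact ⟨e.trans (MulEquiv.prodCongr (MulEquiv.refl _)
    (MonoidHom.ofInjective fieldOut_injective).symm)⟩

end Cfsg.Agent.Lib.Helper45.D4Out
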