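import Cfsg.Agent.Lib.Helper13.OOutD
import Cfsg.Agent.Lib.Helper44.SimilStd
import Cfsg.Agent.Lib.Helper45.OutAbs

/-!
# Outer automorphism groups of even-dimensional orthogonal groups in odd characteristic:
the action of the field automorphisms on `PGO / PΩ`
-/

set_option autoImplicit false

namespace Cfsg.Agent.Lib.Helper45.POut

open Matrix QuadraticMap Module Cfsg.Agent.Lib.Helper44 Cfsg.Agent.Lib.Helper13.OOut

universe u

variable {F : Type u} [Field F] {ι : Type} [Fintype ι] [DecidableEq ι]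

/-- the form is defined over the prime field -/
def Inv (Q : (ι → F) → F) : Prop := ∀ (σ : F ≃+* F) (v : ι → F), Q (fun i => σ (v i)) = σ (Q v)

theorem Q_map {Q : (ι → F) → F} (hσ : Inv Q) (σ : F ≃+* F) (g : Matrix ι ι F) (c : F)
    (hc : ∀ v, Q (g *ᵥ v) = c * Q v) (v : ι → F) : Q ((g.map σ) *ᵥ v) = σ c * Q v := by
  have hv : v = fun i => σ (σ.symm (v i)) := by funext i; simp
  conv_lhs => rw [hv]
  rw [← map_mulVec', hσ, hc, map_mul, ← hσ, ← hv]

/-- the twist of a similarity by a field automorphism -/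
def tw (Q : (ι → F) → F) (hσ : Inv Q) (σ : F ≃+* F) (g : ↥(Cfsg.Geo.quadSimilarityGroup Q)) :
    ↥(Cfsg.Geo.quadSimilarityGroup Q) :=
  ⟨fieldGL σ (g : GL ι F), by
    obtain ⟨c, hc⟩ := g.2
    exact ⟨Units.map (σ : F →* F) c, fun v => Q_map hσ σ _ c hc v⟩⟩

theorem tw_coe (Q : (ι → F) → F) (hσ : Inv Q) (σ : F ≃+* F)
    (g : ↥(Cfsg.Geo.quadSimilarityGroup Q)) :
    ((tw Q hσ σ g : GL ι F) : Matrix ι ι F) = ((g : GL ι F) : Matrix ι ι F).map σ := rfl

theorem inr_conj (Q : (ι → F) → F) (hσ : Inv Q) (σ : F ≃+* F)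
    (g : ↥(Cfsg.Geo.quadSimilarityGroup Q)) :
    inrG Q hσ σ * inlG Q g * (inrG Q hσ σ)⁻¹ = inlG Q (tw Q hσ σ g) := by
  apply Subtype.ext
  show (SemidirectProduct.inr σ : SG F ι) * SemidirectProduct.inl (g : GL ι F)
    * (SemidirectProduct.inr σ)⁻¹ = SemidirectProduct.inl (fieldGL σ (g : GL ι F))
  rw [SemidirectProduct.inl_aut, map_inv]

theorem Th_conj (Q : (ι → F) → F) (hσ : Inv Q) (σ : F ≃+* F)
    (g : ↥(Cfsg.Geo.quadSimilarityGroup Q)) :
    Th Q (inrG Q hσ σ) * conjPOmega Q g * (Th Q (inrG Q hσ σ))⁻¹ = conjPOmega Q (tw Q hσ σ g) := by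
  rw [← Th_inlG, MonoidHom.comp_apply, MonoidHom.comp_apply, ← inr_conj, map_mul, map_mul, map_inv]

theorem multF_tw (Q : QuadraticForm F (ι → F)) (hσ : Inv ⇑Q) (hex : ∃ v, Q v ≠ 0) (σ : F ≃+* F)
    (g : ↥(Cfsg.Geo.quadSimilarityGroup ⇑Q)) :
    (multF Q (tw ⇑Q hσ σ g) : F) = σ (multF Q g : F) := by
  have := multF_unique hex (tw ⇑Q hσ σ g) (Units.map (σ : F →* F) (multF Q g))
    (fun v => Q_map hσ σ _ _ (multF_spec Q g) v)
  rw [this]; rfl

theorem det_tw (Q : (ι → F) → F) (hσ : Inv Q) (σ : F ≃+* F)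
    (g : ↥(Cfsg.Geo.quadSimilarityGroup Q)) :
    ((tw Q hσ σ g : GL ι F) : Matrix ι ι F).det = σ ((g : GL ι F) : Matrix ι ι F).det := by
  rw [tw_coe]
  exact ((σ : F →+* F).map_det _).symm

theorem isSquare_map_iff (σ : F ≃+* F) (a : F) : IsSquare (σ a) ↔ IsSquare a := by
  constructor
  · rintro ⟨w, hw⟩
    exact ⟨σ.symm w, by rw [← map_mul, ← hw, RingEquiv.symm_apply_apply]⟩
  · rintro ⟨w, rfl⟩
    exact ⟨σ w, map_mul _ _ _⟩

theorem units_int_eq_of_iff {a b : ℤˣ} (h : a = 1 ↔ b = 1) : a = b := by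
  rcases Int.units_eq_one_or a with ha | ha <;> rcases Int.units_eq_one_or b with hb | hb
  · rw [ha, hb]
  · exact absurd (h.1 ha) (by rw [hb]; decide)
  · exact absurd (h.2 hb) (by rw [ha]; decide)
  · rw [ha, hb]

theorem psi1_tw [Fintype F] (h2 : (2 : F) ≠ 0) {Q : QuadraticForm F (ι → F)}
    (hQ : (polarBilin Q).Nondegenerate) (hσ : Inv ⇑Q) (hex : ∃ v, Q v ≠ 0) (m : ℕ)
    (hm : Fintype.card ι = 2 * m) (σ : F ≃+* F) (g : ↥(Cfsg.Geo.quadSimilarityGroup ⇑Q)) :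
    psi1 h2 hQ hex m hm (tw ⇑Q hσ σ g) = psi1 h2 hQ hex m hm g := by
  apply Prod.ext
  · apply units_int_eq_of_iff
    show chi1 Q hex _ = 1 ↔ chi1 Q hex _ = 1
    rw [chi1_eq_one_iff, chi1_eq_one_iff, multF_tw Q hσ hex, isSquare_map_iff]
  · apply units_int_eq_of_iff
    show chi2 h2 hQ hex m hm _ = 1 ↔ chi2 h2 hQ hex m hm _ = 1
    rw [chi2_eq_one_iff, chi2_eq_one_iff, multF_tw Q hσ hex, det_tw, ← map_pow]
    exact σ.injective.eq_iff

theorem polar_map {Q : QuadraticForm F (ι → F)} (hσ : Inv ⇑Q) (σ : F ≃+* F) (a b : ι → F) :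
    polar Q (fun i => σ (a i)) (fun i => σ (b i)) = σ (polar Q a b) := by
  have h1 : (fun i => σ (a i)) + (fun i => σ (b i)) = fun i => σ ((a + b) i) := by
    funext i; simp
  simp only [polar, h1, map_sub]
  rw [hσ, hσ, hσ]

theorem tw_refl (Q : QuadraticForm F (ι → F)) (hσ : Inv ⇑Q) (σ : F ≃+* F) (v : ι → F)
    (hv : (fun i => σ (v i)) = v) :
    tw ⇑Q hσ σ (ofO Q (reflElt Q v)) = ofO Q (reflElt Q v) := by
  apply Subtype.ext
  apply Units.ext
  rw [tw_coe, ofO_coe, reflElt_coe]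
  apply matrix_ext_mulVec
  intro x
  have hx : x = fun i => σ (σ.symm (x i)) := by funext i; simp
  conv_lhs => rw [hx]
  rw [← map_mulVec', reflectionMatrix_mulVec, reflectionMatrix_mulVec, refl_apply, refl_apply]
  have h1 : polar Q v x = σ (polar Q v (fun i => σ.symm (x i))) := by
    rw [← polar_map hσ, hv, ← hx]
  have h2 : Q v = σ (Q v) := by rw [← hσ, hv]
  funext i
  have h3 : σ (v i) = v i := congrFun hv i
  simp only [Pi.sub_apply, Pi.smul_apply, smul_eq_mul, map_sub, map_mul, map_inv₀,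
    RingEquiv.apply_symm_apply, h3, ← h1, ← h2]

end Cfsg.Agent.Lib.Helper45.POut
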