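import Cfsg.Agent.Lib.Helper45.POutA

/-!
# Outer automorphism groups of even-dimensional orthogonal groups in odd characteristic
-/

set_option autoImplicit false

namespace Cfsg.Agent.Lib.Helper45.POut

open Matrix QuadraticMap Module Cfsg.Agent.Lib.Helper44 Cfsg.Agent.Lib.Helper13.OOut

universe u

variable {F : Type u} [Field F] {ι : Type} [Fintype ι] [DecidableEq ι]

theorem conj_mem_inn_iff (Q : QuadraticForm F (ι → F)) (g : ↥(Cfsg.Geo.quadSimilarityGroup ⇑Q)) :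
    conjPOmega ⇑Q g ∈ Cfsg.Inn (Cfsg.POmega F ⇑Q) ↔ g ∈ Oms Q ⊔ (conjPOmega ⇑Q).ker := by
  rw [inn_eq', ← Subgroup.mem_comap, Subgroup.comap_map_eq]

theorem refl_conj_not_mem [Fintype F] (h2 : (2 : F) ≠ 0) (Q : QuadraticForm F (ι → F))
    (hQ : (polarBilin Q).Nondegenerate) (hn : 5 ≤ Fintype.card ι)
    (δ : ↥(Cfsg.Geo.quadSimilarityGroup ⇑Q)) (hδ : ¬ IsSquare (multF Q δ : F))
    (hneg : negOneO Q ∈ Cfsg.Omega F ⇑Q) (v : ι → F) (hv : Q v ≠ 0) :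
    ofO Q (reflElt Q v) * (δ * ofO Q (reflElt Q v) * δ⁻¹) ∉ Oms Q ⊔ (conjPOmega ⇑Q).ker := by
  intro hmem
  rw [conj_ofO_reflElt, ← map_mul] at hmem
  have hv' : Q (((δ : GL ι F) : Matrix ι ι F) *ᵥ v) ≠ 0 := by
    rw [multF_spec]; exact mul_ne_zero (Units.ne_zero _) hv
  have hcrit := mem_Omega_iff_of_prod_odd h2 Q hQ
    (reflElt Q v * reflElt Q (((δ : GL ι F) : Matrix ι ι F) *ᵥ v))
    [v, ((δ : GL ι F) : Matrix ι ι F) *ᵥ v] (by
      intro w hw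
      simp only [List.mem_cons, List.not_mem_nil, or_false] at hw
      rcases hw with rfl | rfl
      · exact hv
      · exact hv') (by simp [reflElt_coe])
  have hSO : ofO Q (reflElt Q v * reflElt Q (((δ : GL ι F) : Matrix ι ι F) *ᵥ v)) ∈ SOs Q := by
    rw [ofO_mem_SOs, mem_specialIsometryGroup, Subgroup.coe_mul, Units.val_mul, Matrix.det_mul,
      det_reflElt Q hv, det_reflElt Q hv']
    ring
  have h3 : ofO Q (reflElt Q v * reflElt Q (((δ : GL ι F) : Matrix ι ι F) *ᵥ v)) ∈ Oms Q := by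
    rw [← sup_ker_inf_SOs h2 Q hQ hn hneg]
    exact ⟨hmem, hSO⟩
  rw [ofO_mem_Oms, hcrit] at h3
  obtain ⟨-, r, hr⟩ := h3
  simp only [List.map_cons, List.map_nil, List.prod_cons, List.prod_nil, mul_one,
    multF_spec] at hr
  apply hδ
  refine ⟨r / Q v, ?_⟩
  field_simp
  linear_combination hr

section main

variable [Fintype F] (h2 : (2 : F) ≠ 0) (Q : QuadraticForm F (ι → F))
  (hQ : (polarBilin Q).Nondegenerate) (hn : 5 ≤ Fintype.card ι) (m : ℕ)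
  (hm : Fintype.card ι = 2 * m) (htop : Cfsg.gammaPOmega F ⇑Q = ⊤) (hσ : Inv ⇑Q)
  (hδ : ∃ δ : ↥(Cfsg.Geo.quadSimilarityGroup ⇑Q), ¬ IsSquare (multF Q δ : F))

include h2 hQ hn hm htop hσ hδ

/-- `Out = D₈ × Gal` when `-1 ∈ Ω` -/
theorem out_dihedral (hneg : negOneO Q ∈ Cfsg.Omega F ⇑Q) (v : ι → F) (hv : Q v ≠ 0)
    (hvσ : ∀ σ : F ≃+* F, (fun i => σ (v i)) = v) :
    Nonempty (Cfsg.Out (Cfsg.POmega F ⇑Q) ≃* DihedralGroup 4 × (F ≃+* F)) := by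
  have hex : ∃ v, Q v ≠ 0 := ⟨v, hv⟩
  obtain ⟨θ, h1, hk, h3⟩ := exists_theta Q hQ hn htop (fun σ => ⟨inrG _ hσ σ, rfl⟩)
  have hI : Cfsg.Inn (Cfsg.POmega F ⇑Q) ≤ θ.ker := by rw [hk]; exact inn_le_pgoAut _
  have hsurj := psi1_surjective h2 hQ hex m hm hδ
  obtain ⟨δ, hδ⟩ := hδ
  have hD : (psi1 h2 hQ hex m hm δ).1 = -1 := by
    rcases Int.units_eq_one_or (psi1 h2 hQ hex m hm δ).1 with h | h
    · exact absurd ((chi1_eq_one_iff Q hex δ).1 h) hδ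
    · exact h
  have hRD := refl_conj_not_mem h2 Q hQ hn δ hδ hneg v hv
  have hNK : Oms Q ⊔ (conjPOmega ⇑Q).ker ≤ (psi1 h2 hQ hex m hm).ker := by
    rw [ker_psi1_eq' h2 hQ hn]; exact sup_le_sup_right (Oms_le_SOs Q) _
  have hrel : (Oms Q ⊔ (conjPOmega ⇑Q).ker).relIndex (psi1 h2 hQ hex m hm).ker = 2 := by
    rw [ker_psi1_eq' h2 hQ hn]; exact relIndex_sup_ker h2 Q hQ hn hneg
  obtain ⟨e⟩ := nonempty_mulEquiv_dihedral_of (Oms Q ⊔ (conjPOmega ⇑Q).ker)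
    (psi1 h2 hQ hex m hm) hsurj hNK hrel
    (ofO Q (reflElt Q v)) δ (by rw [← map_mul, reflElt_mul_self, map_one])
    (psi1_reflElt h2 hQ hex m hm hv) hD hRD
  have := Cfsg.Agent.Lib.Helper43.PA.isCyclic_ringAut (F := F)
  have hfin : Finite (F ≃+* F) := Finite.of_injective (fun e : F ≃+* F => (e : F → F))
    DFunLike.coe_injective
  obtain ⟨e2⟩ := OutAbs.ext_dihedral (Cfsg.Inn (Cfsg.POmega F ⇑Q)) θ hI (conjPOmega ⇑Q)
    (by rw [hk, pgoAut_eq]) ((Th ⇑Q).comp (inrG _ hσ)) (fun σ => h3 _) (tw ⇑Q hσ)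
    (fun σ g => Th_conj ⇑Q hσ σ g) (Oms Q ⊔ (conjPOmega ⇑Q).ker) (conj_mem_inn_iff Q)
    (psi1 h2 hQ hex m hm).ker hrel
    (index_of_relIndex_ker _ _ hsurj hNK 2 hrel)
    (by
      intro σ g
      rw [MonoidHom.mem_ker, map_mul, map_inv, psi1_tw h2 hQ hσ hex m hm, mul_inv_cancel])
    (by
      intro a b
      rw [MonoidHom.mem_ker]
      simp only [map_mul, map_inv]
      rw [mul_comm (psi1 h2 hQ hex m hm a), mul_assoc (psi1 h2 hQ hex m hm b), mul_inv_cancel,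
        mul_one, mul_inv_cancel])
    (ofO Q (reflElt Q v)) δ (by rw [← map_mul, reflElt_mul_self, map_one])
    (fun σ => tw_refl Q hσ σ v (hvσ σ)) hRD
  exact ⟨e2.trans (MulEquiv.prodCongr e (MulEquiv.refl _))⟩

/-- `Out = 2² × Gal` when `-1 ∉ Ω` -/
theorem out_klein (hneg : negOneO Q ∉ Cfsg.Omega F ⇑Q) :
    Nonempty (Cfsg.Out (Cfsg.POmega F ⇑Q) ≃* Multiplicative (ZMod 2 × ZMod 2) × (F ≃+* F)) := by
  have hex : ∃ v, Q v ≠ 0 := exists_nonsingular hQ (by simp; omega)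
  obtain ⟨θ, h1, hk, h3⟩ := exists_theta Q hQ hn htop (fun σ => ⟨inrG _ hσ σ, rfl⟩)
  have hI : Cfsg.Inn (Cfsg.POmega F ⇑Q) ≤ θ.ker := by rw [hk]; exact inn_le_pgoAut _
  have hsurj := psi1_surjective h2 hQ hex m hm hδ
  have hker : (psi1 h2 hQ hex m hm).ker = Oms Q ⊔ (conjPOmega ⇑Q).ker := by
    rw [ker_psi1_eq' h2 hQ hn]
    exact le_antisymm (sup_le (SOs_le_sup_ker h2 Q hQ hn m hm hneg) le_sup_right)
      (sup_le_sup_right (Oms_le_SOs Q) _)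
  obtain ⟨e0⟩ := nonempty_mulEquiv_klein (G := ℤˣ × ℤˣ) (by simp [Nat.card_eq_fintype_card])
    units_prod_mul_self
  have e : ↥(Cfsg.Geo.quadSimilarityGroup ⇑Q) ⧸ (Oms Q ⊔ (conjPOmega ⇑Q).ker) ≃*
      Multiplicative (ZMod 2 × ZMod 2) :=
    ((QuotientGroup.quotientMulEquivOfEq hker.symm).trans
      (QuotientGroup.quotientKerEquivOfSurjective _ hsurj)).trans e0
  obtain ⟨e2⟩ := OutAbs.ext_klein (Cfsg.Inn (Cfsg.POmega F ⇑Q)) θ hI (conjPOmega ⇑Q)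
    (by rw [hk, pgoAut_eq]) ((Th ⇑Q).comp (inrG _ hσ)) (fun σ => h3 _) (tw ⇑Q hσ)
    (fun σ g => Th_conj ⇑Q hσ σ g) (Oms Q ⊔ (conjPOmega ⇑Q).ker) (conj_mem_inn_iff Q)
    (by
      intro σ g
      rw [← hker, MonoidHom.mem_ker, map_mul, map_inv, psi1_tw h2 hQ hσ hex m hm, mul_inv_cancel])
  exact ⟨e2.trans (MulEquiv.prodCongr e (MulEquiv.refl _))⟩

end main

end Cfsg.Agent.Lib.Helper45.POut
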