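import Cfsg.Agent.Lib.Helper45.POutB
import Cfsg.Agent.Lib.Helper45.OAutWrap

/-!
# Outer automorphism groups of `PΩ⁺_{2m}(q)`, `m ≥ 5`
-/

set_option autoImplicit false

namespace Cfsg.Agent.Lib.Helper45.POut

open Matrix QuadraticMap Module Cfsg.Agent.Lib.Helper44 Cfsg.Agent.Lib.Helper13.OOut

universe u

variable {F : Type u} [Field F] (m : ℕ)

theorem inv_plus : Inv (Cfsg.quadFormPlus m F) := by
  intro σ v
  simp [Cfsg.quadFormPlus, map_sum]

theorem inv_plusQF : Inv ⇑(plusQF m F) := by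
  rw [plusQF_coe]; exact inv_plus m

/-- the vector `e₁ + f₁` -/
def v0 (hm : 0 < m) : Fin m ⊕ Fin m → F :=
  Pi.single (Sum.inl ⟨0, hm⟩) 1 + Pi.single (Sum.inr ⟨0, hm⟩) 1

theorem v0_fix (hm : 0 < m) (σ : F ≃+* F) : (fun i => σ (v0 (F := F) m hm i)) = v0 m hm := by
  funext i
  simp only [v0, Pi.add_apply, map_add]
  congr 1
  · by_cases h : i = Sum.inl ⟨0, hm⟩
    · subst h; simp
    · rw [Pi.single_eq_of_ne h, map_zero]
  · by_cases h : i = Sum.inr ⟨0, hm⟩
    · subst h; simp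
    · rw [Pi.single_eq_of_ne h, map_zero]

theorem Q_v0 (hm : 0 < m) : plusQF m F (v0 m hm) = 1 := by
  rw [plusQF_apply, Finset.sum_eq_single ⟨0, hm⟩]
  · simp [v0]
  · intro b _ hb
    have h1 : (Sum.inl b : Fin m ⊕ Fin m) ≠ Sum.inl ⟨0, hm⟩ := fun h => hb (Sum.inl.inj h)
    simp [v0, Pi.single_eq_of_ne h1]
  · simp

variable [Fintype F]

theorem card_plus : Fintype.card (Fin m ⊕ Fin m) = 2 * m := by
  simp only [Fintype.card_sum, Fintype.card_fin]; omega

/-- odd `q`, `-1 ∈ Ω` -/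
theorem out_plus_dihedral (hodd : Odd (Fintype.card F)) (hm : 5 ≤ m)
    (h : ¬ (Odd m ∧ Fintype.card F % 4 = 3)) :
    Nonempty (Cfsg.Out (Cfsg.POmega F (Cfsg.quadFormPlus m F)) ≃* DihedralGroup 4 × (F ≃+* F)) := by
  have h2 : (2 : F) ≠ 0 := two_ne_zero_of_odd_card hodd
  have key := out_dihedral h2 (plusQF m F) (plusQF_nondeg m F) (by rw [card_plus]; omega) m
    (card_plus m) (by rw [plusQF_coe]; exact OAut.gamma_top_plus hm) (inv_plusQF m)
    (plus_exists_nonsquare_simil h2 m (by omega))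
    ((plus_negOneO_mem_iff hodd m (by omega)).2 h) (v0 m (by omega))
    (by rw [Q_v0]; exact one_ne_zero) (v0_fix m (by omega))
  rw [plusQF_coe] at key
  exact key

/-- odd `q`, `-1 ∉ Ω` -/
theorem out_plus_klein (hodd : Odd (Fintype.card F)) (hm : 5 ≤ m)
    (h : Odd m ∧ Fintype.card F % 4 = 3) :
    Nonempty (Cfsg.Out (Cfsg.POmega F (Cfsg.quadFormPlus m F)) ≃*
      Multiplicative (ZMod 2 × ZMod 2) × (F ≃+* F)) := by
  have h2 : (2 : F) ≠ 0 := two_ne_zero_of_odd_card hodd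
  have key := out_klein h2 (plusQF m F) (plusQF_nondeg m F) (by rw [card_plus]; omega) m
    (card_plus m) (by rw [plusQF_coe]; exact OAut.gamma_top_plus hm) (inv_plusQF m)
    (plus_exists_nonsquare_simil h2 m (by omega))
    (fun hh => (plus_negOneO_mem_iff hodd m (by omega)).1 hh h)
  rw [plusQF_coe] at key
  exact key

/-- in characteristic two every multiplier occurs -/
theorem range_multHom_char_two (h2 : (2 : F) = 0) {ι : Type} [Fintype ι] [DecidableEq ι]
    (Q : QuadraticForm F (ι → F)) (hex : ∃ v, Q v ≠ 0) : (multHom Q hex).range = ⊤ := by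
  rw [eq_top_iff]
  intro c _
  have : CharP F 2 := CharTwo.of_one_ne_zero_of_two_eq_zero one_ne_zero h2
  obtain ⟨w, hw⟩ := FiniteField.isSquare_of_char_two (ringChar.eq F 2) (c : F)
  have hw0 : w ≠ 0 := by
    rintro rfl
    exact c.ne_zero (by rw [hw]; ring)
  refine ⟨scalSimil Q (Units.mk0 w hw0), ?_⟩
  rw [multHom_apply]
  apply Units.ext
  rw [multF_of_scalar hex _ w (scalSimil_coe _ _), hw]

theorem card_pgoAut_char_two (h2 : (2 : F) = 0) {ι : Type} [Fintype ι] [DecidableEq ι]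
    (Q : QuadraticForm F (ι → F)) (hQ : (polarBilin Q).Nondegenerate) (hn : 5 ≤ Fintype.card ι) :
    Nat.card ↥(Cfsg.pgoAut F ⇑Q) = 2 * Nat.card (Cfsg.POmega F ⇑Q) := by
  classical
  have hex := exists_ne_zero Q hQ hn
  have h1 := card_pgoAut_mul Q hQ hn hex
  rw [range_multHom_char_two h2 Q hex, Subgroup.card_top, Nat.card_eq_fintype_card (α := Fˣ),
    Fintype.card_units] at h1
  have hq : 0 < Fintype.card F - 1 := by
    have := Fintype.one_lt_card (α := F)
    omega
  have h3 := Nat.eq_of_mul_eq_mul_right hq h1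
  have hmul := Cfsg.Agent.Lib.Helper5.card_POmega_mul (F := F) ⇑Q
  rw [index_Omega_char_two h2 Q hQ (Or.inr (by omega)) (by omega),
    card_center_Omega_eq_one Q hQ hn (Or.inl h2), mul_one] at hmul
  rw [h3, ← hmul, mul_comm]

/-- even `q` -/
theorem out_plus_even (h2 : (2 : F) = 0) (hm : 5 ≤ m) :
    Nonempty (Cfsg.Out (Cfsg.POmega F (Cfsg.quadFormPlus m F)) ≃*
      Multiplicative (ZMod 2) × (F ≃+* F)) := by
  have key := out_of_section (plusQF m F) (plusQF_nondeg m F) (by rw [card_plus]; omega)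
    (by rw [plusQF_coe]; exact OAut.gamma_top_plus hm) (inv_plusQF m)
    (card_pgoAut_char_two h2 _ (plusQF_nondeg m F) (by rw [card_plus]; omega))
  rw [plusQF_coe] at key
  exact key

end Cfsg.Agent.Lib.Helper45.POut
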