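import Cfsg.Agent.Lib.Helper45.POutC

/-!
# From the outer automorphism group to the order of the automorphism group
-/

set_option autoImplicit false

namespace Cfsg.Agent.Lib.Helper45.POut

open Matrix QuadraticMap Module Cfsg.Agent.Lib.Helper44 Cfsg.Agent.Lib.Helper13.OOut

universe u

variable {F : Type u} [Field F] [Fintype F] (m : ℕ)

theorem card_aut_of_out {X : Type*} [Group X] {p f : ℕ} [Fact p.Prime]
    (hF : Fintype.card F = p ^ f) (hm : 3 ≤ m) (k : ℕ) (hX : Nat.card X = k)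
    (e : Nonempty (Cfsg.Out (Cfsg.POmega F (Cfsg.quadFormPlus m F)) ≃* X × (F ≃+* F))) :
    Nat.card (MulAut (Cfsg.POmega F (Cfsg.quadFormPlus m F)))
      = k * f * Nat.card (Cfsg.POmega F (Cfsg.quadFormPlus m F)) := by
  obtain ⟨e⟩ := e
  have h1 := card_Inn (plusQF m F) (plusQF_nondeg m F) (by rw [card_plus]; omega)
  rw [plusQF_coe] at h1
  rw [Subgroup.card_eq_card_quotient_mul_card_subgroup
    (Cfsg.Inn (Cfsg.POmega F (Cfsg.quadFormPlus m F))), h1]
  congr 1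
  have h2 : Nat.card (Cfsg.Out (Cfsg.POmega F (Cfsg.quadFormPlus m F))) = Nat.card (X × (F ≃+* F)) :=
    Nat.card_congr e.toEquiv
  rw [Nat.card_prod, hX, Cfsg.Agent.Lib.Helper43.PA.card_ringAut hF] at h2
  exact h2

theorem even_iff {q : ℕ} (hq : q % 2 = 1) :
    Even (m * (q - 1) / 2) ↔ ¬ (Odd m ∧ q % 4 = 3) := by
  obtain ⟨k, rfl⟩ : ∃ k, q = 2 * k + 1 := ⟨q / 2, by omega⟩
  have h1 : m * (2 * k + 1 - 1) / 2 = m * k := by
    rw [Nat.add_sub_cancel, mul_left_comm, Nat.mul_div_cancel_left _ (by norm_num)]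
  rw [h1, Nat.even_mul, ← Nat.not_even_iff_odd]
  have h2 : (2 * k + 1) % 4 = 3 ↔ ¬ Even k := by
    rw [Nat.even_iff]; omega
  rw [h2]
  tauto

end Cfsg.Agent.Lib.Helper45.POut
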