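import Cfsg.Agent.Lib.Helper45.POutD
import Cfsg.Agent.Lib.Helper45.D4OutB
import Cfsg.Agent.S1082

/-!
# Outer automorphism groups of `PΩ⁺_{2m}(q)`, `m ≥ 4`: final statements
-/

set_option autoImplicit false

namespace Cfsg.Agent.Lib.Helper45.POut

open Cfsg.Agent.Lib.Helper44 Cfsg.Agent.Lib.Helper13.OOut

universe u

variable {F : Type u} [Field F] [Fintype F]

theorem out_eight_odd (h2 : ringChar F ≠ 2) :
    Nonempty (Cfsg.Out (Cfsg.POmega F (Cfsg.quadFormPlus 4 F)) ≃* Equiv.Perm (Fin 4) × (F ≃+* F)) := by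
  obtain ⟨e1⟩ := Cfsg.Agent.S1082.result (F := F)
  obtain ⟨e2⟩ := OutAbs.out_congr e1
  obtain ⟨e3⟩ := D4Out.out_odd (F := F) h2
  exact ⟨e2.symm.trans e3⟩

theorem out_eight_even (h2 : ringChar F = 2) :
    Nonempty (Cfsg.Out (Cfsg.POmega F (Cfsg.quadFormPlus 4 F)) ≃* Equiv.Perm (Fin 3) × (F ≃+* F)) := by
  obtain ⟨e1⟩ := Cfsg.Agent.S1082.result (F := F)
  obtain ⟨e2⟩ := OutAbs.out_congr e1
  obtain ⟨e3⟩ := D4Out.out_even (F := F) h2
  exact ⟨e2.symm.trans e3⟩

theorem ringChar_of_card {p f : ℕ} [Fact p.Prime] (hF : Fintype.card F = p ^ f) : ringChar F = p := by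
  have : CharP F p := charP_of_card_eq_prime_pow hF
  exact ringChar.eq F p

theorem odd_card {p f : ℕ} [hp : Fact p.Prime] (hF : Fintype.card F = p ^ f) (h : p ≠ 2) :
    Odd (Fintype.card F) := by
  rw [hF]
  exact (hp.out.odd_of_ne_two h).pow

theorem two_eq_zero {f : ℕ} (hF : Fintype.card F = 2 ^ f) : (2 : F) = 0 := by
  have : Fact (Nat.Prime 2) := ⟨Nat.prime_two⟩
  have : CharP F 2 := charP_of_card_eq_prime_pow hF
  exact CharTwo.two_eq_zero

/-- S2607 -/
theorem row_even {f m : ℕ} (hF : Fintype.card F = 2 ^ f) (hm : 4 ≤ m) :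
    if m = 4 then Nonempty (Cfsg.Out (Cfsg.POmega F (Cfsg.quadFormPlus m F)) ≃*
      Equiv.Perm (Fin 3) × Multiplicative (ZMod f))
    else Nonempty (Cfsg.Out (Cfsg.POmega F (Cfsg.quadFormPlus m F)) ≃*
      Multiplicative (ZMod 2 × ZMod f)) := by
  have : Fact (Nat.Prime 2) := ⟨Nat.prime_two⟩
  obtain ⟨e0⟩ := Cfsg.Agent.Lib.Helper43.PA.exists_ringAut_equiv hF
  split_ifs with h
  · subst h
    obtain ⟨e⟩ := out_eight_even (F := F) (ringChar_of_card hF)
    exact ⟨e.trans (MulEquiv.prodCongr (MulEquiv.refl _) e0)⟩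
  · obtain ⟨e⟩ := out_plus_even (F := F) m (two_eq_zero hF) (by omega)
    exact ⟨e.trans ((MulEquiv.prodCongr (MulEquiv.refl _) e0).trans
      (MulEquiv.prodMultiplicative (ZMod 2) (ZMod f)).symm)⟩

/-- S2608 -/
theorem row_odd {p f m : ℕ} [Fact p.Prime] (hF : Fintype.card F = p ^ f) (hp : p ≠ 2)
    (hm : 4 ≤ m) :
    if m = 4 then Nonempty (Cfsg.Out (Cfsg.POmega F (Cfsg.quadFormPlus m F)) ≃*
      Equiv.Perm (Fin 4) × Multiplicative (ZMod f))
    else if p ^ f % 4 = 3 ∧ Odd m then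
      Nonempty (Cfsg.Out (Cfsg.POmega F (Cfsg.quadFormPlus m F)) ≃*
        Multiplicative (ZMod 2 × ZMod 2 × ZMod f))
    else Nonempty (Cfsg.Out (Cfsg.POmega F (Cfsg.quadFormPlus m F)) ≃*
      DihedralGroup 4 × Multiplicative (ZMod f)) := by
  obtain ⟨e0⟩ := Cfsg.Agent.Lib.Helper43.PA.exists_ringAut_equiv hF
  split_ifs with h h'
  · subst h
    obtain ⟨e⟩ := out_eight_odd (F := F) (by rw [ringChar_of_card hF]; exact hp)
    exact ⟨e.trans (MulEquiv.prodCongr (MulEquiv.refl _) e0)⟩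
  · obtain ⟨e⟩ := out_plus_klein (F := F) m (odd_card hF hp) (by omega)
      ⟨h'.2, by rw [hF]; exact h'.1⟩
    exact ⟨e.trans ((MulEquiv.prodCongr (MulEquiv.refl _) e0).trans
      ((MulEquiv.prodMultiplicative (ZMod 2 × ZMod 2) (ZMod f)).symm.trans
        (AddEquiv.toMultiplicative (AddEquiv.prodAssoc (M := ZMod 2) (N := ZMod 2) (P := ZMod f)))))⟩
  · obtain ⟨e⟩ := out_plus_dihedral (F := F) m (odd_card hF hp) (by omega)
      (fun hh => h' ⟨by rw [← hF]; exact hh.2, hh.1⟩)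
    exact ⟨e.trans (MulEquiv.prodCongr (MulEquiv.refl _) e0)⟩

/-- S0817 -/
theorem row_card (p f : ℕ) [Fact p.Prime] (hF : Fintype.card F = p ^ f) (m : ℕ) (hm : 4 ≤ m) :
    Nat.card (MulAut (Cfsg.POmega F (Cfsg.quadFormPlus m F))) =
      (if m = 4 then 3 else 1) * (if p = 2 then 2 else (if Even (m * (p ^ f - 1) / 2) then 8 else 4))
        * f * Nat.card (Cfsg.POmega F (Cfsg.quadFormPlus m F)) := by
  by_cases hp : p = 2
  · subst hp
    rw [if_pos rfl]
    by_cases h4 : m = 4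
    · subst h4
      rw [if_pos rfl]
      exact card_aut_of_out 4 hF (by norm_num) (3 * 2)
        (by rw [Nat.card_eq_fintype_card, Fintype.card_perm, Fintype.card_fin]; rfl)
        (out_eight_even (ringChar_of_card hF))
    · rw [if_neg h4]
      exact card_aut_of_out m hF (by omega) (1 * 2) (by simp)
        (out_plus_even m (two_eq_zero hF) (by omega))
  · rw [if_neg hp]
    have hodd := odd_card hF hp
    have hq : p ^ f % 2 = 1 := by rw [← hF]; exact Nat.odd_iff.1 hodd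
    by_cases h4 : m = 4
    · subst h4
      have hev : Even (4 * (p ^ f - 1) / 2) := by
        rw [even_iff 4 hq]
        rintro ⟨h, -⟩
        exact absurd h (by decide)
      rw [if_pos rfl, if_pos hev]
      exact card_aut_of_out 4 hF (by norm_num) (3 * 8)
        (by rw [Nat.card_eq_fintype_card, Fintype.card_perm, Fintype.card_fin]; rfl)
        (out_eight_odd (by rw [ringChar_of_card hF]; exact hp))
    · rw [if_neg h4]
      by_cases hev : Even (m * (p ^ f - 1) / 2)
      · rw [if_pos hev]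
        rw [even_iff m hq, ← hF] at hev
        exact card_aut_of_out m hF (by omega) (1 * 8) (by rw [DihedralGroup.nat_card])
          (out_plus_dihedral m hodd (by omega) hev)
      · rw [if_neg hev]
        rw [even_iff m hq, not_not, ← hF] at hev
        exact card_aut_of_out m hF (by omega) (1 * 4)
          (by rw [Nat.card_eq_fintype_card]; rfl)
          (out_plus_klein m hodd (by omega) hev)

end Cfsg.Agent.Lib.Helper45.POut
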