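import Cfsg.Agent.Lib.Helper45.SimGL

set_option autoImplicit false

/-! Unipotent matrices in characteristic `p` and partitions. -/

open Polynomial

namespace Cfsg.Agent.Lib.Helper45

variable {F : Type*} [Field F]

theorem dvd_X_sub_one_pow_iff {π : F[X]} (hπ : π.Monic) (hπ' : Irreducible π) {e : ℕ}
    (he : 1 ≤ e) (N : ℕ) : π ^ e ∣ (X - 1 : F[X]) ^ N ↔ π = X - 1 ∧ e ≤ N := by
  have hirr : Irreducible (X - 1 : F[X]) := by
    have := irreducible_X_sub_C (1 : F)
    rwa [C_1] at this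
  have hmon : (X - 1 : F[X]).Monic := by
    have := monic_X_sub_C (1 : F)
    rwa [C_1] at this
  constructor
  · intro h
    have h1 : π ∣ (X - 1 : F[X]) ^ N := (dvd_pow_self π (by omega)).trans h
    have h2 : π ∣ X - 1 := hπ'.prime.dvd_of_dvd_pow h1
    have h3 : π = X - 1 := eq_of_monic_of_associated hπ hmon (hπ'.associated_of_dvd hirr h2)
    refine ⟨h3, ?_⟩
    rw [h3] at h
    exact (pow_dvd_pow_iff hirr.ne_zero hirr.not_isUnit).1 h
  · rintro ⟨rfl, h⟩
    exact pow_dvd_pow _ h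

variable {n : Type*} [Fintype n] [DecidableEq n]

theorem HasType.sub_one_pow_eq_zero_iff {A : Matrix n n F} {T : Multiset (F[X] × ℕ)}
    (h : HasType A T) (N : ℕ) : (A - 1) ^ N = 0 ↔ ∀ x ∈ T, x.1 = X - 1 ∧ x.2 ≤ N := by
  have h1 : (A - 1) ^ N = aeval A ((X - 1 : F[X]) ^ N) := by simp
  rw [h1, h.aeval_eq_zero_iff]
  refine forall₂_congr (fun x hx => ?_)
  obtain ⟨a, b, c⟩ := ModHasType.valid h x hx
  exact dvd_X_sub_one_pow_iff a b c N

theorem HasType.pow_char_pow_eq_one_iff (p : ℕ) [Fact p.Prime] [CharP F p] {A : Matrix n n F}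
    {T : Multiset (F[X] × ℕ)} (h : HasType A T) (k : ℕ) :
    A ^ (p ^ k) = 1 ↔ ∀ x ∈ T, x.1 = X - 1 ∧ x.2 ≤ p ^ k := by
  rw [← h.sub_one_pow_eq_zero_iff]
  have h1 : (A - 1) ^ (p ^ k) = aeval A ((X - 1 : F[X]) ^ (p ^ k)) := by simp
  rw [h1, sub_pow_char_pow, one_pow]
  simp [sub_eq_zero]

/-- the types of unipotent matrices of size `m`. -/
def unipTypes (F : Type*) [Field F] (m : ℕ) : Set (Multiset (F[X] × ℕ)) :=
  {T | (∀ x ∈ T, x.1 = X - 1 ∧ 1 ≤ x.2) ∧ (T.map Prod.snd).sum = m}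

/-- unipotent types are partitions. -/
noncomputable def unipEquiv (F : Type*) [Field F] (m : ℕ) : unipTypes F m ≃ Nat.Partition m where
  toFun T := ⟨T.1.map Prod.snd, by
    intro i hi
    obtain ⟨x, hx, rfl⟩ := Multiset.mem_map.1 hi
    exact (T.2.1 x hx).2, T.2.2⟩
  invFun μ := ⟨μ.parts.map (fun e => ((X - 1 : F[X]), e)), by
    constructor
    · intro x hx
      obtain ⟨e, he, rfl⟩ := Multiset.mem_map.1 hx
      exact ⟨rfl, μ.parts_pos he⟩
    · rw [Multiset.map_map]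
      simpa using μ.parts_sum⟩
  left_inv T := by
    apply Subtype.ext
    simp only [Multiset.map_map]
    conv_rhs => rw [← Multiset.map_id T.1]
    apply Multiset.map_congr rfl
    intro x hx
    exact Prod.ext (T.2.1 x hx).1.symm rfl
  right_inv μ := by
    apply Nat.Partition.ext
    simp [Multiset.map_map]

theorem unipTypes_valid {m : ℕ} {T : Multiset (F[X] × ℕ)} (hT : T ∈ unipTypes F m) :
    (∀ x ∈ T, x.1.Monic ∧ Irreducible x.1 ∧ 1 ≤ x.2) ∧
      (T.map (fun x => x.2 * x.1.natDegree)).sum = m := by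
  have hirr : Irreducible (X - 1 : F[X]) := by
    have := irreducible_X_sub_C (1 : F)
    rwa [C_1] at this
  have hmon : (X - 1 : F[X]).Monic := by
    have := monic_X_sub_C (1 : F)
    rwa [C_1] at this
  have hdeg : (X - 1 : F[X]).natDegree = 1 := by
    have := natDegree_X_sub_C (1 : F)
    rwa [C_1] at this
  constructor
  · intro x hx
    obtain ⟨h1, h2⟩ := hT.1 x hx
    rw [h1]
    exact ⟨hmon, hirr, h2⟩
  · rw [← hT.2]
    congr 1
    apply Multiset.map_congr rfl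
    intro x hx
    rw [(hT.1 x hx).1, hdeg, mul_one]

theorem HasType.mem_unipTypes {A : Matrix n n F} {T : Multiset (F[X] × ℕ)} (h : HasType A T)
    (hu : ∀ x ∈ T, x.1 = X - 1) : T ∈ unipTypes F (Fintype.card n) := by
  have hdeg : (X - 1 : F[X]).natDegree = 1 := by
    have := natDegree_X_sub_C (1 : F)
    rwa [C_1] at this
  refine ⟨fun x hx => ⟨hu x hx, (ModHasType.valid h x hx).2.2⟩, ?_⟩
  rw [← h.sum_deg]
  congr 1
  apply Multiset.map_congr rfl
  intro x hx
  rw [hu x hx, hdeg, mul_one]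

end Cfsg.Agent.Lib.Helper45
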