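import Mathlib
import Cfsg.Agent.Lib.Helper94.SympWrap
import Cfsg.Agent.Lib.Helper45.SUWrap
import Cfsg.Agent.Lib.Helper45.SubfieldQ

set_option autoImplicit false

/-! The symplectic subfield subgroup `Sp_n(q)` of `SU_n(q)` is maximal. -/

namespace Cfsg.Agent.Lib.Helper45.SpInSU

open Matrix Module
open Cfsg.Agent.Lib.Helper13 Cfsg.Agent.Lib.Helper94 Cfsg.Agent.Lib.Helper45.SubQ
open Cfsg.Agent.Lib.Helper45.SUGen

variable {F : Type*} [Field F] [Fintype F] {n q : ℕ}

/-- the hypotheses on the rational structure -/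
structure Data (hF : Fintype.card F = q ^ 2) (F₀ : Subfield F) (ζ : F)
    (P : Matrix.GeneralLinearGroup (Fin n) F) : Prop where
  hq : Nat.card F₀ = q
  hζ0 : ζ ≠ 0
  hζ : ζ + ζ ^ q = 0
  hP : ∀ u v : Fin n → F₀, ζ * Cfsg.hermForm n F q (E F₀ P u) (E F₀ P v) ∈ F₀
  halt : ∀ u : Fin n → F₀, Cfsg.hermForm n F q (E F₀ P u) (E F₀ P u) = 0

variable {hF : Fintype.card F = q ^ 2} {F₀ : Subfield F} {ζ : F}
  {P : Matrix.GeneralLinearGroup (Fin n) F}

/-- the alternating form on the rational vectors -/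
noncomputable def B₀ (D : Data hF F₀ ζ P) : LinearMap.BilinForm F₀ (Fin n → F₀) :=
  LinearMap.mk₂ F₀ (fun u v => (⟨ζ * Cfsg.hermForm n F q (E F₀ P u) (E F₀ P v), D.hP u v⟩ : F₀))
    (by
      intro u u' v
      apply Subtype.ext
      change ζ * _ = ζ * _ + ζ * _
      rw [E_add, hermForm_add_left, mul_add])
    (by
      intro c u v
      apply Subtype.ext
      change ζ * _ = (c : F) * (ζ * _)
      rw [E_smul, hermForm_smul_left]; ring)
    (by
      intro u v v'
      apply Subtype.ext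
      change ζ * _ = ζ * _ + ζ * _
      rw [E_add, hermForm_add_right hF, mul_add])
    (by
      intro c u v
      apply Subtype.ext
      change ζ * _ = (c : F) * (ζ * _)
      rw [E_smul, hermForm_smul_right, (mem_iff_pow F₀ D.hq _).1 c.2]; ring)

lemma B₀_coe (D : Data hF F₀ ζ P) (u v : Fin n → F₀) :
    ((B₀ D u v : F₀) : F) = ζ * Cfsg.hermForm n F q (E F₀ P u) (E F₀ P v) := rfl

lemma B₀_isAlt (D : Data hF F₀ ζ P) : (B₀ D).IsAlt := by
  intro u
  apply Subtype.ext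
  rw [B₀_coe, D.halt, mul_zero]
  rfl

lemma herm_E (D : Data hF F₀ ζ P) (u v : Fin n → F₀) :
    Cfsg.hermForm n F q (E F₀ P u) (E F₀ P v) = ζ⁻¹ * (B₀ D u v : F₀) := by
  rw [B₀_coe, ← mul_assoc, inv_mul_cancel₀ D.hζ0, one_mul]

/-- every vector is a combination of rational vectors -/
lemma herm_eq_zero_of_E (D : Data hF F₀ ζ P) (x : Fin n → F)
    (h : ∀ v : Fin n → F₀, Cfsg.hermForm n F q x (E F₀ P v) = 0) : x = 0 := by
  obtain ⟨θ, hθ⟩ := exists_not_mem hF F₀ D.hq
  apply (hermH hF n).nondeg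
  intro y
  obtain ⟨a, b, rfl⟩ := exists_E_decomp F₀ P hF D.hq hθ y
  rw [(hermH hF n).eq_zero_comm, Cfsg.Agent.Lib.Helper5.hermB_apply, hermForm_add_right hF,
    hermForm_smul_right, h, h]
  simp

lemma B₀_nondegenerate (D : Data hF F₀ ζ P) : (B₀ D).Nondegenerate := by
  have key : ∀ x, (∀ y, B₀ D x y = 0) → x = 0 := by
    intro x hx
    rw [← E_eq_zero_iff F₀ P]
    apply herm_eq_zero_of_E D
    intro v
    rw [herm_E D, hx v]
    simp
  refine ⟨key, ?_⟩
  intro y hy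
  apply key
  intro x
  rw [alt_swap (B₀_isAlt D), hy x, neg_zero]

omit [Fintype F] in
lemma matrix_ext {X Y : Matrix (Fin n) (Fin n) F} (h : ∀ x, X *ᵥ x = Y *ᵥ x) : X = Y := by
  apply Matrix.toLin'.injective
  exact LinearMap.ext fun x => by rw [Matrix.toLin'_apply, Matrix.toLin'_apply, h]

/-- symplectic transvections of the rational structure are unitary transvections -/
lemma Φ_st (D : Data hF F₀ ζ P) (u : Fin n → F₀) (s : F₀) :
    ((Φ F₀ P (st (B₀ D) (B₀_isAlt D) u s) : Matrix.GeneralLinearGroup (Fin n) F) :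
      Matrix (Fin n) (Fin n) F) = Cfsg.unitaryTransvection n q (E F₀ P u) (s * ζ) := by
  apply ext_of_E F₀ P
  intro x
  rw [Φ_mulVec, st_apply, E_add, E_smul, unitaryTransvection_mulVec]
  congr 2
  push_cast
  rw [B₀_coe]
  ring

/-- vectors all of whose unitary transvections lie in `M` -/
def TV (q : ℕ) (M : Subgroup (Matrix.GeneralLinearGroup (Fin n) F)) : Set (Fin n → F) :=
  {v | ∀ (c : F) (g : Matrix.GeneralLinearGroup (Fin n) F), c + c ^ q = 0 →
    (g : Matrix (Fin n) (Fin n) F) = Cfsg.unitaryTransvection n q v c → g ∈ M}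

lemma TV_E (D : Data hF F₀ ζ P) {M : Subgroup (Matrix.GeneralLinearGroup (Fin n) F)}
    (hM : Cfsg.Geo.subfieldSubgroup F₀ P ⊓ (Cfsg.GU n F q ⊓ Cfsg.Geo.specialLinear (Fin n) F) ≤ M)
    (u : Fin n → F₀) : E F₀ P u ∈ TV q M := by
  intro c g hc hg
  have hζq : ζ ^ q = -ζ := by linear_combination D.hζ
  have hcq : c ^ q = -c := by linear_combination hc
  have hs : c / ζ ∈ F₀ := by
    rw [mem_iff_pow F₀ D.hq, div_pow, hζq, hcq, neg_div_neg_eq]
  have hg' : g = Φ F₀ P (st (B₀ D) (B₀_isAlt D) u ⟨c / ζ, hs⟩) := by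
    apply Units.ext
    rw [hg, Φ_st]
    congr 1
    change c = c / ζ * ζ
    rw [div_mul_cancel₀ _ D.hζ0]
  apply hM
  refine Subgroup.mem_inf.2 ⟨?_, Subgroup.mem_inf.2 ⟨?_, ?_⟩⟩
  · rw [hg']; exact Φ_mem F₀ P _
  · rw [mem_GU_iff', hg]
    exact ut_preserves hF (D.halt u) hc
  · rw [mem_specialLinear_iff, hg]
    exact ut_det hF (D.halt u) hc

lemma TV_smul (hF : Fintype.card F = q ^ 2) {M : Subgroup (Matrix.GeneralLinearGroup (Fin n) F)}
    {v : Fin n → F} (hv : v ∈ TV q M) (l : F) : l • v ∈ TV q M := by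
  intro c g hc hg
  refine hv (c * l * l ^ q) g ?_ ?_
  · rw [mul_pow, mul_pow, pow_q_pow_q hF]
    linear_combination (l * l ^ q) * hc
  · rw [hg]
    apply matrix_ext
    intro x
    rw [unitaryTransvection_mulVec, unitaryTransvection_mulVec, hermForm_smul_right, smul_smul]
    congr 2
    ring

omit [Fintype F] in
lemma TV_map {M : Subgroup (Matrix.GeneralLinearGroup (Fin n) F)}
    {v : Fin n → F} (hv : v ∈ TV q M) {m : Matrix.GeneralLinearGroup (Fin n) F} (hm : m ∈ M)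
    (hmU : m ∈ Cfsg.GU n F q) : (m : Matrix (Fin n) (Fin n) F) *ᵥ v ∈ TV q M := by
  intro c g hc hg
  have h1 : m⁻¹ * g * m ∈ M := by
    refine hv c _ hc ?_
    apply matrix_ext
    intro x
    rw [Units.val_mul, Units.val_mul, hg, ← Matrix.mulVec_mulVec, ← Matrix.mulVec_mulVec,
      unitaryTransvection_mulVec, unitaryTransvection_mulVec, (mem_GU_iff' m).1 hmU,
      Matrix.mulVec_add, Matrix.mulVec_smul, Matrix.mulVec_mulVec, Matrix.mulVec_mulVec,
      ← Units.val_mul, inv_mul_cancel, Units.val_one, Matrix.one_mulVec, Matrix.one_mulVec]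
  have h2 : g = m * (m⁻¹ * g * m) * m⁻¹ := by group
  rw [h2]
  exact M.mul_mem (M.mul_mem hm h1) (M.inv_mem hm)

/-- the norm of `a + θ b` -/
lemma herm_decomp (D : Data hF F₀ ζ P) (θ : F) (a b : Fin n → F₀) :
    ζ * Cfsg.hermForm n F q (E F₀ P a + θ • E F₀ P b) (E F₀ P a + θ • E F₀ P b) =
      (θ ^ q - θ) * (B₀ D a b : F₀) := by
  have h1 : ((B₀ D b a : F₀) : F) = -((B₀ D a b : F₀) : F) := by
    rw [alt_swap (B₀_isAlt D) b a]; rfl
  rw [B₀_coe, B₀_coe] at h1
  simp only [hermForm_add_left, hermForm_add_right hF, hermForm_smul_left, hermForm_smul_right,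
    D.halt, B₀_coe]
  linear_combination θ * h1

omit [Fintype F] in
lemma E_comb (θ : F) (a : Fin n → F₀) (s : F₀) :
    E F₀ P a + θ • E F₀ P (s • a) = (1 + θ * s) • E F₀ P a := by
  rw [E_smul, smul_smul, add_smul, one_smul]

/-- the core of the maximality proof -/
theorem core (D : Data hF F₀ ζ P) (hn : 4 ≤ n) (M : Subgroup (Matrix.GeneralLinearGroup (Fin n) F))
    (hHM : Cfsg.Geo.subfieldSubgroup F₀ P ⊓ (Cfsg.GU n F q ⊓ Cfsg.Geo.specialLinear (Fin n) F) ≤ M)
    (hMK : M ≤ Cfsg.GU n F q ⊓ Cfsg.Geo.specialLinear (Fin n) F)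
    (g0 : Matrix.GeneralLinearGroup (Fin n) F) (hg0 : g0 ∈ M)
    (hg0' : g0 ∉ Cfsg.Geo.subfieldSubgroup F₀ P ⊓
      (Cfsg.GU n F q ⊓ Cfsg.Geo.specialLinear (Fin n) F)) :
    Cfsg.GU n F q ⊓ Cfsg.Geo.specialLinear (Fin n) F ≤ M := by
  obtain ⟨θ, hθ⟩ := exists_not_mem hF F₀ D.hq
  have hθq : θ ^ q - θ ≠ 0 := by
    intro h
    exact hθ ((mem_iff_pow F₀ D.hq θ).2 (sub_eq_zero.1 h))
  have hA := B₀_isAlt D
  have hN := B₀_nondegenerate D
  have hMU : ∀ m ∈ M, m ∈ Cfsg.GU n F q := fun m hm => (Subgroup.mem_inf.1 (hMK hm)).1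
  have hg0S : g0 ∉ Cfsg.Geo.subfieldSubgroup F₀ P := fun h => hg0' (Subgroup.mem_inf.2 ⟨h, hMK hg0⟩)
  -- a rational vector mapped to a non-rational point
  obtain ⟨u₀, hu₀⟩ : ∃ u₀, ∀ (c : F) (w : Fin n → F₀),
      (g0 : Matrix (Fin n) (Fin n) F) *ᵥ E F₀ P u₀ ≠ c • E F₀ P w := by
    by_contra hcon
    push Not at hcon
    exact hg0S (mem_of_proj F₀ P hF D.hq (by omega) g0 hcon)
  obtain ⟨a', b', hab'⟩ := exists_E_decomp F₀ P hF D.hq hθ
    ((g0 : Matrix (Fin n) (Fin n) F) *ᵥ E F₀ P u₀)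
  have hvTV : E F₀ P a' + θ • E F₀ P b' ∈ TV q M := by
    rw [← hab']
    exact TV_map (TV_E D hHM u₀) hg0 (hMU g0 hg0)
  have ha'0 : a' ≠ 0 := by
    rintro rfl
    apply hu₀ θ b'
    rw [hab', E_zero, zero_add]
  have hb'a' : b' ∉ Submodule.span F₀ {a'} := by
    intro h
    obtain ⟨s, rfl⟩ := Submodule.mem_span_singleton.1 h
    apply hu₀ (1 + θ * s) a'
    rw [hab', E_comb]
  have hB' : B₀ D a' b' = 0 := by
    have h1 := herm_decomp D θ a' b'
    rw [← hab', (mem_GU_iff' g0).1 (hMU g0 hg0), D.halt, mul_zero] at h1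
    have := (mul_eq_zero.1 h1.symm).resolve_left hθq
    exact Subtype.ext this
  -- the rational symplectic group lies in `M`
  set G₀ : Subgroup ((Fin n → F₀) ≃ₗ[F₀] (Fin n → F₀)) := M.comap (Φ F₀ P) with hG₀
  have hst : ∀ v c, st (B₀ D) hA v c ∈ G₀ := by
    intro v c
    rw [hG₀, Subgroup.mem_comap]
    refine TV_E D hHM v (c * ζ) _ ?_ (Φ_st D v c)
    rw [mul_pow, (mem_iff_pow F₀ D.hq _).1 c.2]
    linear_combination (c : F) * D.hζ
  -- all isotropic vectors are in `TV`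
  have hall : ∀ v : Fin n → F, Cfsg.hermForm n F q v v = 0 → v ∈ TV q M := by
    intro v hv
    obtain ⟨a, b, rfl⟩ := exists_E_decomp F₀ P hF D.hq hθ v
    by_cases ha0 : a = 0
    · subst ha0
      rw [E_zero, zero_add]
      exact TV_smul hF (TV_E D hHM b) θ
    by_cases hba : b ∈ Submodule.span F₀ {a}
    · obtain ⟨s, rfl⟩ := Submodule.mem_span_singleton.1 hba
      rw [E_comb]
      exact TV_smul hF (TV_E D hHM a) _
    have hB : B₀ D a b = 0 := by
      have h1 := herm_decomp D θ a b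
      rw [hv, mul_zero] at h1
      have := (mul_eq_zero.1 h1.symm).resolve_left hθq
      exact Subtype.ext this
    obtain ⟨t1, ht1, ht1I, -, ht1a⟩ := exists_move hA hN G₀ ⊥ (fun v _ c => hst v c) a a'
      (by simpa using ha0) (by simpa using ha'0) (by
        intro u hu
        rw [(Submodule.mem_bot F₀).1 hu]; simp)
    obtain ⟨t2, ht2, ht2I, ht2a, ht2b⟩ := exists_move hA hN G₀ (Submodule.span F₀ {a})
      (fun v _ c => hst v c) b (t1 b') hba (by
        intro h
        obtain ⟨s, hs⟩ := Submodule.mem_span_singleton.1 h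
        apply hb'a'
        rw [Submodule.mem_span_singleton]
        refine ⟨s, t1.injective ?_⟩
        rw [map_smul, ht1a, hs]) (by
        intro u hu
        obtain ⟨s, rfl⟩ := Submodule.mem_span_singleton.1 hu
        rw [map_smul, LinearMap.smul_apply, LinearMap.smul_apply, hB, ← ht1a, ht1I, hB'])
    have hm : Φ F₀ P (t2 * t1) ∈ M := G₀.mul_mem ht2 ht1
    have := TV_map hvTV hm (hMU _ hm)
    rw [Matrix.mulVec_add, Matrix.mulVec_smul, Φ_mulVec, Φ_mulVec, LinearEquiv.mul_apply,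
      LinearEquiv.mul_apply, ht1a, ht2b, ht2a a (Submodule.mem_span_singleton_self a)] at this
    exact this
  exact su_le_of_transvections hF (by omega) (by omega) M
    (fun g v c hv hc hg => hall v hv c g hc hg)

/-- the subgroup is proper -/
theorem exists_not_mem_sub (D : Data hF F₀ ζ P) (hn : 3 ≤ n) :
    ∃ k ∈ Cfsg.GU n F q ⊓ Cfsg.Geo.specialLinear (Fin n) F,
      k ∉ Cfsg.Geo.subfieldSubgroup F₀ P ⊓ (Cfsg.GU n F q ⊓ Cfsg.Geo.specialLinear (Fin n) F) := by
  obtain ⟨θ, hθ⟩ := exists_not_mem hF F₀ D.hq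
  have hA := B₀_isAlt D
  have hN := B₀_nondegenerate D
  set a : Fin n → F₀ := Pi.single ⟨0, by omega⟩ 1 with ha
  have ha0 : a ≠ 0 := by
    intro h
    have := congrFun h ⟨0, by omega⟩
    simp [ha] at this
  obtain ⟨b, hab, hba⟩ : ∃ b, B₀ D a b = 0 ∧ b ∉ Submodule.span F₀ {a} := by
    by_contra hcon
    push Not at hcon
    have hle : LinearMap.ker (B₀ D a) ≤ Submodule.span F₀ {a} := fun b hb => hcon b hb
    have h1 := LinearMap.finrank_range_add_finrank_ker (B₀ D a)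
    have h2 : finrank F₀ (LinearMap.range (B₀ D a)) ≤ 1 :=
      (Submodule.finrank_le _).trans (by simp)
    have h3 := Submodule.finrank_mono hle
    have h4 := finrank_span_le_card (R := F₀) ({a} : Set (Fin n → F₀))
    simp at h4
    rw [Module.finrank_fin_fun] at h1
    omega
  have hb0 : b ≠ 0 := by
    rintro rfl
    exact hba (Submodule.zero_mem _)
  have hab' : a ∉ Submodule.span F₀ {b} := by
    intro h
    obtain ⟨s, hs⟩ := Submodule.mem_span_singleton.1 h
    have hs0 : s ≠ 0 := by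
      rintro rfl
      rw [zero_smul] at hs
      exact ha0 hs.symm
    apply hba
    rw [Submodule.mem_span_singleton]
    exact ⟨s⁻¹, by rw [← hs, smul_smul, inv_mul_cancel₀ hs0, one_smul]⟩
  obtain ⟨z, hz, haz⟩ := Cfsg.Agent.Lib.Helper94.exists_perp_ne hA hN (Submodule.span F₀ {b}) hab'
  have hbz : B₀ D b z = 0 :=
    (LinearMap.BilinForm.mem_orthogonal_iff.1 hz) b (Submodule.mem_span_singleton_self b)
  set v : Fin n → F := E F₀ P a + θ • E F₀ P b with hv
  have hvv : Cfsg.hermForm n F q v v = 0 := by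
    have h1 := herm_decomp D θ a b
    rw [hab] at h1
    simp only [ZeroMemClass.coe_zero, mul_zero] at h1
    exact (mul_eq_zero.1 h1).resolve_left D.hζ0
  have hdet := ut_det hF hvv D.hζ
  let k : Matrix.GeneralLinearGroup (Fin n) F :=
    Matrix.GeneralLinearGroup.mkOfDetNeZero (Cfsg.unitaryTransvection n q v ζ) (by
      rw [hdet]; exact one_ne_zero)
  have hk : (k : Matrix (Fin n) (Fin n) F) = Cfsg.unitaryTransvection n q v ζ := rfl
  refine ⟨k, Subgroup.mem_inf.2 ⟨?_, ?_⟩, ?_⟩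
  · rw [mem_GU_iff', hk]
    exact ut_preserves hF hvv D.hζ
  · rw [mem_specialLinear_iff, hk]
    exact hdet
  · intro hcon
    obtain ⟨c, hc⟩ := exists_of_mem F₀ P (Subgroup.mem_inf.1 hcon).1
    obtain ⟨w, hw⟩ := hc z
    obtain ⟨c₁, c₂, rfl⟩ := exists_decomp hF F₀ D.hq hθ c
    set r : F₀ := B₀ D z a with hr
    have hr0 : r ≠ 0 := by
      rw [hr, alt_swap hA]
      exact neg_ne_zero.2 haz
    have hzb : B₀ D z b = 0 := by rw [alt_swap hA, hbz, neg_zero]
    have h1 : ζ * Cfsg.hermForm n F q (E F₀ P z) v = r := by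
      rw [hv, hermForm_add_right hF, hermForm_smul_right, mul_add, hr, B₀_coe]
      have : ζ * Cfsg.hermForm n F q (E F₀ P z) (E F₀ P b) = 0 := by
        rw [← B₀_coe D, hzb]; rfl
      linear_combination θ ^ q * this
    rw [hk, unitaryTransvection_mulVec, h1] at hw
    have h2 : E F₀ P (z + r • a) + θ • E F₀ P (r • b) = E F₀ P (c₁ • w) + θ • E F₀ P (c₂ • w) := by
      rw [E_add, E_smul, E_smul, E_smul, E_smul]
      rw [hv] at hw
      rw [add_smul, smul_add] at hw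
      rw [smul_smul θ, smul_smul θ, mul_comm θ (r : F), ← smul_smul (r : F) θ, add_assoc, hw]
    obtain ⟨e1, e2⟩ := E_decomp_unique F₀ P hθ h2
    have h3 : c₂ • (z + r • a) = c₁ • (r • b) := by
      rw [e1, e2, smul_comm]
    have h4 := congrArg (B₀ D a) h3
    rw [map_smul, map_smul, map_smul, map_add, map_smul, hA a, hab] at h4
    simp only [smul_eq_mul, mul_zero, add_zero] at h4
    have hc2 : c₂ = 0 := (mul_eq_zero.1 h4).resolve_right haz
    rw [hc2, zero_smul] at e2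
    exact hb0 ((smul_eq_zero.1 e2).resolve_left hr0)

/-- **Maximality of the symplectic subfield subgroup of the special unitary group.** -/
theorem maximal (D : Data hF F₀ ζ P) (hn : 4 ≤ n) :
    Cfsg.Geo.IsMaximalIn (Cfsg.GU n F q ⊓ Cfsg.Geo.specialLinear (Fin n) F)
      (Cfsg.Geo.subfieldSubgroup F₀ P ⊓ (Cfsg.GU n F q ⊓ Cfsg.Geo.specialLinear (Fin n) F)) :=
  isMaximalIn_of_core _ _ inf_le_right (exists_not_mem_sub D (by omega))
    (fun M hHM hMK g0 hg0 hg0' => core D hn M hHM hMK g0 hg0 hg0')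

end Cfsg.Agent.Lib.Helper45.SpInSU
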