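import Cfsg.Prelude.Def_Classical
import Cfsg.Prelude.Def_LieClassical
import Cfsg.Agent.Lib.Helper45.QuadExt

set_option autoImplicit false

/-! The norm form `Σ N(x_i)` on `K^(k+k)` (`K / F` quadratic, finite fields) is hyperbolic over `F`. -/

namespace Cfsg.Agent.Lib.Helper45

open Matrix

variable {F K : Type*} [Field F] [Fintype F] [Field K] [Fintype K] [Algebra F K]

theorem mem_GU_iff {n : ℕ} {K : Type*} [Field K] {q : ℕ} (g : Matrix.GeneralLinearGroup (Fin n) K) :
    g ∈ Cfsg.GU n K q ↔ ∀ u v, Cfsg.hermForm n K q (g.1 *ᵥ u) (g.1 *ᵥ v) = Cfsg.hermForm n K q u v :=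
  Iff.rfl

theorem mem_isometryGroup_iff {ι : Type} [Fintype ι] [DecidableEq ι] {F : Type*} [Field F]
    (Q : (ι → F) → F) (g : Matrix.GeneralLinearGroup ι F) :
    g ∈ Cfsg.isometryGroup F Q ↔ ∀ u, Q (g.1 *ᵥ u) = Q u :=
  ⟨fun h u => h u u, fun h u _ => h u⟩

/-- `s = w - c u`. -/
noncomputable def sL (c : K) : K × K →ₗ[F] K :=
  LinearMap.snd F K K - (LinearMap.mulLeft F c) ∘ₗ LinearMap.fst F K K

/-- `t = (c u)^q + θ s^q`. -/
noncomputable def tL (c θ : K) : K × K →ₗ[F] K :=
  (conjL F K) ∘ₗ (LinearMap.mulLeft F c) ∘ₗ LinearMap.fst F K K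
    + (LinearMap.mulLeft F θ) ∘ₗ (conjL F K) ∘ₗ sL c

omit [Fintype F] [Fintype K] in
theorem sL_apply (c : K) (p : K × K) : sL (F := F) c p = p.2 - c * p.1 := rfl

omit [Fintype K] in
theorem tL_apply (c θ : K) (p : K × K) :
    tL (F := F) c θ p = (c * p.1) ^ Fintype.card F + θ * (p.2 - c * p.1) ^ Fintype.card F := rfl

theorem trace_sL_tL (hfr : Module.finrank F K = 2) (c θ : K)
    (hc : c * c ^ Fintype.card F = -1) (hθ : Algebra.trace F K θ = 1) (p : K × K) :
    algebraMap F K (Algebra.trace F K (sL (F := F) c p * tL (F := F) c θ p))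
      = p.1 * p.1 ^ Fintype.card F + p.2 * p.2 ^ Fintype.card F := by
  have hθ' : θ + θ ^ Fintype.card F = 1 := by
    rw [← algebraMap_trace_quad hfr, hθ, map_one]
  rw [algebraMap_trace_quad hfr, sL_apply, tL_apply]
  obtain ⟨u, w⟩ := p
  simp only
  have hsub : ∀ x y : K, (x - y) ^ Fintype.card F = x ^ Fintype.card F - y ^ Fintype.card F :=
    fun x y => map_sub (FiniteField.frobeniusAlgHom F K) x y
  have hadd : ∀ x y : K, (x + y) ^ Fintype.card F = x ^ Fintype.card F + y ^ Fintype.card F :=
    fun x y => map_add (FiniteField.frobeniusAlgHom F K) x y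
  simp only [mul_pow, hsub, hadd, pow_card_pow_card hfr]
  generalize u ^ Fintype.card F = u' at *
  generalize w ^ Fintype.card F = w' at *
  generalize c ^ Fintype.card F = c' at *
  generalize θ ^ Fintype.card F = θ' at *
  have hθ2 : θ' = 1 - θ := by linear_combination hθ'
  subst hθ2
  linear_combination (-u * u') * hc

/-- The coordinates making the norm form on `K^(k+k)` hyperbolic. -/
noncomputable def hypT (k : ℕ) (c θ : K) (b b' : Module.Basis (Fin 2) F K) :
    (Fin (k + k) → K) →ₗ[F] (Fin (k + k) ⊕ Fin (k + k) → F) where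
  toFun x := Sum.elim
    (Fin.addCases
      (fun j => b.repr (sL (F := F) c (x (Fin.castAdd k j), x (Fin.natAdd k j))) 0)
      (fun j => b.repr (sL (F := F) c (x (Fin.castAdd k j), x (Fin.natAdd k j))) 1))
    (Fin.addCases
      (fun j => b'.repr (tL (F := F) c θ (x (Fin.castAdd k j), x (Fin.natAdd k j))) 0)
      (fun j => b'.repr (tL (F := F) c θ (x (Fin.castAdd k j), x (Fin.natAdd k j))) 1))
  map_add' x y := by
    ext i
    rcases i with i | i <;> refine Fin.addCases (fun j => ?_) (fun j => ?_) i <;>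
      simp [-Fin.natAdd_eq_addNat, ← Prod.mk_add_mk]
  map_smul' t x := by
    ext i
    rcases i with i | i <;> refine Fin.addCases (fun j => ?_) (fun j => ?_) i <;>
      simp [-Fin.natAdd_eq_addNat, ← Prod.smul_mk]

omit [Fintype K] in
theorem hypT_injective (k : ℕ) (c θ : K) (hc : c ≠ 0) (b b' : Module.Basis (Fin 2) F K) :
    Function.Injective (hypT k c θ b b') := by
  rw [injective_iff_map_eq_zero]
  intro x hx
  have hs : ∀ j, sL (F := F) c (x (Fin.castAdd k j), x (Fin.natAdd k j)) = 0 := by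
    intro j
    have : b.repr (sL (F := F) c (x (Fin.castAdd k j), x (Fin.natAdd k j))) = 0 := by
      ext a
      fin_cases a
      · have := congrFun hx (.inl (Fin.castAdd k j))
        simpa [hypT, -Fin.natAdd_eq_addNat] using this
      · have := congrFun hx (.inl (Fin.natAdd k j))
        simpa [hypT, -Fin.natAdd_eq_addNat] using this
    simpa using this
  have ht : ∀ j, tL (F := F) c θ (x (Fin.castAdd k j), x (Fin.natAdd k j)) = 0 := by
    intro j
    have : b'.repr (tL (F := F) c θ (x (Fin.castAdd k j), x (Fin.natAdd k j))) = 0 := by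
      ext a
      fin_cases a
      · have := congrFun hx (.inr (Fin.castAdd k j))
        simpa [hypT, -Fin.natAdd_eq_addNat] using this
      · have := congrFun hx (.inr (Fin.natAdd k j))
        simpa [hypT, -Fin.natAdd_eq_addNat] using this
    simpa using this
  have hu : ∀ j, x (Fin.castAdd k j) = 0 := by
    intro j
    have h1 := hs j
    have h2 := ht j
    rw [sL_apply] at h1
    rw [tL_apply] at h2
    simp only at h1 h2
    rw [h1, zero_pow Fintype.card_ne_zero, mul_zero, add_zero] at h2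
    have h3 := pow_eq_zero_iff (Fintype.card_ne_zero) |>.1 h2
    exact (mul_eq_zero.1 h3).resolve_left hc
  have hw : ∀ j, x (Fin.natAdd k j) = 0 := by
    intro j
    have h1 := hs j
    rw [sL_apply] at h1
    simp only at h1
    rw [hu j, mul_zero, sub_zero] at h1
    exact h1
  ext i
  refine Fin.addCases (fun j => hu j) (fun j => hw j) i

theorem hypT_form (hfr : Module.finrank F K = 2) (k : ℕ) (c θ : K)
    (hc : c * c ^ Fintype.card F = -1) (hθ : Algebra.trace F K θ = 1)
    (b b' : Module.Basis (Fin 2) F K)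
    (hbb : ∀ s t, Algebra.trace F K (b s * b' t) = if s = t then 1 else 0)
    (x : Fin (k + k) → K) :
    algebraMap F K (Cfsg.quadFormPlus (k + k) F (hypT k c θ b b' x))
      = Cfsg.hermForm (k + k) K (Fintype.card F) x x := by
  simp only [Cfsg.quadFormPlus, Cfsg.hermForm, hypT, LinearMap.coe_mk, AddHom.coe_mk,
    Sum.elim_inl, Sum.elim_inr, Fin.sum_univ_add, Fin.addCases_left, Fin.addCases_right]
  rw [← Finset.sum_add_distrib, ← Finset.sum_add_distrib, map_sum]
  refine Finset.sum_congr rfl fun j _ => ?_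
  rw [← trace_sL_tL hfr c θ hc hθ (x (Fin.castAdd k j), x (Fin.natAdd k j)),
    trace_mul_eq_sum b b' hbb, Fin.sum_univ_two]

end Cfsg.Agent.Lib.Helper45
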